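/-
The spinor norm on the stabiliser of a totally singular subspace in characteristic three.
-/
import Mathlib
import Cfsg.Agent.KSG.ClsNum

set_option autoImplicit false

namespace CL.FiT

open Module CL.Orth QuadraticMap Matrix

abbrev F3 : Type := ZMod 3

theorem two_ne : (2 : F3) ≠ 0 := by decide

variable {V : Type} [AddCommGroup V] [Module F3 V] [FiniteDimensional F3 V]
  {Q : QuadraticForm F3 V} (hQ : (polarBilin Q).Nondegenerate)

theorem hF3 : Nat.card F3 ≠ 2 ∨ finrank F3 V ≠ 4 := Or.inl (by simp)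

/-- Determinant and spinor norm. -/
noncomputable def ds : O Q →* ℤˣ × ℤˣ := (dickson hQ hF3).prod (spinor hQ hF3)

theorem ds_apply (g : O Q) : ds hQ g = (dsign g, spin g) := rfl

theorem units_sq (a : ℤˣ × ℤˣ) : a * a = 1 := by revert a; decide

theorem ds_of_cube {g : O Q} (h : g ^ 3 = 1) : ds hQ g = 1 := by
  have h1 : ds hQ g ^ 3 = 1 := by rw [← map_pow, h, map_one]
  rwa [pow_three, units_sq, mul_one] at h1

omit [FiniteDimensional F3 V] in
theorem three_smul (v : V) : v + v + v = 0 := by
  have : ((1 + 1 + 1 : F3)) • v = 0 := by rw [show (1 + 1 + 1 : F3) = 0 from rfl, zero_smul]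
  simpa [add_smul] using this

section Levi

variable {κ : Type} [Fintype κ] [DecidableEq κ] (ι : (κ → F3) →ₗ[F3] V)

/-- `g` acts on the image `W` of `ι` by the matrix `M`, and trivially on `W^⊥ / W`. -/
structure Lev (g : O Q) (M : Matrix κ κ F3) : Prop where
  act : ∀ c, g.1 (ι c) = ι (M *ᵥ c)
  triv : ∀ v, (∀ c, polar Q (ι c) v = 0) → ∃ c, g.1 v = v + ι c

variable {ι}

omit [FiniteDimensional F3 V] [DecidableEq κ] in
theorem Lev.mul (h0 : ∀ c, Q (ι c) = 0) {g g' : O Q} {M M' : Matrix κ κ F3} (h : Lev ι g M)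
    (h' : Lev ι g' M') : Lev ι (g * g') (M * M') where
  act c := by rw [O_mul_apply, h'.act, h.act, mulVec_mulVec]
  triv v hv := by
    obtain ⟨c, hc⟩ := h'.triv v hv
    obtain ⟨d, hd⟩ := h.triv v hv
    exact ⟨d + M *ᵥ c, by rw [O_mul_apply, hc, map_add, hd, h.act, map_add, add_assoc]⟩

omit [FiniteDimensional F3 V] in
theorem Lev.cube {g : O Q} (h : Lev ι g 1) : g ^ 3 = 1 := by
  refine O_ext fun v => ?_
  have h1 : ∀ c, g.1 (ι c) = ι c := fun c => by rw [h.act, one_mulVec]
  obtain ⟨c, hc⟩ := h.triv (g.1 v - v) fun c => by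
    rw [polar_sub_right, ← O_polar g (ι c) v, h1, sub_self]
  have h2 : g.1 (g.1 v) = g.1 v + g.1 v - v + ι c := by
    rw [map_sub, sub_eq_iff_eq_add] at hc
    rw [hc]; abel
  rw [pow_three, O_mul_apply, O_mul_apply, h2, map_add, map_sub, map_add, h2, h1, O_one_apply]
  have e1 := three_smul (g.1 v)
  have e2 := three_smul v
  have e3 := three_smul (ι c)
  linear_combination (norm := abel) e1 - e2 + e3

include hQ in
theorem exists_dual (hι : Function.Injective ι) :
    ∃ y : κ → V, ∀ j c, polar Q (y j) (ι c) = c j := by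
  obtain ⟨ρ, hρ⟩ := ι.exists_leftInverse_of_injective (LinearMap.ker_eq_bot.2 hι)
  refine ⟨fun j => (LinearMap.BilinForm.toDual (polarBilin Q) hQ).symm ((LinearMap.proj j).comp ρ), fun j c => ?_⟩
  rw [← polarBilin_apply_apply, LinearMap.BilinForm.apply_toDual_symm_apply]
  exact congrFun (LinearMap.congr_fun hρ c) j

include hQ in
theorem exists_lev (hι : Function.Injective ι) (h0 : ∀ c, Q (ι c) = 0) (M : Matrix κ κ F3)
    (hM : M.det ≠ 0) : ∃ g : O Q, Lev ι g M ∧ ds hQ g = (1, sqSign M.det) := by
  obtain ⟨y, hy⟩ := exists_dual hQ hι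
  have hp : ∀ c d, polar Q (ι c) (ι d) = 0 := fun c d => by
    simp [polar, ← map_add, h0]
  have mul : ∀ A B : Matrix κ κ F3, A.det ≠ 0 → B.det ≠ 0 →
      (∃ g : O Q, Lev ι g A ∧ ds hQ g = (1, sqSign A.det)) →
      (∃ g : O Q, Lev ι g B ∧ ds hQ g = (1, sqSign B.det)) →
      ∃ g : O Q, Lev ι g (A * B) ∧ ds hQ g = (1, sqSign (A * B).det) := by
    rintro A B hA hB ⟨g, h1, h2⟩ ⟨g', h1', h2'⟩
    exact ⟨g * g', h1.mul h0 h1', by rw [map_mul, h2, h2', det_mul, sqSign_mul hA hB]; rfl⟩
  refine diagonal_transvection_induction_of_det_ne_zero _ M hM (fun D hD => ?_) (fun t => ?_) mul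
  · have hD' : ∀ i, D i ≠ 0 := fun i => by
      rw [det_diagonal] at hD
      exact Finset.prod_ne_zero_iff.1 hD i (Finset.mem_univ i)
    have one : ∀ i, ∃ g : O Q, Lev ι g (diagonal (Function.update 1 i (D i))) ∧
        ds hQ g = (1, sqSign (diagonal (Function.update 1 i (D i))).det) := fun i => by
      set e := ι (Pi.single i 1)
      set f := y i - Q (y i) • e
      have hf : ∀ c, polar Q f (ι c) = c i := fun c => by
        rw [polar_sub_left, polar_smul_left', hy, hp, mul_zero, sub_zero]
      have hef : polar Q e f = 1 := by rw [polar_comm, hf, Pi.single_eq_same]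
      have hf0 : Q f = 0 := by
        rw [Q_sub, Q_smul, h0, polar_smul_right', hy, Pi.single_eq_same]; ring
      refine ⟨torus Q e f (D i), ⟨fun c => ?_, fun v hv => ⟨((D i - 1) * polar Q f v) •
        Pi.single i 1, ?_⟩⟩, ?_⟩
      · rw [torus_apply (h0 _) hf0 hef (hD' i), hf, hp, mul_zero, zero_smul, add_zero, ← map_smul,
          ← map_add]
        congr 1
        ext k
        by_cases hk : k = i
        · subst hk; simp [mulVec_diagonal]; ring
        · simp [mulVec_diagonal, hk]
      · rw [torus_apply (h0 _) hf0 hef (hD' i), hv, mul_zero, zero_smul, add_zero, map_smul]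
      · rw [ds_apply, dsign_torus hQ (h0 _) hf0 hef (hD' i), spin_torus hQ (h0 _) hf0 hef (hD' i),
          det_diagonal, Finset.prod_update_of_mem (Finset.mem_univ i)]
        simp
    have all : ∀ s : Finset κ, ∃ g : O Q, Lev ι g (diagonal fun i => if i ∈ s then D i else 1) ∧
        ds hQ g = (1, sqSign (diagonal fun i => if i ∈ s then D i else 1).det) := fun s => by
      induction s using Finset.induction_on with
      | empty => exact ⟨1, ⟨fun c => by simp [O_one_apply], fun v _ => ⟨0, by simp [O_one_apply]⟩⟩,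
          by simp [sqSign_one]; rfl⟩
      | insert i s hi ih =>
        have := mul _ _ (by
          rw [det_diagonal, Finset.prod_update_of_mem (Finset.mem_univ i)]
          simpa using hD' i) (by
          rw [det_diagonal]
          exact Finset.prod_ne_zero_iff.2 fun k _ => by split_ifs; exacts [hD' k, one_ne_zero])
          (one i) ih
        rw [diagonal_mul_diagonal] at this
        have e : (fun k => if k ∈ insert i s then D k else 1) =
            fun k => Function.update (1 : κ → F3) i (D i) k * if k ∈ s then D k else 1 := by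
          funext k
          by_cases hk : k = i
          · subst hk; simp [hi]
          · simp [hk]
        rwa [e]
    simpa using all Finset.univ
  · have hw : polar Q (ι (Pi.single t.i 1)) (t.c • y t.j) = 0 := by
      rw [polar_smul_right', polar_comm, hy, Pi.single_eq_of_ne t.hij.symm, mul_zero]
    refine ⟨eich Q (h0 _) hw, ⟨fun c => ?_, fun v hv => ⟨polar Q (t.c • y t.j) v • Pi.single t.i 1,
      ?_⟩⟩, ?_⟩
    · rw [eich_apply, hp, polar_smul_left', hy, mul_zero, zero_smul, zero_smul, sub_zero, sub_zero,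
        ← map_smul, ← map_add, TransvectionStruct.toMatrix, transvection, add_mulVec, one_mulVec,
        single_mulVec]
      congr 2
      ext k
      by_cases hk : k = t.i
      · subst hk; simp
      · simp [hk]
    · rw [eich_apply, hv, mul_zero, zero_smul, zero_smul, sub_zero, sub_zero, map_smul]
    · rw [t.det, sqSign_one]
      refine ds_of_cube hQ (O_ext fun v => ?_)
      have hw2 : polar Q (ι (Pi.single t.i 1)) (t.c • y t.j + t.c • y t.j) = 0 := by
        rw [polar_add_right, hw, add_zero]
      rw [pow_three, O_mul_apply, O_mul_apply]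
      change eichLin Q _ _ (eichLin Q _ _ (eichLin Q _ _ v)) = v
      rw [eichLin_eichLin (h0 _) hw hw, eichLin_eichLin (h0 _) hw2 hw, three_smul,
        eichLin_zero]

include hQ in
theorem Lev.ds_eq (hι : Function.Injective ι) (h0 : ∀ c, Q (ι c) = 0) {g : O Q}
    {M : Matrix κ κ F3} (h : Lev ι g M) (hM : M.det = 1) : ds hQ g = 1 := by
  obtain ⟨g', h1, h2⟩ := exists_lev hQ hι h0 M⁻¹ (by rw [det_nonsing_inv, hM]; simp)
  have h3 := h.mul h0 h1
  rw [mul_nonsing_inv _ (by rw [hM]; exact isUnit_one)] at h3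
  have h4 := ds_of_cube hQ h3.cube
  rw [map_mul, h2, det_nonsing_inv, hM] at h4
  rw [← h4]
  simp [sqSign_one]

end Levi

end CL.FiT
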