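/-
Normalisers of unipotent elements of order three in orthogonal groups over `F₃`.
-/
import Mathlib
import Cfsg.Agent.SPOR.FiT2

set_option autoImplicit false

namespace CL.FiT

open Module CL.Orth CL.Nil CL.Witt QuadraticMap Matrix

/-- The model space for `a`, `b`, `c` Jordan blocks of sizes `1`, `2`, `3`. -/
abbrev Md (a b c : ℕ) : Type :=
  ((Fin c → F3) × (Fin c → F3) × (Fin c → F3)) × ((Fin b → F3) × (Fin b → F3)) × (Fin a → F3)

/-- The model nilpotent operator. -/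
def Xm {a b c : ℕ} (v : Md a b c) : Md a b c := ((0, v.1.1, v.1.2.1), (0, v.2.1.1), 0)

/-- The model form. -/
structure Model {a b c : ℕ} (Q : QuadraticForm F3 (Md a b c))
    (β₂ : LinearMap.BilinForm F3 (Fin c → F3)) (β₁ : LinearMap.BilinForm F3 (Fin b → F3))
    (β₀ : LinearMap.BilinForm F3 (Fin a → F3)) : Prop where
  nd : (polarBilin Q).Nondegenerate
  t2 : Top (FormType.quad F3) 2 β₂
  t1 : Top (FormType.quad F3) 1 β₁
  t0 : Top (FormType.quad F3) 0 β₀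
  form : ∀ v w, polar Q v w = β₂ v.1.2.2 w.1.1 - β₂ v.1.2.1 w.1.2.1 + β₂ v.1.1 w.1.2.2 +
    (β₁ v.2.1.2 w.2.1.1 - β₁ v.2.1.1 w.2.1.2) + β₀ v.2.2 w.2.2

variable {a b c : ℕ} {Q : QuadraticForm F3 (Md a b c)} {β₂ : LinearMap.BilinForm F3 (Fin c → F3)}
  {β₁ : LinearMap.BilinForm F3 (Fin b → F3)} {β₀ : LinearMap.BilinForm F3 (Fin a → F3)}

section Norm

variable {g : O Q} {ε : F3} (hε : ε * ε = 1) (hg : ∀ v, g.1 (Xm v) = ε • Xm (g.1 v))
include hε hg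

theorem k2 {v : Md a b c} (h : v.1.1 = 0) : (g.1 v).1.1 = 0 := by
  have h1 : Xm (Xm v) = 0 := by simp [Xm, h]
  have h2 := hg (Xm v)
  rw [h1, g.1.map_zero, hg] at h2
  have h3 := congrArg (fun w : Md a b c => w.1.2.2) h2
  simpa [Xm, smul_smul, hε] using h3.symm

theorem k1 {v : Md a b c} (h : v.1.1 = 0) (h' : v.1.2.1 = 0) (h'' : v.2.1.1 = 0) :
    (g.1 v).1.2.1 = 0 ∧ (g.1 v).2.1.1 = 0 := by
  have h1 : Xm v = 0 := by simp [Xm, h, h', h'']
  have h2 := hg v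
  have e : ε ≠ 0 := left_ne_zero_of_mul_eq_one hε
  rw [h1, g.1.map_zero] at h2
  have h3 := congrArg (fun w : Md a b c => w.1.2.2) h2
  have h4 := congrArg (fun w : Md a b c => w.2.1.2) h2
  exact ⟨by simpa [Xm, e] using h3.symm, by simpa [Xm, e] using h4.symm⟩

theorem kp {v : Md a b c} (h : v.1.1 = 0) (h' : v.2.1.1 = 0) : (g.1 v).2.1.1 = 0 := by
  have e : v = Xm ((v.1.2.1, 0, 0), 0, 0) + ((0, 0, v.1.2.2), (0, v.2.1.2), v.2.2) := by
    ext <;> simp [Xm, h, h']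
  rw [e, g.1.map_add, hg, Prod.snd_add, Prod.fst_add, Prod.fst_add, (k1 hε hg rfl rfl rfl).2]
  simp [Xm]

theorem Model.ds_eq (m : Model Q β₂ β₁ β₀)
    (ht : ∀ v : Md a b c, v.1.1 = 0 → v.2.1.1 = 0 → (g.1 v).1.2.1 = v.1.2.1 ∧ (g.1 v).2.2 = v.2.2)
    (hd : ∀ R : Matrix (Fin b) (Fin b) F3, (∀ x y, ε * β₁ (R *ᵥ x) (R *ᵥ y) = β₁ x y) →
      ε ^ c * R.det = 1) : ds m.nd g = 1 := by
  let ι : (Fin c ⊕ Fin b → F3) →ₗ[F3] Md a b c :=
    { toFun := fun x => ((0, 0, x ∘ Sum.inl), (0, x ∘ Sum.inr), 0)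
      map_add' := fun x y => by ext <;> simp
      map_smul' := fun t x => by ext <;> simp }
  have hι : ∀ x, ι x = ((0, 0, x ∘ Sum.inl), (0, x ∘ Sum.inr), 0) := fun _ => rfl
  let j : (Fin b → F3) →ₗ[F3] Md a b c :=
    { toFun := fun y => (0, (y, 0), 0)
      map_add' := fun x y => by ext <;> simp
      map_smul' := fun t x => by ext <;> simp }
  have hj : ∀ y, j y = (0, (y, 0), 0) := fun _ => rfl
  let R : Matrix (Fin b) (Fin b) F3 := LinearMap.toMatrix' (ε • (LinearMap.fst _ _ _ ∘ₗ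
    LinearMap.fst _ _ _ ∘ₗ LinearMap.snd _ _ _ ∘ₗ (g.1 : Md a b c →ₗ[F3] Md a b c) ∘ₗ j))
  let N : Matrix (Fin c) (Fin b) F3 := LinearMap.toMatrix' (ε • (LinearMap.fst _ _ _ ∘ₗ
    LinearMap.snd _ _ _ ∘ₗ LinearMap.fst _ _ _ ∘ₗ (g.1 : Md a b c →ₗ[F3] Md a b c) ∘ₗ j))
  have hR : ∀ y, R *ᵥ y = ε • (g.1 (j y)).2.1.1 := fun y => LinearMap.toMatrix'_mulVec _ _
  have hN : ∀ y, N *ᵥ y = ε • (g.1 (j y)).1.2.1 := fun y => LinearMap.toMatrix'_mulVec _ _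
  refine Lev.ds_eq m.nd (ι := ι) (M := fromBlocks (ε • 1) N 0 R) (fun x y h => ?_) (fun x => ?_)
    ⟨fun x => ?_, fun v hv => ?_⟩ ?_
  · ext (i | i)
    · exact congrFun (congrArg (fun w : Md a b c => w.1.2.2) h) i
    · exact congrFun (congrArg (fun w : Md a b c => w.2.1.2) h) i
  · have := m.form (ι x) (ι x)
    rw [polar_self'] at this
    simpa [hι, two_ne] using this
  · have e : ι x = Xm ((0, x ∘ Sum.inl, 0), 0, 0) + Xm (j (x ∘ Sum.inr)) := by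
      ext <;> simp [Xm, hι, hj]
    have h1 := ht ((0, x ∘ Sum.inl, 0), 0, 0) rfl rfl
    have h2 := k2 hε hg (v := ((0, x ∘ Sum.inl, 0), 0, 0)) rfl
    have h3 := kp hε hg (v := ((0, x ∘ Sum.inl, 0), 0, 0)) rfl rfl
    have h4 := k2 hε hg (v := j (x ∘ Sum.inr)) rfl
    rw [e, g.1.map_add, hg, hg, hι, fromBlocks_mulVec, hR, hN, smul_mulVec, one_mulVec]
    ext <;> simp [Xm, h1.1, h2, h3, h4]
  · have h1 : v.1.1 = 0 := m.t2.nd _ fun y => by
      have := hv (Sum.elim y 0)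
      rw [polar_comm, m.form] at this
      simpa [hι] using this
    have h2 : v.2.1.1 = 0 := m.t1.nd _ fun y => by
      have := hv (Sum.elim 0 y)
      rw [polar_comm, m.form] at this
      simpa [hι] using this
    have h3 := ht v h1 h2
    refine ⟨Sum.elim ((g.1 v).1.2.2 - v.1.2.2) ((g.1 v).2.1.2 - v.2.1.2), ?_⟩
    ext <;> simp [hι, h1, h2, h3.1, h3.2, k2 hε hg h1, kp hε hg h1 h2]
  · rw [det_fromBlocks_zero₂₁, det_smul, det_one, mul_one, Fintype.card_fin]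
    refine hd R fun x y => ?_
    have h1 := O_polar g (Xm (j x)) (j y)
    rw [hg, m.form, m.form] at h1
    have h2 := k2 hε hg (v := j x) rfl
    have h3 := k2 hε hg (v := j y) rfl
    rw [hR, hR]
    simp only [map_smul, LinearMap.smul_apply, smul_eq_mul]
    simp [Xm, hj] at h1 h2 h3
    simp [h2, h3, hj] at h1 ⊢
    rw [← h1]
    linear_combination (β₁ (g.1 (0, (x, 0), 0)).2.1.1 (g.1 (0, (y, 0), 0)).2.1.1 * ε) * hε

end Norm

theorem alt_of_top (t : Top (FormType.quad F3) 1 β₁) (x y : Fin b → F3) : β₁ y x = -β₁ x y := by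
  rw [t.symm]; change 1 * (-1) ^ 1 * _ = _; ring

theorem self_of_top (t : Top (FormType.quad F3) 1 β₁) (x : Fin b → F3) : β₁ x x = 0 := by
  have := alt_of_top t x x
  revert this; generalize β₁ x x = s; revert s; decide

theorem bil_expand {n : ℕ} (β : LinearMap.BilinForm F3 (Fin n → F3)) (x y : Fin n → F3) :
    β x y = ∑ i, ∑ j, x i * y j * β (Pi.single i 1) (Pi.single j 1) := by
  conv_lhs => rw [← Finset.univ_sum_single x, ← Finset.univ_sum_single y]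
  simp only [map_sum, LinearMap.sum_apply]
  rw [Finset.sum_comm]
  refine Finset.sum_congr rfl fun i _ => Finset.sum_congr rfl fun j _ => ?_
  rw [show Pi.single i (x i) = x i • (Pi.single i 1 : Fin n → F3) by simp [← Pi.single_smul],
    show Pi.single j (y j) = y j • (Pi.single j 1 : Fin n → F3) by simp [← Pi.single_smul]]
  simp only [map_smul, LinearMap.smul_apply, smul_eq_mul]
  ring

theorem det_two {β : LinearMap.BilinForm F3 (Fin 2 → F3)} (t : Top (FormType.quad F3) 1 β) {ε : F3}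
    (R : Matrix (Fin 2) (Fin 2) F3) (h : ∀ x y, ε * β (R *ᵥ x) (R *ᵥ y) = β x y) :
    ε ^ 1 * R.det = 1 := by
  have h1 := h (Pi.single 0 1) (Pi.single 1 1)
  have h2 := t.det_ne_zero
  rw [bil_expand β (R *ᵥ _)] at h1
  rw [det_fin_two] at h2 ⊢
  simp only [mulVec_single_one, col_apply, Fin.sum_univ_two, of_apply, self_of_top t,
    alt_of_top t (Pi.single 0 1) (Pi.single 1 1)] at h1 h2
  have h3 : β (Pi.single 0 1) (Pi.single 1 1) ≠ 0 := fun e => h2 (by rw [e]; ring)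
  refine mul_right_cancel₀ h3 ?_
  linear_combination h1

theorem det_four {β : LinearMap.BilinForm F3 (Fin 4 → F3)} (t : Top (FormType.quad F3) 1 β) {ε : F3}
    (hε : ε * ε = 1) (R : Matrix (Fin 4) (Fin 4) F3) (h : ∀ x y, ε * β (R *ᵥ x) (R *ᵥ y) = β x y) :
    ε ^ 0 * R.det = 1 := by
  have h1 := fun i j => (congrArg (ε * ·) (bil_expand β _ _).symm).trans
    (h (Pi.single i 1) (Pi.single j 1))
  have h2 := t.det_ne_zero
  simp only [mulVec_single_one, col_apply, Fin.sum_univ_four] at h1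
  have a := fun i j => alt_of_top t (Pi.single i 1) (Pi.single j 1)
  have s := fun i => self_of_top t (Pi.single i 1)
  generalize hb : (fun i j => β (Pi.single i 1) (Pi.single j 1)) = B at *
  have hB : ∀ i j, β (Pi.single i 1) (Pi.single j 1) = B i j := fun i j => by rw [← hb]
  simp only [hB] at h1 a s
  have h3 : B 0 1 * B 2 3 - B 0 2 * B 1 3 + B 0 3 * B 1 2 ≠ 0 := fun e => h2 (by
    simp only [det_succ_row_zero, Fin.sum_univ_succ, of_apply, submatrix_apply]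
    simp [Fin.succAbove, s, a 0 1, a 0 2, a 0 3, a 1 2, a 1 3, a 2 3]
    linear_combination (B 0 1 * B 2 3 - B 0 2 * B 1 3 + B 0 3 * B 1 2) * e)
  refine mul_right_cancel₀ h3 ?_
  have e01 := h1 0 1
  have e23 := h1 2 3
  have e02 := h1 0 2
  have e13 := h1 1 3
  have e03 := h1 0 3
  have e12 := h1 1 2
  simp only [s, a 0 1, a 0 2, a 0 3, a 1 2, a 1 3, a 2 3] at e01 e23 e02 e13 e03 e12
  have hd : R.det = R 0 0 * (R 1 1 * (R 2 2 * R 3 3 - R 2 3 * R 3 2) -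
      R 1 2 * (R 2 1 * R 3 3 - R 2 3 * R 3 1) + R 1 3 * (R 2 1 * R 3 2 - R 2 2 * R 3 1)) -
      R 0 1 * (R 1 0 * (R 2 2 * R 3 3 - R 2 3 * R 3 2) -
      R 1 2 * (R 2 0 * R 3 3 - R 2 3 * R 3 0) + R 1 3 * (R 2 0 * R 3 2 - R 2 2 * R 3 0)) +
      R 0 2 * (R 1 0 * (R 2 1 * R 3 3 - R 2 3 * R 3 1) -
      R 1 1 * (R 2 0 * R 3 3 - R 2 3 * R 3 0) + R 1 3 * (R 2 0 * R 3 1 - R 2 1 * R 3 0)) -
      R 0 3 * (R 1 0 * (R 2 1 * R 3 2 - R 2 2 * R 3 1) -
      R 1 1 * (R 2 0 * R 3 2 - R 2 2 * R 3 0) + R 1 2 * (R 2 0 * R 3 1 - R 2 1 * R 3 0)) := by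
    simp [det_succ_row_zero, Fin.sum_univ_succ, Fin.succAbove]
    ring
  have key : ∀ p q r s t u : F3, ε * p = B 0 1 → ε * q = B 2 3 → ε * r = B 0 2 → ε * s = B 1 3 →
      ε * t = B 0 3 → ε * u = B 1 2 →
      p * q - r * s + t * u = B 0 1 * B 2 3 - B 0 2 * B 1 3 + B 0 3 * B 1 2 := by
    intro p q r s t u e1 e2 e3 e4 e5 e6
    rw [← e1, ← e2, ← e3, ← e4, ← e5, ← e6]
    linear_combination (-p * q + r * s - t * u) * hε
  rw [pow_zero, one_mul, one_mul, hd]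
  conv_rhs => rw [← key _ _ _ _ _ _ e01 e23 e02 e13 e03 e12]
  ring

section Cases

variable {g : O Q} {ε : F3} (hε : ε * ε = 1) (hg : ∀ v, g.1 (Xm v) = ε • Xm (g.1 v))
include hε hg

theorem k3 {v : Md a b c} (h : v.1.1 = 0) (h' : v.2.1.1 = 0) :
    (g.1 v).1.2.1 = (g.1 ((0, v.1.2.1, 0), 0, 0)).1.2.1 ∧
      (g.1 v).2.2 = (g.1 (0, 0, v.2.2)).2.2 := by
  constructor
  · have e : v = ((0, v.1.2.1, 0), 0, 0) + ((0, 0, v.1.2.2), (0, v.2.1.2), v.2.2) := by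
      ext <;> simp [h, h']
    conv_lhs => rw [e, g.1.map_add, Prod.fst_add, Prod.snd_add, Prod.fst_add,
      (k1 hε hg (v := ((0, 0, v.1.2.2), (0, v.2.1.2), v.2.2)) rfl rfl rfl).1, add_zero]
  · have e : v = Xm ((v.1.2.1, v.1.2.2, 0), (v.2.1.2, 0), 0) + (0, 0, v.2.2) := by
      ext <;> simp [Xm, h, h']
    conv_lhs => rw [e, g.1.map_add, hg, Prod.snd_add, Prod.snd_add]
    simp [Xm]

omit hε hg in
theorem exists_scal {e : ℕ} {β : LinearMap.BilinForm F3 (Fin 1 → F3)}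
    (t : Top (FormType.quad F3) e β) (T : (Fin 1 → F3) → Fin 1 → F3)
    (h1 : ∀ (s : F3) x, T (s • x) = s • T x) (h2 : β (T 1) (T 1) = β 1 1) :
    (∀ x, T x = x) ∨ ∀ x, T x = -x := by
  have hx : ∀ x : Fin 1 → F3, x = x 0 • (1 : Fin 1 → F3) := fun x => by
    ext i; simp [Subsingleton.elim i 0]
  have h0 : β 1 1 ≠ 0 := fun e => one_ne_zero (t.nd 1 fun y => by rw [hx y, map_smul, e, smul_zero])
  rw [hx (T 1)] at h2
  simp only [map_smul, LinearMap.smul_apply, smul_eq_mul] at h2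
  have h3 : T 1 0 * T 1 0 = 1 := mul_right_cancel₀ h0 (by rw [mul_assoc, h2, one_mul])
  refine (mul_self_eq_one_iff.1 h3).imp (fun h x => ?_) fun h x => ?_
  · rw [hx x, h1, hx (T 1), h, one_smul]
  · rw [hx x, h1, hx (T 1), h, neg_one_smul, smul_neg]

end Cases

theorem Xm_neg (v : Md a b c) : Xm (-v) = -Xm v := by ext <;> simp [Xm]

theorem mid_cases {Q : QuadraticForm F3 (Md a b 1)} {β₂ : LinearMap.BilinForm F3 (Fin 1 → F3)}
    (m : Model Q β₂ β₁ β₀) {g : O Q} {ε : F3} (hε : ε * ε = 1)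
    (hg : ∀ v, g.1 (Xm v) = ε • Xm (g.1 v)) :
    (∀ v : Md a b 1, v.1.1 = 0 → v.2.1.1 = 0 → (g.1 v).1.2.1 = v.1.2.1) ∨
      ∀ v : Md a b 1, v.1.1 = 0 → v.2.1.1 = 0 → (g.1 v).1.2.1 = -v.1.2.1 := by
  have := exists_scal m.t2 (fun x => (g.1 ((0, x, 0), 0, 0)).1.2.1) (fun s x => by
    rw [show (((0, s • x, 0), 0, 0) : Md a b 1) = s • ((0, x, 0), 0, 0) by simp, g.1.map_smul]
    rfl) (by
    have h1 := O_polar g ((0, 1, 0), 0, 0) ((0, 1, 0), 0, 0)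
    have e : (((0, 1, 0), 0, 0) : Md a b 1) = Xm ((1, 0, 0), 0, 0) := rfl
    have h2 : (g.1 ((0, 1, 0), 0, 0)).2.2 = 0 := by rw [e, hg]; simp [Xm]
    rw [m.form, m.form, k2 hε hg rfl, kp hε hg rfl rfl, h2] at h1
    simpa using h1)
  exact this.imp (fun h v h1 h2 => (k3 hε hg h1 h2).1.trans (h _))
    fun h v h1 h2 => (k3 hε hg h1 h2).1.trans (h _)

theorem low_cases {Q : QuadraticForm F3 (Md 1 b c)} {β₀ : LinearMap.BilinForm F3 (Fin 1 → F3)}
    (m : Model Q β₂ β₁ β₀) {g : O Q} {ε : F3} (hε : ε * ε = 1)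
    (hg : ∀ v, g.1 (Xm v) = ε • Xm (g.1 v)) :
    (∀ v : Md 1 b c, v.1.1 = 0 → v.2.1.1 = 0 → (g.1 v).2.2 = v.2.2) ∨
      ∀ v : Md 1 b c, v.1.1 = 0 → v.2.1.1 = 0 → (g.1 v).2.2 = -v.2.2 := by
  have := exists_scal m.t0 (fun x => (g.1 (0, 0, x)).2.2) (fun s x => by
    rw [show ((0, 0, s • x) : Md 1 b c) = s • (0, 0, x) by simp, g.1.map_smul]
    rfl) (by
    have h1 := O_polar g (0, 0, 1) (0, 0, 1)
    rw [m.form, m.form, k2 hε hg rfl, (k1 hε hg rfl rfl rfl).1, (k1 hε hg rfl rfl rfl).2] at h1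
    simpa using h1)
  exact this.imp (fun h v h1 h2 => (k3 hε hg h1 h2).2.trans (h _))
    fun h v h1 h2 => (k3 hε hg h1 h2).2.trans (h _)

theorem neg_case {g : O Q} {ε : F3} (hg : ∀ v, g.1 (Xm v) = ε • Xm (g.1 v)) (v : Md a b c) :
    (negOne Q * g).1 (Xm v) = ε • Xm ((negOne Q * g).1 v) := by
  rw [O_mul_apply, O_mul_apply, negOne_apply, negOne_apply, hg, Xm_neg, smul_neg]

theorem ds_eq_of_mul {V : Type} [AddCommGroup V] [Module F3 V] [FiniteDimensional F3 V]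
    {Q : QuadraticForm F3 V} (hQ : (polarBilin Q).Nondegenerate) {g k : O Q}
    (h : ds hQ (k * g) = 1) : ds hQ g = ds hQ k := by
  rw [map_mul] at h
  rw [← mul_one (ds hQ g), ← units_sq (ds hQ k), ← mul_assoc, mul_comm (ds hQ g), h, one_mul]

theorem model_040 {Q : QuadraticForm F3 (Md 0 4 0)} {β₂ β₁ β₀} (m : Model Q β₂ β₁ β₀) {g : O Q}
    {ε : F3} (hε : ε * ε = 1) (hg : ∀ v, g.1 (Xm v) = ε • Xm (g.1 v)) : ds m.nd g = 1 :=
  m.ds_eq hε hg (fun _ _ _ => ⟨Subsingleton.elim _ _, Subsingleton.elim _ _⟩) (det_four m.t1 hε)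

theorem model_021 {Q : QuadraticForm F3 (Md 0 2 1)} {β₂ β₁ β₀} (m : Model Q β₂ β₁ β₀) {g : O Q}
    {ε : F3} (hε : ε * ε = 1) (hg : ∀ v, g.1 (Xm v) = ε • Xm (g.1 v)) :
    ds m.nd g = 1 ∨ ds m.nd g = ds m.nd (negOne Q) := by
  refine (mid_cases m hε hg).imp (fun h => ?_) fun h => ds_eq_of_mul m.nd ?_
  · exact m.ds_eq hε hg (fun v h1 h2 => ⟨h v h1 h2, Subsingleton.elim _ _⟩) (det_two m.t1)
  · refine m.ds_eq hε (neg_case hg) (fun v h1 h2 => ⟨?_, Subsingleton.elim _ _⟩) (det_two m.t1)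
    rw [O_mul_apply, negOne_apply, Prod.fst_neg, Prod.snd_neg, Prod.fst_neg, h v h1 h2, neg_neg]

theorem model_121 {Q : QuadraticForm F3 (Md 1 2 1)} {β₂ β₁ β₀} (m : Model Q β₂ β₁ β₀) {g : O Q}
    {ε : F3} (hε : ε * ε = 1) (hg : ∀ v, g.1 (Xm v) = ε • Xm (g.1 v)) (hd : dsign g = 1) :
    ds m.nd g = 1 ∨ ds m.nd g = ds m.nd (negOne Q) := by
  have hx : ∀ x : Fin 1 → F3, x = x 0 • (1 : Fin 1 → F3) := fun x => by
    ext i; simp [Subsingleton.elim i 0]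
  have h0 : β₀ 1 1 ≠ 0 := fun e =>
    one_ne_zero (m.t0.nd 1 fun y => by rw [hx y, map_smul, e, smul_zero])
  have hu : 2 * Q (0, 0, 1) = β₀ 1 1 := by rw [← polar_self', m.form]; simp
  have hu0 : Q (0, 0, 1) ≠ 0 := fun e => h0 (by rw [← hu, e, mul_zero])
  have hr : ∀ v, (refl Q (0, 0, 1)).1 v = (v.1, v.2.1, -v.2.2) := fun v => by
    rw [refl_apply, m.form]
    have e : β₀ 1 v.2.2 = v.2.2 0 * (2 * Q (0, 0, 1)) := by
      rw [hu]; conv_lhs => rw [hx v.2.2, map_smul, smul_eq_mul]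
    refine Prod.ext (by simp) (Prod.ext (by simp) (funext fun i => ?_))
    simp only [e, Subsingleton.elim i 0]
    simp
    field_simp
    ring
  have key : ∀ {g : O Q}, (∀ v, g.1 (Xm v) = ε • Xm (g.1 v)) → dsign g = 1 →
      (∀ v : Md 1 2 1, v.1.1 = 0 → v.2.1.1 = 0 → (g.1 v).1.2.1 = v.1.2.1) → ds m.nd g = 1 := by
    intro g hg hd h
    rcases low_cases m hε hg with h' | h'
    · exact m.ds_eq hε hg (fun v h1 h2 => ⟨h v h1 h2, h' v h1 h2⟩) (det_two m.t1)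
    · have := m.ds_eq hε (g := refl Q (0, 0, 1) * g) (fun v => by
        rw [O_mul_apply, O_mul_apply, hr, hr, hg]; simp [Xm]) (fun v h1 h2 => by
        rw [O_mul_apply, hr]
        exact ⟨h v h1 h2, by rw [h' v h1 h2, neg_neg]⟩) (det_two m.t1)
      have h3 := congrArg Prod.fst this
      rw [ds_apply, dsign_refl_mul m.nd g hu0, hd] at h3
      exact absurd (show (-1 : ℤˣ) = 1 from h3) (by decide)
  refine (mid_cases m hε hg).imp (key hg hd) fun h => ds_eq_of_mul m.nd (key (neg_case hg) ?_ ?_)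
  · rw [dsign_mul m.nd hF3, hd, dsign_negOne two_ne]
    simp
    rfl
  · intro v h1 h2
    rw [O_mul_apply, negOne_apply, Prod.fst_neg, Prod.snd_neg, Prod.fst_neg, h v h1 h2, neg_neg]

/-- Three multiplicities. -/
def m3 {α : Type} (a b c : α) : ℕ → α
  | 0 => a
  | 1 => b
  | _ => c

theorem exists_model {V : Type} [AddCommGroup V] [Module F3 V] [FiniteDimensional F3 V]
    {Q : QuadraticForm F3 V} (hQ : (polarBilin Q).Nondegenerate) {x : O Q} {X : Module.End F3 V}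
    {s : ℕ → ℤˣ} (h : NF (good_quad two_ne) 3 ((oFS hQ x).setA X) (m3 a b c) s) :
    ∃ (Q' : QuadraticForm F3 (Md a b c)) (β₂ : _) (β₁ : _) (β₀ : _), Model Q' β₂ β₁ β₀ ∧
      ∃ e : V ≃ₗ[F3] Md a b c, (∀ v, Q' (e v) = Q v) ∧ ∀ v, e (X v) = Xm (e v) := by
  obtain ⟨S₁, ⟨β₂, t2, -, i2⟩, S₀, ⟨β₁, t1, -, i1⟩, S, ⟨β₀, t0, -, i0⟩, hS⟩ := h
  obtain ⟨u, hu, hu'⟩ := i2.trans ((FS.Iso.refl _).prod (i1.trans ((FS.Iso.refl _).prod i0)))
  have : Subsingleton S.V := hS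
  let φ : ((Fin 3 → Fin c → F3) × (Fin 2 → Fin b → F3) × (Fin 1 → Fin a → F3) × S.V) ≃ₗ[F3]
      Md a b c :=
    { toFun := fun w => ((w.1 0, w.1 1, w.1 2), (w.2.1 0, w.2.1 1), w.2.2.1 0)
      invFun := fun v => (![v.1.1, v.1.2.1, v.1.2.2], ![v.2.1.1, v.2.1.2], ![v.2.2], 0)
      map_add' := fun _ _ => rfl
      map_smul' := fun _ _ => rfl
      left_inv := fun w => by
        refine Prod.ext (funext fun i => ?_) (Prod.ext (funext fun i => ?_)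
          (Prod.ext (funext fun i => ?_) (Subsingleton.elim _ _))) <;> fin_cases i <;> rfl
      right_inv := fun _ => rfl }
  let e : V ≃ₗ[F3] Md a b c := u.trans φ
  have he : ∀ v, Q.comp (e.symm : Md a b c →ₗ[F3] V) (e v) = Q v := fun v => by simp
  refine ⟨Q.comp (e.symm : Md a b c →ₗ[F3] V), β₂, β₁, β₀,
    ⟨nondeg_of_isom e he hQ, t2, t1, t0, fun v w => ?_⟩, e, he, fun v => ?_⟩
  · obtain ⟨v, rfl⟩ := e.surjective v
    obtain ⟨w, rfl⟩ := e.surjective w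
    rw [show polar (Q.comp (e.symm : Md a b c →ₗ[F3] V)) (e v) (e w) = polar Q v w from
      polar_of_isom (e : V →ₗ[F3] Md a b c) he v w, ← Form.ofQuad_B, ← hu.B_eq]
    change stdB 2 β₂ (u v).1 (u w).1 + (stdB 1 β₁ (u v).2.1 (u w).2.1 +
      (stdB 0 β₀ (u v).2.2.1 (u w).2.2.1 + S.f.B (u v).2.2.2 (u w).2.2.2)) = _
    rw [Subsingleton.elim (u v).2.2.2 0, map_zero, LinearMap.zero_apply, add_zero, ← add_assoc]
    simp only [stdB_apply, Fin.sum_univ_succ, Fin.sum_univ_zero]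
    simp [sub_eq_add_neg, add_assoc]
    rfl
  · exact congrArg φ (hu' v)

end CL.FiT
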