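/-
Abstract extended binary Golay codes: dimension 12, length 24, minimum weight at least 8.
-/
import Mathlib
import Cfsg.Agent.SPOR.GolayBasic
import Cfsg.Agent.SPOR.SteinerAut
import Cfsg.Agent.SPOR.SteinerU24

set_option autoImplicit false

namespace CL.AbsGolay

open Cfsg Finset CL.Golay

variable {α : Type*} [Fintype α] [DecidableEq α] {C : Submodule (ZMod 2) (α → ZMod 2)}

/-- A binary code of length 24, dimension 12 and minimum weight at least 8. -/
structure IsAG (C : Submodule (ZMod 2) (α → ZMod 2)) : Prop where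
  card : Fintype.card α = 24
  dim : Module.finrank (ZMod 2) C = 12
  min : ∀ w ∈ C, w ≠ 0 → 8 ≤ hammingNorm w

theorem indic_symmDiff (s t : Finset α) : indic (symmDiff s t) = indic s + indic t :=
  support₂_injective (by rw [support₂_add, support₂_indic, support₂_indic, support₂_indic])

omit [Fintype α] [DecidableEq α] in
theorem sub_eq_add' (v w : α → ZMod 2) : v - w = v + w := by
  funext a
  simp only [Pi.sub_apply, Pi.add_apply]
  generalize v a = x
  generalize w a = y
  revert x y
  decide

/-- the coset of a set of points -/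
def cos (C : Submodule (ZMod 2) (α → ZMod 2)) (s : Finset α) : (α → ZMod 2) ⧸ C :=
  Submodule.Quotient.mk (indic s)

theorem cos_eq_iff {s t : Finset α} :
    cos C s = cos C t ↔ symmDiff s t ∈ supports (C : Set (α → ZMod 2)) := by
  rw [cos, cos, Submodule.Quotient.eq, mem_supports_iff, indic_symmDiff, sub_eq_add']
  rfl

namespace IsAG

variable (h : IsAG C)
include h

omit [DecidableEq α] in
theorem le_card {s : Finset α} (hs : s ∈ supports (C : Set (α → ZMod 2))) (hne : s ≠ ∅) :
    8 ≤ s.card := by
  obtain ⟨w, hw, rfl⟩ := hs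
  rw [card_support₂]
  refine h.min w hw ?_
  rintro rfl
  exact hne support₂_zero

theorem eq_or_le {s t : Finset α} (e : cos C s = cos C t) :
    s = t ∨ 8 + 2 * (s ∩ t).card ≤ s.card + t.card := by
  by_cases hst : s = t
  · exact Or.inl hst
  · have h1 := h.le_card (cos_eq_iff.1 e) (by
      rw [Ne, ← Finset.bot_eq_empty, symmDiff_eq_bot]; exact hst)
    have := card_symmDiff_add s t
    omega

theorem card_quot : Nat.card ((α → ZMod 2) ⧸ C) = 4096 := by
  have h1 := Submodule.finrank_quotient_add_finrank C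
  rw [h.dim, Module.finrank_fintype_fun_eq_card, h.card] at h1
  rw [Module.natCard_eq_pow_finrank (K := ZMod 2), Nat.card_zmod,
    show Module.finrank (ZMod 2) ((α → ZMod 2) ⧸ C) = 12 by omega]
  norm_num

theorem fiber_le (q : (α → ZMod 2) ⧸ C) [DecidableEq ((α → ZMod 2) ⧸ C)] :
    (((univ : Finset α).powersetCard 4).filter fun s => cos C s = q).card ≤ 6 := by
  set F := ((univ : Finset α).powersetCard 4).filter fun s => cos C s = q with hF
  have hm : ∀ s ∈ F, s.card = 4 ∧ cos C s = q := fun s hs => by
    simpa [hF] using hs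
  have h1 : (F.biUnion id).card = F.card * 4 := by
    rw [card_biUnion, sum_congr rfl (g := fun _ => 4), sum_const, smul_eq_mul]
    · exact fun s hs => (hm s hs).1
    · intro s hs t ht hst
      have := (h.eq_or_le ((hm s hs).2.trans (hm t ht).2.symm)).resolve_left hst
      rw [(hm s hs).1, (hm t ht).1] at this
      rw [Function.onFun, id, id, disjoint_iff_inter_eq_empty, ← card_eq_zero]
      omega
  have h2 := card_le_univ (F.biUnion id)
  rw [h.card] at h2
  omega

/-- Every coset contains a set of at most three points, or exactly six tetrads. -/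
theorem coset_cases (q : (α → ZMod 2) ⧸ C) :
    (∃ s : Finset α, s.card ≤ 3 ∧ cos C s = q) ∨
      {s : Finset α | s.card = 4 ∧ cos C s = q}.ncard = 6 := by
  classical
  have := Fintype.ofFinite ((α → ZMod 2) ⧸ C)
  let S3 : Finset (Finset α) := univ.filter fun s => s.card ≤ 3
  let S4 : Finset (Finset α) := (univ : Finset α).powersetCard 4
  have c3 : S3.card = 2325 := by
    have : S3 = (range 4).biUnion fun i => (univ : Finset α).powersetCard i := by
      ext s
      simp only [S3, mem_filter, mem_univ, true_and, mem_biUnion, mem_range, mem_powersetCard_univ,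
        exists_eq_right']
      omega
    rw [this, card_biUnion]
    · simp only [card_powersetCard, card_univ, h.card]
      decide +kernel
    · exact fun i _ j _ hij => pairwise_disjoint_powersetCard _ hij
  have c4 : S4.card = 10626 := by
    simp only [S4, card_powersetCard, card_univ, h.card]
    decide +kernel
  have i3 : (S3.image (cos C)).card = 2325 := by
    rw [card_image_of_injOn, c3]
    intro s hs t ht e
    simp only [S3, coe_filter, mem_univ, true_and, Set.mem_ofPred_eq] at hs ht
    exact (h.eq_or_le e).resolve_right (by omega)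
  have cc : (S3.image (cos C))ᶜ.card = 1771 := by
    rw [card_compl, ← Nat.card_eq_fintype_card, h.card_quot, i3]
  have hmap : ∀ s ∈ S4, cos C s ∈ (S3.image (cos C))ᶜ := by
    intro s hs
    rw [mem_compl, mem_image]
    rintro ⟨t, ht, e⟩
    simp only [S3, S4, mem_filter, mem_univ, true_and, mem_powersetCard_univ] at hs ht
    rcases h.eq_or_le e with rfl | h' <;> omega
  have hsum := card_eq_sum_card_fiberwise (f := cos C) (s := S4) (t := (S3.image (cos C))ᶜ) hmap
  have hall := (sum_eq_sum_iff_of_le (s := (S3.image (cos C))ᶜ)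
    (f := fun q => (S4.filter fun s => cos C s = q).card) (g := fun _ => 6)
    fun q _ => h.fiber_le q).1 (by rw [← hsum, c4, sum_const, cc]; rfl)
  by_cases hq : q ∈ S3.image (cos C)
  · obtain ⟨s, hs, e⟩ := mem_image.1 hq
    exact Or.inl ⟨s, (mem_filter.1 hs).2, e⟩
  · right
    rw [← hall q (mem_compl.2 hq), ← Set.ncard_coe_finset]
    congr 1
    ext s
    simp [S4]

/-- Every point outside a tetrad lies in another tetrad of the same coset. -/
theorem exists_tetrad {T : Finset α} (hT : T.card = 4) (x : α) :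
    ∃ U : Finset α, U.card = 4 ∧ cos C U = cos C T ∧ x ∈ U := by
  classical
  rcases h.coset_cases (cos C T) with ⟨s, hs, e⟩ | h6
  · rcases h.eq_or_le e with rfl | h' <;> omega
  · let F := univ.filter fun s : Finset α => s.card = 4 ∧ cos C s = cos C T
    have hF : F.card = 6 := by rw [← h6, ← Set.ncard_coe_finset]; congr 1; ext; simp [F]
    have hm : ∀ s ∈ F, s.card = 4 ∧ cos C s = cos C T := fun s hs => by simpa [F] using hs
    have h1 : (F.biUnion id).card = F.card * 4 := by
      rw [card_biUnion, sum_congr rfl (g := fun _ => 4), sum_const, smul_eq_mul]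
      · exact fun s hs => (hm s hs).1
      · intro s hs t ht hst
        have := (h.eq_or_le ((hm s hs).2.trans (hm t ht).2.symm)).resolve_left hst
        rw [(hm s hs).1, (hm t ht).1] at this
        rw [Function.onFun, id, id, disjoint_iff_inter_eq_empty, ← card_eq_zero]
        omega
    have h2 : F.biUnion id = univ := eq_univ_of_card _ (by rw [h1, hF, h.card])
    obtain ⟨U, hU, hx⟩ := mem_biUnion.1 (h2 ▸ mem_univ x)
    exact ⟨U, (hm U hU).1, (hm U hU).2, hx⟩

theorem steiner : IsSteinerSystem 5 8 (wordsOfWeight (C : Set (α → ZMod 2)) 8) := by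
  refine ⟨fun b hb => hb.2, fun s hs => ?_⟩
  obtain ⟨x, hx⟩ : s.Nonempty := card_pos.1 (by omega)
  have hT : (s.erase x).card = 4 := by rw [card_erase_of_mem hx, hs]
  obtain ⟨U, hU, e, hxU⟩ := h.exists_tetrad hT x
  have hne : U ≠ s.erase x := fun h' => notMem_erase x s (h' ▸ hxU)
  have h1 := (h.eq_or_le e).resolve_left hne
  have h2 := card_symmDiff_add U (s.erase x)
  have h3 : U ∩ s.erase x = ∅ := card_eq_zero.1 (by omega)
  refine ⟨symmDiff U (s.erase x), ⟨⟨cos_eq_iff.1 e, by omega⟩, fun y hy => ?_⟩, ?_⟩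
  · rw [mem_symmDiff]
    by_cases hyx : y = x
    · exact Or.inl ⟨hyx ▸ hxU, hyx ▸ notMem_erase x s⟩
    · have hy' := mem_erase.2 ⟨hyx, hy⟩
      exact Or.inr ⟨hy', fun hyU => notMem_empty y (h3 ▸ mem_inter.2 ⟨hyU, hy'⟩)⟩
  · have uq : ∀ b c : Finset α, b ∈ wordsOfWeight (C : Set (α → ZMod 2)) 8 → s ⊆ b →
        c ∈ wordsOfWeight (C : Set (α → ZMod 2)) 8 → s ⊆ c → b = c := by
      rintro b c ⟨hb, hb8⟩ hsb ⟨hc, hc8⟩ hsc
      have e : cos C b = cos C c := by
        rw [cos_eq_iff, mem_supports_iff, indic_symmDiff]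
        exact C.add_mem (mem_supports_iff.1 hb) (mem_supports_iff.1 hc)
      have := card_le_card (subset_inter hsb hsc)
      exact (h.eq_or_le e).resolve_right (by omega)
    rintro c ⟨hc, hsc⟩
    refine uq _ _ hc hsc ⟨cos_eq_iff.1 e, by omega⟩ fun y hy => ?_
    rw [mem_symmDiff]
    by_cases hyx : y = x
    · exact Or.inl ⟨hyx ▸ hxU, hyx ▸ notMem_erase x s⟩
    · have hy' := mem_erase.2 ⟨hyx, hy⟩
      exact Or.inr ⟨hy', fun hyU => notMem_empty y (h3 ▸ mem_inter.2 ⟨hyU, hy'⟩)⟩

theorem span_eq : Submodule.span (ZMod 2) {w : α → ZMod 2 | w ∈ C ∧ hammingNorm w = 8} = C := by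
  apply le_antisymm (Submodule.span_le.2 fun w hw => hw.1)
  intro w hw
  induction hn : hammingNorm w using Nat.strong_induction_on generalizing w with
  | _ n ih =>
    by_cases h0 : w = 0
    · rw [h0]; exact Submodule.zero_mem _
    have h8 := h.min w hw h0
    rw [← card_support₂] at h8 hn
    obtain ⟨s, hs, hs5⟩ := exists_subset_card_eq (s := support₂ w) (n := 5) (by omega)
    obtain ⟨_, ⟨⟨v, hv, rfl⟩, hv8⟩, hsv⟩ := Steiner.exists_block h.steiner hs5
    have h1 := card_symmDiff_add (support₂ w) (support₂ v)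
    have h2 := card_le_card (subset_inter hs hsv)
    have h3 := ih (hammingNorm (w + v)) (by rw [← card_support₂, support₂_add]; omega)
      (C.add_mem hw hv) rfl
    have h4 : w = w + v - v := by abel
    rw [h4]
    exact Submodule.sub_mem _ h3 (Submodule.subset_span ⟨hv, by rw [← card_support₂, hv8]⟩)

theorem four_dvd (horth : ∀ v ∈ C, ∀ w ∈ C, ∑ i, v i * w i = 0) : ∀ w ∈ C, 4 ∣ hammingNorm w := by
  intro w hw
  have key : w ∈ C ∧ 4 ∣ hammingNorm w := by
    rw [← h.span_eq] at hw
    induction hw using Submodule.span_induction with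
    | mem x hx => exact ⟨hx.1, by rw [hx.2]; norm_num⟩
    | zero => exact ⟨C.zero_mem, by simp⟩
    | add x y _ _ hx hy =>
      refine ⟨C.add_mem hx.1 hy.1, ?_⟩
      have h1 := card_symmDiff_add (support₂ x) (support₂ y)
      have h2 := horth x hx.1 y hy.1
      rw [dot_eq_card_inter, ZMod.natCast_eq_zero_iff_even, Nat.even_iff] at h2
      rw [← support₂_add, card_support₂, card_support₂, card_support₂] at h1
      omega
    | smul a x _ hx =>
      have : a = 0 ∨ a = 1 := by revert a; decide
      rcases this with rfl | rfl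
      · exact ⟨by simp, by simp⟩
      · rw [one_smul]; exact hx
  exact key.2

end IsAG

theorem isAG_golay : IsAG golayCode where
  card := card_pt
  dim := finrank_golayCode
  min w hw h0 := by
    rw [← card_support₂]
    have h1 := card_of_mem_code (s := support₂ w) ⟨w, hw, rfl⟩
    have h2 : (support₂ w).card ≠ 0 := fun h =>
      h0 (support₂_injective ((card_eq_zero.1 h).trans support₂_zero.symm))
    omega

/-- Two abstract Golay codes are equivalent. -/
theorem exists_equiv {β : Type*} [Fintype β] [DecidableEq β] {D : Submodule (ZMod 2) (β → ZMod 2)}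
    (h : IsAG C) (h' : IsAG D) : ∃ e : α ≃ β, ∀ w : β → ZMod 2, w ∈ D ↔ (fun i => w (e i)) ∈ C := by
  obtain ⟨x, hx⟩ := Steiner.exists_inj_seq h.card (by norm_num)
  obtain ⟨y, hy⟩ := Steiner.exists_inj_seq h'.card (by norm_num)
  obtain ⟨E, -, hE⟩ := Steiner.exists_enc24 h.card h.steiner x
    fun i hi j hj => hx i (by omega) j (by omega)
  obtain ⟨E', -, hE'⟩ := Steiner.exists_enc24 h'.card h'.steiner y
    fun i hi j hj => hy i (by omega) j (by omega)
  have he := Steiner.image_image_encEquiv E E' {m | m ∈ Steiner.F24}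
  rw [← hE, ← hE'] at he
  set e := Steiner.encEquiv E E'
  let L : (β → ZMod 2) ≃ₗ[ZMod 2] (α → ZMod 2) := LinearEquiv.funCongrLeft (ZMod 2) (ZMod 2) e
  have hL : ∀ w, (support₂ (L w)).image e = support₂ w := by
    intro w
    ext b
    simp only [mem_image, mem_support₂]
    constructor
    · rintro ⟨a, ha, rfl⟩
      exact ha
    · intro hb
      exact ⟨e.symm b, by simpa [L] using hb, by simp⟩
  have hmap : D.map (L : (β → ZMod 2) →ₗ[ZMod 2] (α → ZMod 2)) = C := by
    conv_lhs => rw [← h'.span_eq]
    conv_rhs => rw [← h.span_eq]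
    rw [Submodule.map_span]
    congr 1
    ext v
    constructor
    · rintro ⟨w, ⟨hw, hw8⟩, rfl⟩
      have : support₂ w ∈ wordsOfWeight (D : Set (β → ZMod 2)) 8 :=
        ⟨⟨w, hw, rfl⟩, by rw [card_support₂, hw8]⟩
      rw [← he] at this
      obtain ⟨b, ⟨⟨u, hu, rfl⟩, hb8⟩, hb⟩ := this
      have h1 : support₂ u = support₂ (L w) :=
        image_injective e.injective (hb.trans (hL w).symm)
      have h2 : u = L w := support₂_injective h1
      subst h2
      exact ⟨hu, by rw [← card_support₂]; exact hb8⟩
    · rintro ⟨hv, hv8⟩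
      refine ⟨L.symm v, ?_, by simp⟩
      have : (support₂ v).image e ∈ wordsOfWeight (D : Set (β → ZMod 2)) 8 := by
        rw [← he]
        exact ⟨support₂ v, ⟨⟨v, hv, rfl⟩, by rw [card_support₂, hv8]⟩, rfl⟩
      have h1 := hL (L.symm v)
      rw [L.apply_symm_apply] at h1
      rw [h1] at this
      exact ⟨support₂_mem_supports_iff.1 this.1, by rw [← card_support₂]; exact this.2⟩
  refine ⟨e, fun w => ?_⟩
  show _ ↔ L w ∈ C
  rw [← hmap]
  constructor
  · intro hw
    exact ⟨w, hw, rfl⟩
  · rintro ⟨w', hw', e'⟩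
    rw [← L.injective e']
    exact hw'

end CL.AbsGolay
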