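/-
An even rootless lattice of rank 24 with the vector counts of the Leech lattice is unimodular and
isometric to the Leech lattice.
-/
import Mathlib
import Cfsg.Agent.SPOR.LeechMod2
import Cfsg.Agent.SPOR.LeechDual
import Cfsg.Agent.SPOR.AbsGolay

set_option autoImplicit false

namespace CL.Leech

open Cfsg Finset

namespace LeechLike

variable {M : Type*} [AddCommGroup M] {b : LinearMap.BilinForm ℤ M} (h : LeechLike b)
include h

theorem norm_add (x y : M) : b (x + y) (x + y) = b x x + b y y + 2 * b x y := by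
  simp only [map_add, LinearMap.add_apply]
  rw [h.symm y x]; ring

/-- the form is nondegenerate modulo two -/
theorem nondeg [Module.Free ℤ M] [Module.Finite ℤ M] (hr : Module.finrank ℤ M = 24) {r : M}
    (hrad : ∀ y, (2 : ℤ) ∣ b y r) : ∃ z, r = 2 • z := by
  classical
  set T := (nsmulAddMonoidHom (α := M) 2).range with hT
  have hidx : T.index = 2 ^ 24 := by rw [hT, AddSubgroup.index_range_nsmul, hr]
  have : T.FiniteIndex := ⟨by rw [hidx]; positivity⟩
  have : Fintype (M ⧸ T) := Fintype.ofFinite _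
  have hcard : Fintype.card (M ⧸ T) = 2 ^ 24 := by
    rw [← Nat.card_eq_fintype_card, ← AddSubgroup.index_eq_card, hidx]
  let π : M →+ M ⧸ T := QuotientAddGroup.mk' T
  have hπ : ∀ x y, π x = π y ↔ ∃ z, x = y + 2 • z := by
    intro x y
    show (QuotientAddGroup.mk x : M ⧸ T) = QuotientAddGroup.mk y ↔ _
    rw [QuotientAddGroup.eq_iff_sub_mem, hT, AddMonoidHom.mem_range]
    exact exists_congr fun z => by rw [eq_comm, sub_eq_iff_eq_add']; rfl
  have hsurj : ∀ a, ∃ x, π x = a := QuotientAddGroup.mk'_surjective T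
  have hout : ∀ x, ∃ z, (π x).out = x + 2 • z := fun x => (hπ _ _).1 (QuotientAddGroup.out_eq' _)
  let s : M ⧸ T → ℤ := fun a => if (4 : ℤ) ∣ b a.out a.out then 1 else -1
  let χ : M ⧸ T → M ⧸ T → ℤ := fun a c => if (2 : ℤ) ∣ b a.out c.out then 1 else -1
  have hs : ∀ x, s (π x) = if (4 : ℤ) ∣ b x x then 1 else -1 := fun x => by
    obtain ⟨z, hz⟩ := hout x
    refine if_congr ?_ rfl rfl
    rw [hz, h.norm_add]
    simp only [two_nsmul, map_add, LinearMap.add_apply]
    omega
  have hχ : ∀ x y, χ (π x) (π y) = if (2 : ℤ) ∣ b x y then 1 else -1 := fun x y => by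
    obtain ⟨z, hz⟩ := hout x
    obtain ⟨w, hw⟩ := hout y
    refine if_congr ?_ rfl rfl
    rw [hz, hw]
    simp only [two_nsmul, map_add, LinearMap.add_apply]
    omega
  have h1 : ∀ a c, s a * s (a + c) = s c * χ a c := fun a c => by
    obtain ⟨x, rfl⟩ := hsurj a
    obtain ⟨y, rfl⟩ := hsurj c
    rw [← map_add, hs, hs, hs, hχ, h.norm_add]
    have := h.even x
    have := h.even y
    split_ifs <;> omega
  have h2 : ∀ a a' c, χ (a + a') c = χ a c * χ a' c := fun a a' c => by
    obtain ⟨x, rfl⟩ := hsurj a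
    obtain ⟨x', rfl⟩ := hsurj a'
    obtain ⟨y, rfl⟩ := hsurj c
    rw [← map_add, hχ, hχ, hχ, map_add, LinearMap.add_apply]
    split_ifs <;> omega
  have h3 : ∀ c, ∑ a, χ a c = if ∀ a, χ a c = 1 then 2 ^ 24 else 0 := fun c => by
    split_ifs with hc
    · simp [hc, hcard]
    · push Not at hc
      obtain ⟨a0, ha0⟩ := hc
      have e1 : χ a0 c = -1 := by
        simp only [χ] at ha0 ⊢
        split_ifs at ha0 ⊢ <;> simp_all
      have e2 := Equiv.sum_comp (Equiv.addLeft a0) fun a => χ a c
      simp only [Equiv.coe_addLeft, h2, e1, ← Finset.mul_sum] at e2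
      omega
  have f6 : {x | b x x = 6}.Finite := Set.finite_of_ncard_ne_zero (by rw [h.c6]; norm_num)
  have k6 : f6.toFinset.card = 16773120 := by rw [← h.c6, Set.ncard_eq_toFinset_card _ f6]
  have h4 : (f6.toFinset.image π).card = 8386560 := by
    have e1 := Finset.card_eq_sum_card_image π f6.toFinset
    rw [Finset.sum_congr rfl (g := fun _ => 2), Finset.sum_const, smul_eq_mul, k6] at e1
    · omega
    · intro a ha
      obtain ⟨x, hx, rfl⟩ := Finset.mem_image.1 ha
      have hx' : b x x = 6 := by simpa using hx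
      have hne : x ≠ -x := fun e => by
        have e2 : b x x = b x (-x) := congrArg _ e
        rw [map_neg] at e2
        omega
      rw [← Finset.card_pair hne]
      congr 1
      ext y
      simp only [Finset.mem_filter, Set.Finite.mem_toFinset, Set.mem_ofPred_eq, Finset.mem_insert,
        Finset.mem_singleton]
      constructor
      · rintro ⟨hy, e⟩
        obtain ⟨z, hz⟩ := (hπ _ _).1 e
        rcases h.congr_cases (z := z) (by omega) (by omega) (sub_eq_iff_eq_add'.2 hz) with e | e | e
        · exact Or.inl e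
        · exact Or.inr e
        · omega
      · rintro (rfl | rfl)
        · exact ⟨hx', rfl⟩
        · exact ⟨by simpa using hx', (hπ _ _).2 ⟨-x, by rw [two_nsmul]; abel⟩⟩
  have h5 : ∑ a, s a = 4096 := by
    have e1 : ∀ a, s a = 1 - 2 * if a ∈ f6.toFinset.image π then 1 else 0 := fun a => by
      obtain ⟨x, rfl⟩ := hsurj a
      obtain ⟨y, z, hy, hz⟩ := (h.main hr).1 x
      rw [(hπ x y).2 ⟨z, sub_eq_iff_eq_add'.1 hz⟩]
      by_cases hm : π y ∈ f6.toFinset.image π
      · obtain ⟨u, hu, e⟩ := Finset.mem_image.1 hm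
        have hu' : b u u = 6 := by simpa using hu
        rw [if_pos hm, ← e, hs, hu']
        norm_num
      · have e2 : b y y ≠ 6 := fun e => hm (Finset.mem_image_of_mem _ (by simpa using e))
        have e3 : 0 ≤ b y y := by
          by_cases h0 : y = 0
          · simp [h0]
          · exact (h.pos y h0).le
        have := h.even y
        have := h.no2 y
        rw [if_neg hm, hs, if_pos (by omega)]
        norm_num
    simp only [e1, Finset.sum_sub_distrib, ← Finset.mul_sum, Finset.sum_boole, Finset.sum_const,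
      Finset.card_univ, hcard, Finset.filter_mem_eq_inter, Finset.univ_inter, h4]
    norm_num
  have h6 : ∑ c ∈ univ.filter fun c => ∀ a, χ a c = 1, s c = 1 := by
    have e1 : (∑ a, s a) * ∑ a, s a = ∑ c, s c * ∑ a, χ a c := by
      rw [Finset.sum_mul]
      simp only [Finset.mul_sum]
      rw [Finset.sum_comm (f := fun c a => s c * χ a c)]
      refine Finset.sum_congr rfl fun a _ => ?_
      rw [← Equiv.sum_comp (Equiv.addLeft a)]
      exact Finset.sum_congr rfl fun c _ => h1 a c
    simp only [h5, h3, mul_ite, mul_zero, ← Finset.sum_filter, ← Finset.sum_mul] at e1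
    omega
  by_contra hcon
  have h7 : π r ≠ 0 := fun e => hcon (by
    obtain ⟨z, hz⟩ := (hπ r 0).1 (e.trans (map_zero π).symm)
    exact ⟨z, by simpa using hz⟩)
  have h8 : π r + π r = 0 := by
    rw [← map_add, ← map_zero π, hπ]
    exact ⟨r, by rw [two_nsmul, zero_add]⟩
  have h9 : ∑ c ∈ univ.filter fun c => ∀ a, χ a c = 1, (s c : ZMod 2) = 0 := by
    refine Finset.sum_involution (fun c _ => c + π r) (fun c _ => ?_) (fun c _ _ => by simpa using h7)
      (fun c hc => ?_) fun c _ => by rw [add_assoc, h8, add_zero]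
    · simp only [s]
      split_ifs <;> decide
    · refine Finset.mem_filter.2 ⟨Finset.mem_univ _, fun a => ?_⟩
      have e1 := (Finset.mem_filter.1 hc).2 a
      obtain ⟨x, rfl⟩ := hsurj a
      obtain ⟨y, rfl⟩ := hsurj c
      rw [hχ] at e1
      have := hrad x
      rw [← map_add, hχ, map_add, if_pos]
      split_ifs at e1 <;> omega
  rw [← Int.cast_sum, h6] at h9
  exact absurd h9 (by decide)

omit h in
theorem card_le_of_orth' [Module.Finite ℤ M] (hr : Module.finrank ℤ M = 24) {ι : Type*} [Fintype ι]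
    (u : ι → M) (h8 : ∀ i, b (u i) (u i) ≠ 0) (ho : ∀ i j, i ≠ j → b (u i) (u j) = 0) :
    Fintype.card ι ≤ 24 := by
  classical
  have hli : LinearIndependent ℤ u := by
    rw [linearIndependent_iff']
    intro s g hg i hi
    have h1 := congrArg (b (u i)) hg
    rw [map_sum, Finset.sum_eq_single i] at h1
    · simp only [map_smul, smul_eq_mul, map_zero] at h1
      exact (mul_eq_zero.1 h1).resolve_right (h8 i)
    · intro j _ hj
      rw [map_smul, ho i j hj.symm, smul_zero]
    · intro hi'; exact absurd hi hi'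
  exact hr ▸ hli.fintype_card_le_finrank

end LeechLike

/-- a coordinate frame -/
structure Frm {M : Type*} [AddCommGroup M] (b : LinearMap.BilinForm ℤ M) (v : GolayPt → M) : Prop where
  self : ∀ p, b (v p) (v p) = 8
  orth : ∀ p q, p ≠ q → b (v p) (v q) = 0
  cong : ∀ p q, ∃ z, v p - v q = 2 • z

/-- coordinates with respect to a frame -/
def crd {M : Type*} [AddCommGroup M] (b : LinearMap.BilinForm ℤ M) (v : GolayPt → M) :
    M →+ (GolayPt → ℤ) where
  toFun x p := b x (v p)
  map_zero' := by funext p; simp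
  map_add' x y := by funext p; simp

theorem crd_apply {M : Type*} [AddCommGroup M] (b : LinearMap.BilinForm ℤ M) (v : GolayPt → M)
    (x : M) (p : GolayPt) : crd b v x p = b x (v p) := rfl

/-- the code of a frame -/
def frmCode {M : Type*} [AddCommGroup M] (b : LinearMap.BilinForm ℤ M) (v : GolayPt → M) :
    Submodule (ZMod 2) (GolayPt → ZMod 2) where
  carrier := {w | ∃ x c, crd b v x = (2 : ℤ) • c ∧ red c = w}
  zero_mem' := ⟨0, 0, by simp, red_zero⟩
  add_mem' := by
    rintro _ _ ⟨x, c, e, rfl⟩ ⟨y, d, f, rfl⟩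
    exact ⟨x + y, c + d, by rw [map_add, e, f, smul_add], red_add _ _⟩
  smul_mem' a w hw := by
    rcases zmod2_cases a with rfl | rfl
    · exact ⟨0, 0, by simp, by rw [zero_smul, red_zero]⟩
    · rwa [one_smul]

theorem two_dvd_dot_iff (c d : GolayPt → ℤ) :
    (2 : ℤ) ∣ dotInt c d ↔ ∑ i, red c i * red d i = 0 := by
  have : ((dotInt c d : ℤ) : ZMod 2) = ∑ i, red c i * red d i := by
    simp [dotInt, red]
  rw [← this, ZMod.intCast_zmod_eq_zero_iff_dvd]
  rfl

namespace LeechLike

variable {M : Type*} [AddCommGroup M] {b : LinearMap.BilinForm ℤ M} (h : LeechLike b)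
  [Module.Free ℤ M] [Module.Finite ℤ M] (hr : Module.finrank ℤ M = 24)
include h hr

theorem exists_frm : ∃ v, Frm b v := by
  classical
  obtain ⟨x, hx⟩ : {x | b x x = 8}.Nonempty := Set.nonempty_of_ncard_ne_zero (by rw [h.c8]; norm_num)
  have h1 := (h.main hr).2 x hx
  have f : {y | b y y = 8 ∧ ∃ z, x - y = 2 • z}.Finite :=
    Set.finite_of_ncard_ne_zero (by rw [h1]; norm_num)
  obtain ⟨F, hF1, hF2, hF3⟩ := exists_half f.toFinset (by
    intro y hy
    simp only [Set.Finite.mem_toFinset, Set.mem_ofPred_eq] at hy ⊢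
    obtain ⟨h2, z, hz⟩ := hy
    exact ⟨by simpa using h2, z + y, by rw [smul_add, ← hz, two_nsmul]; abel⟩)
  rw [← Set.ncard_eq_toFinset_card _ f, h1] at hF2
  obtain ⟨G, hG1, hG2⟩ := Finset.exists_subset_card_eq (s := F) (n := 24) (by omega)
  let e : GolayPt ≃ G := Fintype.equivOfCardEq (by rw [card_pt, Fintype.card_coe, hG2])
  have hm : ∀ p, b (e p : M) (e p) = 8 ∧ ∃ z, x - e p = 2 • z := fun p => by
    simpa using hF1 (hG1 (e p).2)
  have hc : ∀ p q, ∃ z, (e p : M) - e q = 2 • z := fun p q => by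
    obtain ⟨z, hz⟩ := (hm p).2
    obtain ⟨w, hw⟩ := (hm q).2
    exact ⟨w - z, by rw [smul_sub, ← hz, ← hw]; abel⟩
  refine ⟨fun p => e p, fun p => (hm p).1, fun p q hpq => ?_, hc⟩
  obtain ⟨z, hz⟩ := hc p q
  have hne : (e p : M) ≠ e q := fun e' => hpq (e.injective (Subtype.ext e'))
  rcases h.congr_cases (hm p).1.le (hm q).1.le hz with e' | e' | e'
  · exact absurd e' hne
  · exact absurd (hF3 _ (hG1 (e p).2) _ (hG1 (e q).2) e') hne
  · exact e'.2.2

variable {v : GolayPt → M} (hv : Frm b v)
include hv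

omit h hr [Module.Free ℤ M] [Module.Finite ℤ M] in
theorem b_sum (z : GolayPt → ℤ) (q : GolayPt) : b (∑ p, z p • v p) (v q) = 8 * z q := by
  rw [map_sum, LinearMap.sum_apply, Finset.sum_eq_single q]
  · rw [map_smul, LinearMap.smul_apply, hv.self, smul_eq_mul, mul_comm]
  · intro p _ hp
    rw [map_smul, LinearMap.smul_apply, hv.orth p q hp, smul_zero]
  · intro hq; exact absurd (Finset.mem_univ q) hq

omit [Module.Free ℤ M] in
theorem parseval (x y : M) : dotInt (crd b v x) (crd b v y) = 8 * b x y := by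
  have h1 : (8 : ℤ) • x = ∑ p, crd b v x p • v p := by
    by_contra hne
    set w := (8 : ℤ) • x - ∑ p, crd b v x p • v p with hw
    have h2 : ∀ q, b w (v q) = 0 := fun q => by
      rw [hw, map_sub, LinearMap.sub_apply, b_sum hv, map_smul, LinearMap.smul_apply, crd_apply,
        smul_eq_mul, sub_self]
    have h3 := card_le_of_orth' (b := b) hr (fun o : Option GolayPt => o.elim w v) (fun o => by
      cases o with
      | none => exact (h.pos w (sub_ne_zero.2 hne)).ne'
      | some p => exact (hv.self p).trans_ne (by norm_num)) (fun o o' hne => by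
      cases o with
      | none =>
        cases o' with
        | none => exact absurd rfl hne
        | some q => exact h2 q
      | some p =>
        cases o' with
        | none => exact (h.symm _ _).trans (h2 p)
        | some q => exact hv.orth p q fun e => hne (congrArg some e))
    rw [Fintype.card_option, card_pt] at h3
    omega
  have h2 := congrArg (fun u => b u y) h1
  simp only [map_smul, LinearMap.smul_apply, smul_eq_mul, map_sum, LinearMap.sum_apply] at h2
  rw [h2]
  exact Finset.sum_congr rfl fun p _ => by rw [crd_apply b v y, h.symm y]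

omit h hr [Module.Free ℤ M] [Module.Finite ℤ M] in
theorem parity (x : M) (p q : GolayPt) : crd b v x p % 2 = crd b v x q % 2 := by
  obtain ⟨z, hz⟩ := hv.cong p q
  have := congrArg (b x) hz
  rw [map_sub, two_nsmul, map_add] at this
  rw [crd_apply, crd_apply]
  omega

theorem dual {z : GolayPt → ℤ} (hz : ∀ y, (8 : ℤ) ∣ dotInt z (crd b v y)) : ∃ x, crd b v x = z := by
  have h1 : ∀ y, (8 : ℤ) ∣ b y (∑ p, z p • v p) := fun y => by
    convert hz y using 1
    rw [map_sum]
    exact Finset.sum_congr rfl fun p _ => by rw [map_smul, smul_eq_mul, crd_apply]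
  obtain ⟨a, ha⟩ := h.nondeg hr fun y => (show (2 : ℤ) ∣ 8 by norm_num).trans (h1 y)
  obtain ⟨c, rfl⟩ := h.nondeg hr (r := a) fun y => by
    have := h1 y
    rw [ha, two_nsmul, map_add] at this
    omega
  obtain ⟨d, rfl⟩ := h.nondeg hr (r := c) fun y => by
    have := h1 y
    simp only [ha, two_nsmul, map_add] at this
    omega
  refine ⟨d, funext fun q => ?_⟩
  have h2 := b_sum hv z q
  simp only [ha, two_nsmul, map_add, LinearMap.add_apply] at h2
  rw [crd_apply]
  omega

theorem exists_odd : ∃ x, ∀ p, crd b v x p % 2 = 1 := by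
  by_contra hcon
  obtain ⟨x, hx⟩ := h.dual hr hv (z := Pi.single none 4) fun y => by
    rw [dot_single_left]
    have : crd b v y none % 2 ≠ 1 := fun e => hcon ⟨y, fun p => (parity hv y p none).trans e⟩
    omega
  have h1 := h.parseval hr hv x x
  rw [hx, ← sqNorm_eq_dot, sqNorm_single] at h1
  have := h.no2 x
  omega

omit h hr [Module.Free ℤ M] [Module.Finite ℤ M] in
theorem exists_half' {x : M} (hx : crd b v x none % 2 = 0) : ∃ c, crd b v x = (2 : ℤ) • c :=
  ⟨fun p => crd b v x p / 2, funext fun p => by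
    have := parity hv x p none
    simp only [Pi.smul_apply, smul_eq_mul]
    omega⟩

theorem exists_of_orth {w : GolayPt → ZMod 2} (hw : ∀ u ∈ frmCode b v, ∑ i, w i * u i = 0)
    (j : GolayPt) : ∃ t : ℤ, (t = 0 ∨ t = 1) ∧
      ∃ x, crd b v x = (2 : ℤ) • (lift w - Pi.single j (2 * t)) := by
  obtain ⟨x0, h0⟩ := h.exists_odd hr hv
  have h1 : ∀ x c, crd b v x = (2 : ℤ) • c → (2 : ℤ) ∣ dotInt (lift w) c := fun x c e => by
    rw [two_dvd_dot_iff, red_lift]
    exact hw _ ⟨x, c, e, rfl⟩
  have h2 := h1 ((2 : ℤ) • x0) _ (map_zsmul _ _ _)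
  refine ⟨dotInt (lift w) (crd b v x0) / 2 % 2, by omega, h.dual hr hv fun y => ?_⟩
  have h3 : ∀ y, crd b v y none % 2 = 0 → ∀ t, (8 : ℤ) ∣
      dotInt ((2 : ℤ) • (lift w - Pi.single j (2 * t))) (crd b v y) := fun y hy t => by
    obtain ⟨c, hc⟩ := exists_half' hv hy
    obtain ⟨k, hk⟩ := h1 y c hc
    rw [hc, dot_zsmul_left, dot_zsmul_right, dot_sub_left, dot_single_left, hk]
    exact ⟨k - t * c j, by ring⟩
  by_cases hy : crd b v y none % 2 = 0
  · exact h3 y hy _
  · have h4 := h3 (y - x0) (by
      have := h0 none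
      rw [map_sub, Pi.sub_apply]; omega)
    have h5 : y = y - x0 + x0 := by abel
    rw [h5, map_add, dot_add_right]
    refine dvd_add (h4 _) ?_
    rw [dot_zsmul_left, dot_sub_left, dot_single_left]
    obtain ⟨k, hk⟩ := h2
    obtain ⟨l, hl⟩ : ∃ l, crd b v x0 j = 2 * l + 1 := ⟨crd b v x0 j / 2, by have := h0 j; omega⟩
    rw [hk, hl, Int.mul_ediv_cancel_left _ (by norm_num)]
    have h6 : k % 2 = 0 ∨ k % 2 = 1 := by omega
    rcases h6 with e | e <;> rw [e] <;> omega

omit [Module.Free ℤ M] in
theorem code_orth' {u w : GolayPt → ZMod 2} (hu : u ∈ frmCode b v) (hw : w ∈ frmCode b v) :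
    ∑ i, u i * w i = 0 := by
  obtain ⟨x, c, e, rfl⟩ := hu
  obtain ⟨y, d, f, rfl⟩ := hw
  have h1 := h.parseval hr hv x y
  rw [e, f, dot_zsmul_left, dot_zsmul_right] at h1
  rw [← two_dvd_dot_iff]
  omega

theorem isAG : AbsGolay.IsAG (frmCode b v) := by
  refine ⟨card_pt, ?_, fun w hw h0 => ?_⟩
  · let B : LinearMap.BilinForm (ZMod 2) (GolayPt → ZMod 2) := dotProductBilin (ZMod 2) (ZMod 2)
    have hB : ∀ x y, B x y = ∑ i, x i * y i := fun x y => rfl
    have hnd : B.Nondegenerate := by
      constructor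
      · intro x hx
        funext i
        have := hx (Pi.single i 1)
        rw [hB] at this
        simpa [Pi.single_apply] using this
      · intro x hx
        funext i
        have := hx (Pi.single i 1)
        rw [hB] at this
        simpa [Pi.single_apply] using this
    have h1 : B.orthogonal (frmCode b v) = frmCode b v := by
      refine le_antisymm (fun w hw => ?_) fun x hx y hy => h.code_orth' hr hv hy hx
      obtain ⟨t, -, x, hx⟩ := h.exists_of_orth hr hv (w := w) (fun u hu => by
        rw [← show ∑ i, u i * w i = 0 from hw u hu]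
        exact Finset.sum_congr rfl fun i _ => mul_comm _ _) none
      refine ⟨x, _, hx, ?_⟩
      rw [← red_lift w]
      refine red_congr fun i => ?_
      rw [red_lift, Pi.sub_apply, Pi.single_apply]
      split_ifs <;> omega
    have h2 := LinearMap.BilinForm.finrank_orthogonal hnd (frmCode b v)
    have h3 := Submodule.finrank_le (frmCode b v)
    rw [h1] at h2
    rw [Module.finrank_fintype_fun_eq_card, card_pt] at h2 h3
    omega
  · obtain ⟨j, hj⟩ := Function.ne_iff.1 h0
    obtain ⟨t, ht, x, hx⟩ := h.exists_of_orth hr hv (fun u hu => h.code_orth' hr hv hw hu) j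
    have h1 := h.parseval hr hv x x
    have h2 : lift w j = 1 := if_neg hj
    have h3 : sqNorm (lift w - Pi.single j (2 * t)) = (hammingNorm w : ℤ) := by
      rw [← card_support, ← sum_lift]
      refine Finset.sum_congr rfl fun i _ => ?_
      rw [Pi.sub_apply, Pi.single_apply]
      split_ifs with e
      · rw [e, h2]; rcases ht with rfl | rfl <;> norm_num
      · unfold lift; split_ifs <;> norm_num
    rw [← sqNorm_eq_dot, hx, sqNorm_zsmul, h3] at h1
    have h4 : x ≠ 0 := fun e => by
      have := congrFun hx j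
      rw [e, map_zero, Pi.smul_apply, Pi.sub_apply, h2, Pi.single_eq_same, Pi.zero_apply,
        smul_eq_mul] at this
      omega
    have := h.four_le h4
    omega

omit [Module.Free ℤ M] in
theorem crd_mem (hc : ∀ x c, crd b v x = (2 : ℤ) • c → red c ∈ golayCode) {x0 : M}
    (h0 : ∀ p, crd b v x0 p % 4 = 1) (x : M) : crd b v x ∈ leechLattice := by
  have h1 : ∀ y, crd b v y none % 2 = 0 → crd b v y ∈ leechLattice := fun y hy => by
    obtain ⟨c, e⟩ := exists_half' hv hy
    refine (mem_iff _).2 ⟨0, c, fun i => by rw [e]; simp, hc y c e, ?_⟩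
    have h2 := h.parseval hr hv y x0
    have h3 : dotInt c (crd b v x0) = ∑ i, c i + 4 * ∑ i, c i * (crd b v x0 i / 4) := by
      rw [Finset.mul_sum, ← Finset.sum_add_distrib]
      refine Finset.sum_congr rfl fun i _ => ?_
      have h4 : crd b v x0 i = 1 + 4 * (crd b v x0 i / 4) := by have := h0 i; omega
      conv_lhs => rw [h4]
      ring
    rw [e, dot_zsmul_left, h3] at h2
    omega
  have h2 : crd b v x0 ∈ leechLattice := by
    have h3 : ∀ i, crd b v x0 i = 1 + 2 * (2 * (crd b v x0 i / 4)) := fun i => by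
      have := h0 i; omega
    refine (mem_iff _).2 ⟨1, fun i => 2 * (crd b v x0 i / 4), h3, ?_, ?_⟩
    · rw [red_congr (b := 0) fun i => by simp, red_zero]
      exact golayCode.zero_mem
    · have h4 := h.parseval hr hv x0 x0
      rw [← sqNorm_eq_dot, sqNorm_param h3] at h4
      simp only [mul_pow, ← Finset.mul_sum] at h4 ⊢
      have := h.even x0
      omega
  by_cases hx : crd b v x none % 2 = 0
  · exact h1 x hx
  · have h3 := h1 (x - x0) (by
      have := h0 none
      rw [map_sub, Pi.sub_apply]; omega)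
    rw [map_sub] at h3
    simpa using leechLattice.add_mem h3 h2

omit hv in
theorem exists_good : ∃ u, Frm b u ∧ ∀ x, crd b u x ∈ leechLattice := by
  obtain ⟨v, hv⟩ := h.exists_frm hr
  obtain ⟨e, he⟩ := AbsGolay.exists_equiv (h.isAG hr hv) AbsGolay.isAG_golay
  obtain ⟨x0, h0⟩ := h.exists_odd hr hv
  let ε : GolayPt → ℤ := fun p => if crd b v x0 (e.symm p) % 4 = 1 then 1 else -1
  have hε : ∀ p, ε p = 1 ∨ ε p = -1 := fun p => by
    simp only [ε]; split_ifs <;> simp
  have hu : Frm b fun p => ε p • v (e.symm p) := by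
    refine ⟨fun p => ?_, fun p q hpq => ?_, fun p q => ?_⟩
    · rcases hε p with e | e <;> simp [e, hv.self]
    · simp [hv.orth _ _ (e.symm.injective.ne hpq)]
    · obtain ⟨z, hz⟩ := hv.cong (e.symm p) (e.symm q)
      rw [sub_eq_iff_eq_add] at hz
      rcases hε p with e1 | e1 <;> rcases hε q with e2 | e2 <;> simp only [e1, e2, hz]
      · exact ⟨z, by module⟩
      · exact ⟨z + v (e.symm q), by module⟩
      · exact ⟨-z - v (e.symm q), by module⟩
      · exact ⟨-z, by module⟩
  have hc : ∀ x p, crd b (fun p => ε p • v (e.symm p)) x p = ε p * crd b v x (e.symm p) :=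
    fun x p => by simp [crd_apply]
  refine ⟨_, hu, h.crd_mem hr hu (fun x c hx => (he _).2 ⟨x, fun i => ε (e i) * c (e i), ?_, ?_⟩)
    (x0 := x0) fun p => ?_⟩
  · funext i
    have := congrFun hx (e i)
    rw [hc, e.symm_apply_apply] at this
    simp only [Pi.smul_apply, smul_eq_mul] at this ⊢
    rcases hε (e i) with e1 | e1 <;> rw [e1] at this ⊢ <;> omega
  · refine red_congr (b := fun i => c (e i)) fun i => ?_
    rcases hε (e i) with e1 | e1 <;> rw [e1] <;> omega
  · have := h0 (e.symm p)
    rw [hc]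
    simp only [ε]
    split_ifs <;> omega

omit hv in
/-- the characterisation theorem -/
theorem exists_equiv : ∃ f : M ≃+ leechLattice,
    ∀ x, sqNorm ((f x : leechLattice) : GolayPt → ℤ) = 8 * b x x := by
  obtain ⟨u, hu, hm⟩ := h.exists_good hr
  refine ⟨AddEquiv.ofBijective ((crd b u).codRestrict _ hm) ⟨?_, fun y => ?_⟩, fun x => ?_⟩
  · rw [injective_iff_map_eq_zero]
    intro x hx
    by_contra h0
    have h1 := h.parseval hr hu x x
    have h2 : crd b u x = 0 := congrArg Subtype.val hx
    rw [h2, dot_zero_left] at h1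
    have := h.pos x h0
    omega
  · obtain ⟨x, hx⟩ := h.dual hr hu (z := y) fun w => eight_dvd_dot y.2 (hm w)
    exact ⟨x, Subtype.ext hx⟩
  · rw [sqNorm_eq_dot]
    exact h.parseval hr hu x x

end LeechLike

end CL.Leech
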