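/-
The transformation formula for theta series of positive definite quadratic forms.
-/
import Mathlib

set_option autoImplicit false

namespace CL.Theta

open Matrix Complex
open scoped Real

variable {n : ℕ}

theorem summable_one {c : ℝ} (hc : 0 < c) (d : ℝ) :
    Summable fun x : ℤ => Real.exp (-c * x ^ 2 + d * x) := by
  have h := ((summable_jacobiTheta₂_term_iff (-(d / (2 * π) : ℝ) * I) ((c / π : ℝ) * I)).2
    (by simpa using div_pos hc Real.pi_pos)).norm
  refine h.congr fun x => ?_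
  rw [norm_jacobiTheta₂_term]
  congr 1
  have := Real.pi_pos
  simp only [mul_im, ofReal_re, I_im, mul_one, ofReal_im, I_re, mul_zero, add_zero, neg_re, neg_im,
    neg_zero]
  field_simp
  ring

theorem summable_pi {f : Fin n → ℤ → ℝ} (h : ∀ i, Summable (f i)) (h0 : ∀ i x, 0 ≤ f i x) :
    Summable fun x : Fin n → ℤ => ∏ i, f i (x i) := by
  induction n with
  | zero => exact Summable.of_finite
  | succ n ih =>
    rw [← (Fin.consEquiv fun _ => ℤ).summable_iff]
    refine ((h 0).mul_of_nonneg (ih (fun i => h i.succ) fun i => h0 i.succ) (h0 0)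
      fun x => Finset.prod_nonneg fun i _ => h0 _ _).congr fun x => ?_
    simp [Fin.prod_univ_succ, Fin.consEquiv]

theorem coercive {A : Matrix (Fin n) (Fin n) ℝ} (h : A.PosDef) :
    ∃ l > 0, ∀ x : Fin n → ℝ, l * ∑ i, x i ^ 2 ≤ x ⬝ᵥ A *ᵥ x := by
  cases n with
  | zero => exact ⟨1, one_pos, fun x => by simp [dotProduct]⟩
  | succ n =>
  obtain ⟨y, hy, e⟩ := (isCompact_sphere (0 : Fin (n + 1) → ℝ) 1).exists_isMinOn
    (NormedSpace.sphere_nonempty.2 zero_le_one) (f := fun x => x ⬝ᵥ A *ᵥ x) (by fun_prop)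
  have h1 : 0 < y ⬝ᵥ A *ᵥ y := h.dotProduct_mulVec_pos (by rintro rfl; simp at hy)
  refine ⟨y ⬝ᵥ A *ᵥ y / (n + 1), by positivity, fun x => ?_⟩
  rcases eq_or_ne x 0 with rfl | hx
  · simp
  have h2 := norm_pos_iff.2 hx
  have h3 : y ⬝ᵥ A *ᵥ y ≤ _ := e (show ‖x‖⁻¹ • x ∈ _ by simp [norm_smul, h2.ne'])
  simp only [mulVec_smul, dotProduct_smul, smul_dotProduct, smul_eq_mul] at h3
  have h4 : ∑ i, x i ^ 2 ≤ (n + 1) * ‖x‖ ^ 2 := by
    refine (Finset.sum_le_card_nsmul _ _ (‖x‖ ^ 2) fun i _ => ?_).trans (by simp)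
    exact sq_abs (x i) ▸ pow_le_pow_left₀ (abs_nonneg _) (norm_le_pi_norm x i) 2
  calc _ ≤ y ⬝ᵥ A *ᵥ y / (n + 1) * ((n + 1) * ‖x‖ ^ 2) := by gcongr
    _ = y ⬝ᵥ A *ᵥ y * ‖x‖ ^ 2 := by field_simp
    _ ≤ ‖x‖⁻¹ * (‖x‖⁻¹ * (x ⬝ᵥ A *ᵥ x)) * ‖x‖ ^ 2 := by gcongr
    _ = _ := by field_simp

/-- the bilinear form of a real matrix on complex vectors -/
noncomputable def bf (A : Matrix (Fin n) (Fin n) ℝ) (v w : Fin n → ℂ) : ℂ := ∑ i, ∑ j, v i * A i j * w j

/-- an integer vector as a complex vector -/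
abbrev cv (x : Fin n → ℤ) : Fin n → ℂ := fun i => x i

theorem bf_cv (A : Matrix (Fin n) (Fin n) ℝ) (x : Fin n → ℤ) :
    bf A (cv x) (cv x) = ((fun i => (x i : ℝ)) ⬝ᵥ A *ᵥ fun i => (x i : ℝ) : ℝ) := by
  simp [bf, dotProduct, mulVec, Finset.mul_sum, mul_assoc]

theorem summable_lin {A : Matrix (Fin n) (Fin n) ℝ} (h : A.PosDef) {s : ℂ} (hs : 0 < s.re)
    (z : Fin n → ℂ) :
    Summable fun x : Fin n → ℤ => cexp (-π * s * bf A (cv x) (cv x) + 2 * π * (z ⬝ᵥ cv x)) := by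
  obtain ⟨l, hl, e⟩ := coercive h
  have := Real.pi_pos
  refine (summable_pi (fun i => summable_one (c := π * s.re * l) (by positivity) (2 * π * (z i).re))
    fun _ _ => (Real.exp_pos _).le).of_norm_bounded fun x => ?_
  rw [norm_exp, ← Real.exp_sum, Real.exp_le_exp, bf_cv, Finset.sum_add_distrib, ← Finset.mul_sum]
  have h1 := mul_le_mul_of_nonneg_left (e fun i => x i) (mul_pos this hs).le
  simp only [dotProduct] at h1 ⊢
  simp only [add_re, mul_re, neg_re, ofReal_re, ofReal_im, neg_im, mul_im, re_sum, im_sum, intCast_re,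
    intCast_im, re_ofNat, im_ofNat, mul_zero, sub_zero, zero_mul, neg_zero, add_zero, mul_assoc,
    ← Finset.mul_sum] at h1 ⊢
  linarith

theorem bf_add {A : Matrix (Fin n) (Fin n) ℝ} (h : A.IsHermitian) (v w : Fin n → ℂ) :
    bf A (v + w) (v + w) = bf A v v + 2 * ((fun j => ∑ i, w i * A i j) ⬝ᵥ v) + bf A w w := by
  have e : ∑ i, ∑ j, v i * A i j * w j = ∑ j, ∑ i, w i * A i j * v j :=
    Finset.sum_congr rfl fun i _ => Finset.sum_congr rfl fun j _ => by
      rw [show A j i = A i j from h.apply i j]; ring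
  simp only [bf, dotProduct, Pi.add_apply, add_mul, mul_add, Finset.sum_add_distrib, Finset.sum_mul, e]
  rw [Finset.sum_comm (f := fun i j => w i * A i j * v j)]
  ring

theorem summable_shift {A : Matrix (Fin n) (Fin n) ℝ} (h : A.PosDef) {s : ℂ} (hs : 0 < s.re)
    (u : Fin n → ℂ) : Summable fun x : Fin n → ℤ => cexp (-π / s * bf A (cv x + u) (cv x + u)) := by
  refine ((summable_lin h (s := s⁻¹) (by
    rw [inv_re]; exact div_pos hs (normSq_pos.2 fun e => by simp [e] at hs))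
    (-s⁻¹ • fun j => ∑ i, u i * A i j)).mul_right (cexp (-π / s * bf A u u))).congr fun x => ?_
  rw [← exp_add, bf_add h.1, smul_dotProduct]
  congr 1
  simp only [smul_eq_mul]
  ring

/-- the Schur complement of the first diagonal entry -/
noncomputable def schur (A : Matrix (Fin (n + 1)) (Fin (n + 1)) ℝ) : Matrix (Fin n) (Fin n) ℝ :=
  fun i j => A i.succ j.succ - A 0 i.succ * A 0 j.succ / A 0 0

variable {A : Matrix (Fin (n + 1)) (Fin (n + 1)) ℝ}

theorem schur_posDef (h : A.PosDef) : (schur A).PosDef := by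
  have hs : ∀ i j, A i j = A j i := fun i j => h.1.apply j i
  have h0 := h.diag_pos (i := 0)
  refine .of_dotProduct_mulVec_pos (IsHermitian.ext fun i j => ?_) fun x hx => ?_
  · simp [schur, hs i.succ j.succ, mul_comm]
  have := h.dotProduct_mulVec_pos (x := Fin.cons (-(∑ j, A 0 j.succ * x j) / A 0 0) x)
    fun e => hx (funext fun i => congrFun e i.succ)
  convert this using 1
  simp only [schur, dotProduct, mulVec, star_trivial, Fin.sum_univ_succ, Fin.cons_zero, Fin.cons_succ,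
    hs _ 0, sub_mul, Finset.sum_sub_distrib, mul_sub, mul_add, Finset.sum_add_distrib]
  have e : ∀ i : Fin n, ∑ j, A 0 i.succ * A 0 j.succ / A 0 0 * x j =
      A 0 i.succ * ((∑ j, A 0 j.succ * x j) / A 0 0) := fun i => by
    rw [Finset.sum_div, Finset.mul_sum]
    exact Finset.sum_congr rfl fun j _ => by ring
  simp only [e, ← mul_assoc, ← Finset.sum_mul, mul_comm (x _) (A 0 _)]
  field_simp
  ring

theorem bf_cons (h : A.PosDef) (a : ℂ) (v : Fin n → ℂ) :
    bf A (Fin.cons a v) (Fin.cons a v) =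
      A 0 0 * (a + (∑ j, A 0 j.succ * v j) / A 0 0) ^ 2 + bf (schur A) v v := by
  have hs : ∀ i j, A i j = A j i := fun i j => h.1.apply j i
  have h0 : (A 0 0 : ℂ) ≠ 0 := ofReal_ne_zero.2 (h.diag_pos (i := 0)).ne'
  have e : ∑ i, ∑ j, v i * (A 0 i.succ * A 0 j.succ / A 0 0 : ℂ) * v j =
      (∑ j, A 0 j.succ * v j) ^ 2 / A 0 0 := by
    rw [sq, Finset.sum_mul_sum, Finset.sum_div]
    refine Finset.sum_congr rfl fun i _ => ?_
    rw [Finset.sum_div]
    exact Finset.sum_congr rfl fun j _ => by ring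
  simp only [bf, schur, Fin.sum_univ_succ, Fin.cons_zero, Fin.cons_succ, hs _ 0, Finset.sum_add_distrib,
    ofReal_sub, ofReal_div, ofReal_mul, mul_sub, sub_mul, Finset.sum_sub_distrib, e, mul_assoc a,
    ← Finset.mul_sum, ← Finset.sum_mul, mul_comm (v _) (A 0 _ : ℂ)]
  field_simp
  ring

theorem bf_inv {m : ℕ} {B : Matrix (Fin m) (Fin m) ℝ} (h : B.PosDef) (w : Fin m → ℂ) :
    (∀ i, ∑ j, (B i j : ℂ) * ∑ k, (B⁻¹ j k : ℂ) * w k = w i) ∧
      ∀ u : Fin m → ℂ, (∀ i, ∑ j, (B i j : ℂ) * u j = w i) → bf B⁻¹ w w = w ⬝ᵥ u := by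
  have hd := (isUnit_iff_isUnit_det B).1 h.isUnit
  have key : ∀ (P Q : Matrix (Fin m) (Fin m) ℝ) (u : Fin m → ℂ), P * Q = 1 →
      ∀ i, ∑ j, (P i j : ℂ) * ∑ k, (Q j k : ℂ) * u k = u i := fun P Q u e i => by
    simp only [Finset.mul_sum, ← mul_assoc]
    rw [Finset.sum_comm]
    simp only [← Finset.sum_mul, ← ofReal_mul, ← ofReal_sum, ← mul_apply, e, one_apply]
    simp [apply_ite]
  refine ⟨key _ _ w (mul_nonsing_inv B hd), fun u e => ?_⟩
  refine Finset.sum_congr rfl fun i _ => ?_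
  rw [← key _ _ u (nonsing_inv_mul B hd) i]
  simp only [e, Finset.mul_sum, mul_assoc]

theorem bf_inv_cons (h : A.PosDef) (a : ℂ) (v : Fin n → ℂ) :
    bf A⁻¹ (Fin.cons a v) (Fin.cons a v) = a ^ 2 / A 0 0 +
      bf (schur A)⁻¹ (v - fun j => a * A 0 j.succ / A 0 0) (v - fun j => a * A 0 j.succ / A 0 0) := by
  have hs : ∀ i j, A i j = A j i := fun i j => h.1.apply j i
  have h0 : (A 0 0 : ℂ) ≠ 0 := ofReal_ne_zero.2 (h.diag_pos (i := 0)).ne'
  obtain ⟨h1, h2⟩ := bf_inv (schur_posDef h) (v - fun j => a * A 0 j.succ / A 0 0)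
  rw [h2 _ h1]
  obtain ⟨u, hu⟩ : ∃ u : Fin n → ℂ, ∀ j, ∑ k, ((schur A)⁻¹ j k : ℂ) *
    (v - fun j : Fin n => a * A 0 j.succ / A 0 0 : Fin n → ℂ) k = u j := ⟨_, fun _ => rfl⟩
  simp only [hu] at h1 ⊢
  rw [(bf_inv h _).2 (Fin.cons ((a - ∑ j, A 0 j.succ * u j) / A 0 0) u)]
  · simp only [dotProduct, Fin.sum_univ_succ, Fin.cons_zero, Fin.cons_succ, Pi.sub_apply, sub_mul,
      Finset.sum_sub_distrib, div_mul_eq_mul_div, mul_assoc, ← Finset.sum_div, ← Finset.mul_sum]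
    field_simp
    ring
  refine Fin.cases ?_ fun i => ?_
  · simp only [Fin.sum_univ_succ, Fin.cons_zero, Fin.cons_succ]
    field_simp
    ring
  · have := h1 i
    simp only [schur, Fin.sum_univ_succ, Fin.cons_zero, Fin.cons_succ, Pi.sub_apply, ofReal_sub, ofReal_div,
      ofReal_mul, sub_mul, Finset.sum_sub_distrib, div_mul_eq_mul_div, mul_assoc, ← Finset.sum_div,
      ← Finset.mul_sum, hs _ 0] at this ⊢
    linear_combination this

theorem tsum_cons {f : (Fin (n + 1) → ℤ) → ℂ} (h : Summable f) :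
    ∑' x, f x = ∑' (a : ℤ) (v : Fin n → ℤ), f (Fin.cons a v) ∧
      ∑' x, f x = ∑' (v : Fin n → ℤ) (a : ℤ), f (Fin.cons a v) := by
  have h1 := (Fin.consEquiv fun _ => ℤ).summable_iff.2 h
  have h2 : ∑' x, f x = ∑' (a : ℤ) (v : Fin n → ℤ), f (Fin.cons a v) := by
    rw [← (Fin.consEquiv fun _ => ℤ).tsum_eq]
    exact h1.tsum_prod
  exact ⟨h2, h2.trans (Summable.tsum_comm (f := fun a v => f (Fin.cons a v)) h1).symm⟩

theorem cv_cons (a : ℤ) (v : Fin n → ℤ) : cv (Fin.cons a v : Fin (n + 1) → ℤ) = Fin.cons (a : ℂ) (cv v) :=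
  funext fun i => Fin.cases rfl (fun _ => rfl) i

/-- Poisson summation for Gaussians of a positive definite form -/
theorem poisson (n : ℕ) : ∀ A : Matrix (Fin n) (Fin n) ℝ, A.PosDef → ∃ c : ℝ, 0 < c ∧
    ∀ s : ℂ, 0 < s.re → ∀ z : Fin n → ℂ,
      ∑' x : Fin n → ℤ, cexp (-π * s * bf A (cv x) (cv x) + 2 * π * (z ⬝ᵥ cv x)) =
        c / (s ^ (1 / 2 : ℂ)) ^ n * ∑' x : Fin n → ℤ, cexp (-π / s * bf A⁻¹ (cv x + I • z) (cv x + I • z)) := by
  induction n with
  | zero => exact fun A _ => ⟨1, one_pos, fun s _ z => by simp [bf]⟩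
  | succ n ih =>
  intro A h
  obtain ⟨c, hc, ih⟩ := ih _ (schur_posDef h)
  have h0 := h.diag_pos (i := 0)
  have h0' : (A 0 0 : ℂ) ≠ 0 := ofReal_ne_zero.2 h0.ne'
  refine ⟨c / Real.exp (Real.log (A 0 0) / 2), by positivity, fun s hs z => ?_⟩
  have hs0 : s ≠ 0 := fun e => by simp [e] at hs
  have hsa : 0 < (A 0 0 * s).re := by simpa using mul_pos h0 hs
  let b : Fin n → ℂ := fun j => A 0 j.succ
  let F : ℤ → (Fin n → ℤ) → ℂ := fun m v => cexp (-π / (A 0 0 * s) * (m + I * z 0) ^ 2) *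
    cexp (-π * s * bf (schur A) (cv v) (cv v) + 2 * π * ((Fin.tail z + (I * (m + I * z 0) / A 0 0) • b) ⬝ᵥ cv v))
  have hF : Summable (Function.uncurry F) := by
    have h1 := summable_shift (n := 1) (A := 1) .one hsa fun _ => I * z 0
    rw [← (Equiv.funUnique (Fin 1) ℤ).symm.summable_iff] at h1
    refine (h1.norm.mul_norm (summable_lin (schur_posDef h) hs
      (Fin.tail z + (I * (I * z 0) / A 0 0) • b)).norm).of_norm_bounded fun ⟨m, v⟩ => le_of_eq ?_
    simp only [F, Function.uncurry, norm_mul, norm_exp, bf, cv, add_dotProduct, smul_dotProduct]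
    congr 1
    · rw [← norm_exp]
      simp [sq, cv]
    congr 1
    have : (b ⬝ᵥ fun i => (v i : ℂ)).im = 0 := by simp [b, dotProduct]
    simp [add_div, mul_add, add_mul, this]
  have e1 : ∀ v : Fin n → ℤ, ∑' a : ℤ, cexp (-π * s * bf A (cv (Fin.cons a v)) (cv (Fin.cons a v)) +
      2 * π * (z ⬝ᵥ cv (Fin.cons a v))) = 1 / (A 0 0 * s) ^ (1 / 2 : ℂ) * ∑' m, F m v := fun v => by
    have := tsum_exp_neg_quadratic hsa (z 0 - s * (b ⬝ᵥ cv v))
    have e := congrArg (· * cexp (-π * s * ((b ⬝ᵥ cv v) ^ 2 / A 0 0 + bf (schur A) (cv v) (cv v)) +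
      2 * π * (Fin.tail z ⬝ᵥ cv v))) this
    rw [mul_assoc (1 / _ : ℂ)] at e
    simp only [← tsum_mul_right, ← exp_add] at e
    refine (tsum_congr fun a => ?_).trans (e.trans (congrArg _ (tsum_congr fun m => ?_)))
    · rw [cv_cons, bf_cons h]
      congr 1
      simp only [dotProduct, Fin.sum_univ_succ, Fin.cons_zero, Fin.cons_succ, Fin.tail, b]
      field_simp
      ring
    · simp only [F, ← exp_add, add_dotProduct, smul_dotProduct, smul_eq_mul]
      congr 1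
      field_simp
      linear_combination (-s ^ 2 * (b ⬝ᵥ cv v) ^ 2) * I_sq
  have e2 : ∀ m : ℤ, ∑' v, F m v = c / (s ^ (1 / 2 : ℂ)) ^ n * ∑' v : Fin n → ℤ,
      cexp (-π / s * bf A⁻¹ (cv (Fin.cons m v) + I • z) (cv (Fin.cons m v) + I • z)) := fun m => by
    simp only [F, tsum_mul_left, ih s hs]
    rw [mul_left_comm, ← tsum_mul_left]
    refine congrArg _ (tsum_congr fun v => ?_)
    have e : cv (Fin.cons m v : Fin (n + 1) → ℤ) + I • z = Fin.cons (m + I * z 0) (cv v + I • Fin.tail z) :=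
      funext fun i => Fin.cases rfl (fun _ => rfl) i
    have e' : cv v + I • (Fin.tail z + (I * (m + I * z 0) / A 0 0) • b) =
        cv v + I • Fin.tail z - fun j : Fin n => (m + I * z 0) * A 0 j.succ / A 0 0 := funext fun j => by
      simp only [Pi.add_apply, Pi.sub_apply, Pi.smul_apply, smul_eq_mul, b]
      linear_combination ((m + I * z 0) * A 0 j.succ / A 0 0) * I_sq
    rw [e, e', bf_inv_cons h, ← exp_add]
    congr 1
    field_simp
    ring
  rw [(tsum_cons (summable_lin h hs z)).2, (tsum_cons (summable_shift h.inv hs _)).1]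
  simp only [e1, tsum_mul_left, hF.tsum_comm, e2]
  rw [← mul_assoc]
  congr 1
  rw [cpow_def_of_ne_zero (mul_ne_zero h0' hs0), log_ofReal_mul h0 hs0, add_mul, exp_add,
    ← cpow_def_of_ne_zero hs0, pow_succ]
  push_cast
  rw [mul_one_div]
  ring

end CL.Theta
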