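/-
The theta series of an even unimodular lattice of rank 24 is a modular form of weight 12.
-/
import Cfsg.Agent.SPOR.Theta

set_option autoImplicit false

namespace CL.Theta

open Matrix Complex UpperHalfPlane ModularForm MatrixGroups EisensteinSeries
open scoped Real

variable {n : ℕ} {B : Matrix (Fin n) (Fin n) ℤ}

theorem cast_form (B : Matrix (Fin n) (Fin n) ℤ) (x : Fin n → ℤ) :
    (fun i => (x i : ℝ)) ⬝ᵥ B.map (Int.cast : ℤ → ℝ) *ᵥ (fun i => (x i : ℝ)) = (x ⬝ᵥ B *ᵥ x : ℤ) := by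
  simp [dotProduct, mulVec]

theorem posDef_map (hs : B.IsSymm) (hp : ∀ x : Fin n → ℤ, x ≠ 0 → 0 < x ⬝ᵥ B *ᵥ x) (hd : B.det = 1) :
    (B.map (Int.cast : ℤ → ℝ)).PosDef := by
  refine (PosSemidef.posDef_iff_det_ne_zero (.of_dotProduct_mulVec_nonneg (isHermitian_iff_isSymm.2 (hs.map _)) fun x => ?_)).2 ?_
  · refine (DenseRange.piMap fun _ : Fin n => Rat.denseRange_cast (𝕜 := ℝ)).induction_on x
      (isClosed_le continuous_const (by fun_prop)) fun q => ?_
    obtain ⟨⟨b, hb⟩, e⟩ := IsLocalization.exist_integer_multiples_of_finite (nonZeroDivisors ℤ) q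
    choose y hy using e
    have hb' : (b : ℝ) ≠ 0 := Int.cast_ne_zero.2 (nonZeroDivisors.ne_zero hb)
    have e : Pi.map (fun _ => (Rat.cast : ℚ → ℝ)) q = (b : ℝ)⁻¹ • fun i => (y i : ℝ) := funext fun i => by
      have := congrArg (Rat.cast : ℚ → ℝ) (hy i)
      simp at this
      simp [this, hb']
    rw [star_trivial, e, mulVec_smul, dotProduct_smul, smul_dotProduct, cast_form, smul_smul]
    refine mul_nonneg (mul_self_nonneg _) (Int.cast_nonneg ?_)
    rcases eq_or_ne y 0 with rfl | h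
    · simp
    exact (hp y h).le
  · rw [← Int.cast_det, hd]
    simp

/-- the theta series in the variable `s = -iτ` -/
noncomputable def th (B : Matrix (Fin n) (Fin n) ℤ) (s : ℂ) : ℂ :=
  ∑' x : Fin n → ℤ, cexp (-π * s * (x ⬝ᵥ B *ᵥ x : ℤ))

theorem bf_map (B : Matrix (Fin n) (Fin n) ℤ) (x : Fin n → ℤ) :
    bf (B.map (Int.cast : ℤ → ℝ)) (cv x) (cv x) = (x ⬝ᵥ B *ᵥ x : ℤ) := by
  rw [bf_cv, cast_form, ofReal_intCast]

theorem summable_th (h : (B.map (Int.cast : ℤ → ℝ)).PosDef) {s : ℂ} (hs : 0 < s.re) :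
    Summable fun x : Fin n → ℤ => cexp (-π * s * (x ⬝ᵥ B *ᵥ x : ℤ)) := by
  simpa [bf_map] using summable_lin h hs 0

theorem th_inv (h : (B.map (Int.cast : ℤ → ℝ)).PosDef) (hd : B.det = 1) {s : ℂ} (hs : 0 < s.re) :
    th B s⁻¹ = (s ^ (1 / 2 : ℂ)) ^ n * th B s := by
  obtain ⟨c, -, e⟩ := poisson n _ h
  have hu : IsUnit B.det := hd ▸ isUnit_one
  let φ : (Fin n → ℤ) ≃ (Fin n → ℤ) := ⟨(B *ᵥ ·), (B⁻¹ *ᵥ ·),
    fun x => by simp [nonsing_inv_mul B hu], fun x => by simp [mul_nonsing_inv B hu]⟩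
  have e2 : ∀ s : ℂ, 0 < s.re → th B s = c / (s ^ (1 / 2 : ℂ)) ^ n * th B s⁻¹ := fun s hs => by
    have := e s hs 0
    simp only [zero_dotProduct, mul_zero, add_zero, smul_zero, bf_map] at this
    rw [th, this, ← φ.tsum_eq]
    refine congrArg _ (tsum_congr fun x => ?_)
    rw [(bf_inv h _).2 (cv x) fun i => by simp [φ, cv, mulVec, dotProduct], div_eq_mul_inv]
    simp [φ, dotProduct, mul_comm]
  have h1 : th B 1 ≠ 0 := by
    have hs := summable_th h (s := 1) (by simp)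
    have : th B 1 = (∑' x : Fin n → ℤ, Real.exp (-π * (x ⬝ᵥ B *ᵥ x : ℤ)) : ℝ) := by simp [th, ofReal_tsum]
    rw [this, ofReal_ne_zero]
    refine (Summable.tsum_pos (hs.norm.congr fun x => ?_) (fun _ => (Real.exp_pos _).le) 0 (Real.exp_pos _)).ne'
    simp [norm_exp]
  have hc : (c : ℂ) = 1 := by
    have := e2 1 (by simp)
    simp only [one_cpow, one_pow, div_one, inv_one] at this
    exact (mul_right_cancel₀ h1 (this.symm.trans (one_mul _).symm))
  have hs0 : s ≠ 0 := fun e => by simp [e] at hs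
  have : s ^ (1 / 2 : ℂ) ≠ 0 := fun e => hs0 ((cpow_eq_zero_iff _ _).1 e).1
  rw [e2 s hs, hc]
  field_simp

theorem th_diff (h : (B.map (Int.cast : ℤ → ℝ)).PosDef) (hp : ∀ x : Fin n → ℤ, 0 ≤ x ⬝ᵥ B *ᵥ x) {s : ℂ}
    (hs : 0 < s.re) : DifferentiableAt ℂ (th B) s := by
  have hU : IsOpen {w : ℂ | s.re / 2 < w.re} := isOpen_lt continuous_const continuous_re
  refine (differentiableOn_tsum_of_summable_norm (summable_th h (s := (s.re / 2 : ℝ)) (by simpa)).norm
    (fun x => by fun_prop) hU fun x w hw => ?_).differentiableAt (hU.mem_nhds (by simpa))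
  rw [norm_exp, norm_exp, Real.exp_le_exp]
  have h1 : (0 : ℝ) ≤ (x ⬝ᵥ B *ᵥ x : ℤ) := Int.cast_nonneg (hp x)
  have h2 := mul_le_mul_of_nonneg_right (mul_le_mul_of_nonneg_left (le_of_lt hw) Real.pi_pos.le) h1
  simpa using h2

theorem hasSum_th (h : (B.map (Int.cast : ℤ → ℝ)).PosDef) (hp : ∀ x : Fin n → ℤ, 0 ≤ x ⬝ᵥ B *ᵥ x)
    (he : ∀ x : Fin n → ℤ, 2 ∣ x ⬝ᵥ B *ᵥ x) (τ : ℍ) :
    HasSum (fun m : ℕ => ({x : Fin n → ℤ | x ⬝ᵥ B *ᵥ x = 2 * m}.ncard : ℂ) • Function.Periodic.qParam 1 τ ^ m)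
      (th B (-Complex.I * τ)) := by
  let N : (Fin n → ℤ) → ℕ := fun x => (x ⬝ᵥ B *ᵥ x / 2).toNat
  have hN : ∀ x, x ⬝ᵥ B *ᵥ x = 2 * N x := fun x => by
    have := hp x
    have := he x
    simp only [N]
    omega
  have h1 := (summable_th h (s := -Complex.I * τ) (by simpa using τ.im_pos)).hasSum
  rw [← (Equiv.sigmaFiberEquiv N).hasSum_iff] at h1
  refine h1.sigma fun m => ?_
  have e : ∀ x : {x // N x = m}, Function.Periodic.qParam 1 τ ^ m =
      cexp (-π * (-Complex.I * τ) * (x.1 ⬝ᵥ B *ᵥ x.1 : ℤ)) := fun x => by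
    rw [hN, x.2, Function.Periodic.qParam, ← exp_nat_mul]
    congr 1
    push_cast
    ring
  have h2 := ((h1.summable.sigma_factor m).congr fun x => (e x).symm).hasSum
  rw [tsum_const, nsmul_eq_mul] at h2
  have e2 : {x : Fin n → ℤ | x ⬝ᵥ B *ᵥ x = 2 * m}.ncard = Nat.card {x // N x = m} := by
    rw [← Nat.card_coe_set_eq]
    refine Nat.card_congr (Equiv.subtypeEquivRight fun x => ?_)
    rw [Set.mem_ofPred_eq, hN]
    omega
  rw [e2, smul_eq_mul]
  exact (funext e ▸ h2 :)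

set_option backward.isDefEq.respectTransparency.types false in
/-- the theta series of an even unimodular lattice of rank 24 -/
noncomputable def thetaMF {B : Matrix (Fin 24) (Fin 24) ℤ} (h : (B.map (Int.cast : ℤ → ℝ)).PosDef)
    (hp : ∀ x : Fin 24 → ℤ, 0 ≤ x ⬝ᵥ B *ᵥ x) (he : ∀ x : Fin 24 → ℤ, 2 ∣ x ⬝ᵥ B *ᵥ x) (hd : B.det = 1) :
    ModularForm 𝒮ℒ 12 :=
  have hS : (fun τ : ℍ => th B (-Complex.I * τ)) ∣[(12 : ℤ)] ModularGroup.S = fun τ : ℍ => th B (-Complex.I * τ) := by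
    ext τ
    have e := th_inv h hd (s := -Complex.I * τ) (by simpa using τ.im_pos)
    have e1 : ((-Complex.I * τ) ^ (1 / 2 : ℂ)) ^ 24 = τ ^ 12 := by
      rw [show 24 = 2 * 12 from rfl, pow_mul, one_div, cpow_ofNat_inv_pow, mul_pow, neg_pow,
        show 12 = 4 * 3 from rfl, pow_mul Complex.I, I_pow_four]
      norm_num
    have e2 : -Complex.I * -(τ : ℂ)⁻¹ = (-Complex.I * τ)⁻¹ := by simp [mul_comm]
    suffices th B (-Complex.I * -(τ : ℂ)⁻¹) * ((τ : ℂ) ^ 12)⁻¹ = th B (-Complex.I * τ) by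
      rw [SL_slash_apply, modular_S_smul]
      simpa [denom, ModularGroup.S]
    rw [e2, e, e1]
    field_simp [τ.ne_zero]
  have hT : (fun τ : ℍ => th B (-Complex.I * τ)) ∣[(12 : ℤ)] ModularGroup.T = fun τ : ℍ => th B (-Complex.I * τ) := by
    ext τ
    rw [SL_slash_apply, denom, modular_T_smul, ModularGroup.T, ← (hasSum_th h hp he _).tsum_eq,
      ← (hasSum_th h hp he _).tsum_eq]
    have : Function.Periodic.qParam 1 (1 + τ) = Function.Periodic.qParam 1 τ := by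
      simp [Function.Periodic.qParam, mul_add, exp_add]
    simp [this]
  { toFun := fun τ => th B (-Complex.I * τ)
    slash_action_eq' := fun A hA => by
      obtain ⟨A, rfl⟩ := hA
      exact SlashInvariantForm.slash_action_generators_SL2Z hS hT A
    holo' := by
      rw [UpperHalfPlane.mdifferentiable_iff]
      refine .congr (f := fun z => th B (-Complex.I * z)) (fun z hz => DifferentiableAt.differentiableWithinAt
        ((th_diff h hp (by simpa using hz)).comp z (by fun_prop))) fun z hz => ?_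
      simp [ofComplex_apply_of_im_pos hz]
    bdd_at_cusps' := fun hc => by
      rw [Subgroup.IsArithmetic.isCusp_iff_isCusp_SL2Z] at hc
      rw [OnePoint.isBoundedAt_iff_forall_SL2Z hc]
      intro γ _
      rw [SlashInvariantForm.slash_action_generators_SL2Z hS hT]
      exact isBoundedAtImInfty_of_hasSum_qExpansion one_pos (hasSum_th h hp he) }

/-- weight 12: a form `1 + 0 q + …` is determined -/
theorem wt12 (f : ModularForm 𝒮ℒ 12) (h0 : (qExpansion 1 f).coeff 0 = 1) (h1 : (qExpansion 1 f).coeff 1 = 0) :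
    (qExpansion 1 f).coeff 2 = 196560 ∧ (qExpansion 1 f).coeff 3 = 16773120 ∧
      (qExpansion 1 f).coeff 4 = 398034000 := by
  let g : ModularForm 𝒮ℒ 12 := f - ((7 / 12 : ℂ) • ModularForm.mcast (by decide) (E₄.pow 3) +
    (5 / 12 : ℂ) • ModularForm.mcast (by decide) (E₆.pow 2))
  have e : qExpansion 1 g = qExpansion 1 f - ((7 / 12 : ℂ) • (qExpansion 1 E₄ * qExpansion 1 E₄ * qExpansion 1 E₄) +
      (5 / 12 : ℂ) • (qExpansion 1 E₆ * qExpansion 1 E₆)) := by
    simp only [g, FunLike.coe_sub, ModularForm.qExpansion_sub one_pos one_mem_strictPeriods_SL]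
    simp only [FunLike.coe_add, ModularForm.qExpansion_add one_pos one_mem_strictPeriods_SL]
    simp only [FunLike.coe_smul, ModularForm.qExpansion_smul one_pos one_mem_strictPeriods_SL, coe_mcast,
      ModularForm.qExpansion_pow one_pos one_mem_strictPeriods_SL, pow_succ, pow_zero, one_mul]
  have s3 : ∀ m : Fin 5, ArithmeticFunction.sigma 3 m = ![0, 1, 9, 28, 73] m := by decide +kernel
  have s5 : ∀ m : Fin 5, ArithmeticFunction.sigma 5 m = ![0, 1, 33, 244, 1057] m := by decide +kernel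
  have a : ∀ m : Fin 5, (qExpansion 1 E₄).coeff m = ![1, 240, 2160, 6720, 17520] m := fun m => by
    rw [E_qExpansion_coeff _ ⟨2, rfl⟩, show bernoulli 4 = -1 / 30 by decide +kernel, s3]
    fin_cases m <;> norm_num
  have b : ∀ m : Fin 5, (qExpansion 1 E₆).coeff m = ![1, -504, -16632, -122976, -532728] m := fun m => by
    rw [E_qExpansion_coeff _ ⟨3, rfl⟩, show bernoulli 6 = 1 / 42 by decide +kernel, s5]
    fin_cases m <;> norm_num
  have a0 : (qExpansion 1 E₄).coeff 0 = 1 := a 0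
  have a1 : (qExpansion 1 E₄).coeff 1 = 240 := a 1
  have a2 : (qExpansion 1 E₄).coeff 2 = 2160 := a 2
  have a3 : (qExpansion 1 E₄).coeff 3 = 6720 := a 3
  have a4 : (qExpansion 1 E₄).coeff 4 = 17520 := a 4
  have b0 : (qExpansion 1 E₆).coeff 0 = 1 := b 0
  have b1 : (qExpansion 1 E₆).coeff 1 = -504 := b 1
  have b2 : (qExpansion 1 E₆).coeff 2 = -16632 := b 2
  have b3 : (qExpansion 1 E₆).coeff 3 = -122976 := b 3
  have b4 : (qExpansion 1 E₆).coeff 4 = -532728 := b 4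
  have c : ∀ m : ℕ, (qExpansion 1 g).coeff m = _ := fun m => congrArg (PowerSeries.coeff m) e
  have c0 := c 0
  have c1 := c 1
  have c2 := c 2
  have c3 := c 3
  have c4 := c 4
  norm_num [-PowerSeries.coeff_zero_eq_constantCoeff, PowerSeries.coeff_mul, Finset.Nat.antidiagonal_succ,
    a0, a1, a2, a3, a4, b0, b1, b2, b3, b4, h0, h1] at c0 c1 c2 c3 c4
  have hg : g = 0 := sturm_bound_levelOne_nat (k := 12) (by
    refine lt_of_lt_of_le (by norm_num : ((12 / 12 : ℕ) : ℕ∞) < (2 : ℕ)) (PowerSeries.nat_le_order _ _ fun i hi => ?_)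
    interval_cases i
    exacts [c0, c1])
  simp only [hg, FunLike.coe_zero, qExpansion_zero, map_zero] at c2 c3 c4
  exact ⟨(sub_eq_zero.1 c2.symm), sub_eq_zero.1 c3.symm, sub_eq_zero.1 c4.symm⟩

/-- the numbers of short vectors of a rootless even unimodular lattice of rank 24 -/
theorem counts {B : Matrix (Fin 24) (Fin 24) ℤ} (hs : B.IsSymm) (hp : ∀ x : Fin 24 → ℤ, x ≠ 0 → 0 < x ⬝ᵥ B *ᵥ x)
    (he : ∀ x : Fin 24 → ℤ, 2 ∣ x ⬝ᵥ B *ᵥ x) (hd : B.det = 1) (h2 : ∀ x : Fin 24 → ℤ, x ⬝ᵥ B *ᵥ x ≠ 2) :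
    {x : Fin 24 → ℤ | x ⬝ᵥ B *ᵥ x = 4}.ncard = 196560 ∧ {x : Fin 24 → ℤ | x ⬝ᵥ B *ᵥ x = 6}.ncard = 16773120 ∧
      {x : Fin 24 → ℤ | x ⬝ᵥ B *ᵥ x = 8}.ncard = 398034000 := by
  have h := posDef_map hs hp hd
  have hp' : ∀ x : Fin 24 → ℤ, 0 ≤ x ⬝ᵥ B *ᵥ x := fun x => by
    rcases eq_or_ne x 0 with rfl | e
    · simp
    exact (hp x e).le
  have c := ModularFormClass.qExpansion_coeff_unique one_pos one_mem_strictPeriods_SL (f := thetaMF h hp' he hd)
    (hasSum_th h hp' he)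
  have := wt12 (thetaMF h hp' he hd) (by
    rw [← c, Nat.cast_eq_one, Set.ncard_eq_one]
    refine ⟨0, Set.eq_singleton_iff_unique_mem.2 ⟨by simp, fun x hx => by_contra fun e => (hp x e).ne' ?_⟩⟩
    simpa using hx) (by
    rw [← c, Nat.cast_eq_zero]
    exact (congrArg _ (Set.eq_empty_of_forall_notMem fun x hx => h2 x hx)).trans (Set.ncard_empty _))
  simp only [← c] at this
  exact_mod_cast this

end CL.Theta
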