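/-
The automorphism groups of S(5,6,12) and S(4,5,11) are sharply 5- and 4-transitive.
-/
import Mathlib
import Cfsg.Agent.SPOR.SteinerAut
import Cfsg.Agent.SPOR.SteinerU12
import Cfsg.Agent.SPOR.SteinerU11

set_option autoImplicit false

namespace CL.Steiner

open Cfsg Finset K

theorem autGo12 : autGo (prune 5 F12) (Nat.beq (PC.one 5 12)) 12 (12 - 5) 5 (2 ^ 5 - 1)
    (PC.one 5 5) = true := by decide +kernel

theorem autGo11 : autGo (prune 4 F11) (Nat.beq (PC.one 5 11)) 11 (11 - 4) 4 (2 ^ 4 - 1)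
    (PC.one 5 4) = true := by decide +kernel

variable {α : Type*} [Fintype α] [DecidableEq α] {B : Set (Finset α)}

theorem trans12 (hα : Fintype.card α = 12) (hB : IsSteinerSystem 5 6 B) :
    MulAction.IsMultiplyPretransitive (setSystemAut B) α 5 :=
  haveI : Nonempty α := Fintype.card_pos_iff.1 (by omega)
  isMultiplyPretransitive_of_enc (by norm_num) (exists_enc12 hα hB)

theorem trans11 (hα : Fintype.card α = 11) (hB : IsSteinerSystem 4 5 B) :
    MulAction.IsMultiplyPretransitive (setSystemAut B) α 4 :=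
  haveI : Nonempty α := Fintype.card_pos_iff.1 (by omega)
  isMultiplyPretransitive_of_enc (by norm_num) (exists_enc11 hα hB)

theorem sharp12 (hα : Fintype.card α = 12) (hB : IsSteinerSystem 5 6 B) (x : Fin 5 ↪ α) :
    MulAction.stabilizer (setSystemAut B) x = ⊥ := by
  haveI : Nonempty α := Fintype.card_pos_iff.1 (by omega)
  obtain ⟨y, hy, hy'⟩ := exists_seq_of_embedding x
  obtain ⟨E, hE, hBE⟩ := exists_enc12 hα hB y hy'
  rw [eq_bot_iff]
  rintro ⟨g, hg⟩ h
  rw [Subgroup.mem_bot, Subtype.ext_iff]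
  refine eq_one_of_autGo E (by norm_num) (by norm_num) autGo12 (hBE ▸ hg) fun i hi => ?_
  have h1 : g (x ⟨i, hi⟩) = x ⟨i, hi⟩ := DFunLike.congr_fun (MulAction.mem_stabilizer_iff.1 h) ⟨i, hi⟩
  rw [hE i hi, hy ⟨i, hi⟩, h1]

theorem sharp11 (hα : Fintype.card α = 11) (hB : IsSteinerSystem 4 5 B) (x : Fin 4 ↪ α) :
    MulAction.stabilizer (setSystemAut B) x = ⊥ := by
  haveI : Nonempty α := Fintype.card_pos_iff.1 (by omega)
  obtain ⟨y, hy, hy'⟩ := exists_seq_of_embedding x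
  obtain ⟨E, hE, hBE⟩ := exists_enc11 hα hB y hy'
  rw [eq_bot_iff]
  rintro ⟨g, hg⟩ h
  rw [Subgroup.mem_bot, Subtype.ext_iff]
  refine eq_one_of_autGo E (by norm_num) (by norm_num) autGo11 (hBE ▸ hg) fun i hi => ?_
  have h1 : g (x ⟨i, hi⟩) = x ⟨i, hi⟩ := DFunLike.congr_fun (MulAction.mem_stabilizer_iff.1 h) ⟨i, hi⟩
  rw [hE i hi, hy ⟨i, hi⟩, h1]

end CL.Steiner
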