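/-
Cocliques of size 5 in a strongly regular graph with parameters (15, 6, 1, 3).
-/
import Mathlib
import Cfsg.Agent.SPOR.SrgLocal

set_option autoImplicit false

namespace CL.Srg

open Finset

variable {W : Type*} [Fintype W] [DecidableEq W] {H : SimpleGraph W} [DecidableRel H.Adj]

omit [DecidableEq W] in
theorem third_unique {n k m : ℕ} (h : H.IsSRGWith n k 1 m) {a b c d : W} (hab : H.Adj a b)
    (h1 : H.Adj a c) (h2 : H.Adj b c) (h3 : H.Adj a d) (h4 : H.Adj b d) : c = d :=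
  card_le_one.1 (card_common_adj h hab).le c (by simp [h1, h2]) d (by simp [h3, h4])

omit [DecidableEq W] in
theorem exists_third {n k m : ℕ} (h : H.IsSRGWith n k 1 m) {a b : W} (hab : H.Adj a b) :
    ∃ c, H.Adj a c ∧ H.Adj b c := by
  obtain ⟨c, hc⟩ := card_pos.1 ((card_common_adj h hab).symm ▸ Nat.one_pos)
  exact ⟨c, (mem_filter.1 hc).2⟩

theorem gq_axiom (h : H.IsSRGWith 15 6 1 3) {u z a : W} (hz : z ∈ far H u) (ha : H.Adj u a)
    (hza : ¬ H.Adj z a) : ∃ b, H.Adj u b ∧ H.Adj z b ∧ H.Adj a b := by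
  rw [mem_far] at hz
  choose t ht using fun b (hb : H.Adj u b) => exists_third h hb
  have h3 := card_common h hz.1.symm hz.2
  have h6 := card_adj h u
  obtain ⟨b, hb, e⟩ := surj_on_of_inj_on_of_card_le
    (s := univ.filter fun b => H.Adj u b ∧ H.Adj z b)
    (t := univ.filter fun b => H.Adj u b ∧ ¬ H.Adj z b)
    (fun b hb => t b (mem_filter.1 hb).2.1)
    (fun b hb => by
      have hb := (mem_filter.1 hb).2
      refine mem_filter.2 ⟨mem_univ _, (ht b hb.1).1, fun h' => hz.1 ?_⟩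
      exact third_unique h (ht b hb.1).2 hb.2.symm h'.symm hb.1.symm (ht b hb.1).1.symm)
    (fun b c hb hc e => by
      have hb' := (mem_filter.1 hb).2
      have hc' := (mem_filter.1 hc).2
      exact third_unique h (ht b hb'.1).1 hb'.1 (ht b hb'.1).2.symm hc'.1
        (e ▸ (ht c hc'.1).2.symm))
    (by
      have := card_filter_add_card_filter_not (s := univ.filter (H.Adj u)) (H.Adj z)
      rw [filter_filter, filter_filter] at this
      omega) a (by simp [ha, hza])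
  have hb' := (mem_filter.1 hb).2
  exact ⟨b, hb'.1, hb'.2, e ▸ (ht b hb'.1).2.symm⟩

theorem far_common (h : H.IsSRGWith 15 6 1 3) {u v w w' : W} (hv : v ∈ far H u)
    (hw : w ∈ far H u) (hw' : w' ∈ far H u) (h1 : H.Adj v w) (h2 : H.Adj v w') (hne : w ≠ w') :
    ¬ H.Adj w w' ∧ ((far H u).filter fun z => H.Adj w z ∧ H.Adj w' z).card = 2 := by
  have hv' := mem_far.1 hv
  have hw1 := mem_far.1 hw
  have hw1' := mem_far.1 hw'
  have hn : ¬ H.Adj w w' := fun h' => by
    obtain ⟨a, ha1, ha2, ha3⟩ := gq_axiom h (mem_far_comm.1 hw) h' hw1'.2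
    exact hv'.2 (third_unique h h' h1.symm h2.symm ha1 ha3 ▸ ha2)
  refine ⟨hn, ?_⟩
  obtain ⟨a₁, p1, p2, p3⟩ := gq_axiom h (mem_far_comm.1 hv) h1 hw1.2
  obtain ⟨a₂, q1, q2, q3⟩ := gq_axiom h (mem_far_comm.1 hv) h2 hw1'.2
  have h12 : a₁ ≠ a₂ := fun e => hne (third_unique h p1 h1 p3.symm h2 (e ▸ q3.symm))
  obtain ⟨a₃, ha₃⟩ : ∃ a₃, ((univ.filter fun b => H.Adj u b ∧ H.Adj v b).erase a₁).erase a₂
      = {a₃} := by
    rw [← card_eq_one, card_erase_of_mem (by simp [h12.symm, q1, q2]),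
      card_erase_of_mem (by simp [p1, p2]), card_common h hv'.1.symm hv'.2]
  have r := ha₃ ▸ mem_singleton_self a₃
  simp only [mem_erase, mem_filter, mem_univ, true_and] at r
  obtain ⟨r2, r1, r3, r4⟩ := r
  obtain ⟨b, s1, s2, s3⟩ := gq_axiom h hw r3 fun h' => r1 (third_unique h h1 r4 h' p1 p3)
  obtain ⟨b', t1, t2, t3⟩ := gq_axiom h hw' r3 fun h' => r2 (third_unique h h2 r4 h' q1 q3)
  have hbb := third_unique h r3 s1 s3 t1 t3
  subst hbb
  have e : (univ.filter fun a => H.Adj u a ∧ H.Adj w a ∧ H.Adj w' a) = {b} := by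
    rw [eq_singleton_iff_unique_mem]
    refine ⟨by simp [s1, s2, t2], fun a ha => ?_⟩
    obtain ⟨x1, x2, x3⟩ := (mem_filter.1 ha).2
    obtain ⟨c, c1, c2, c3⟩ := gq_axiom h hv x1 fun h' =>
      h12 ((third_unique h h1 p1 p3 h' x2).trans (third_unique h h2 h' x3 q1 q3))
    have hc : c ∈ ((univ.filter fun b => H.Adj u b ∧ H.Adj v b).erase a₁).erase a₂ := by
      simp only [mem_erase, mem_filter, mem_univ, true_and]
      refine ⟨?_, ?_, c1, c2⟩
      · rintro rfl
        exact hw1'.1 (third_unique h c3 x3.symm q3.symm x1.symm c1.symm)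
      · rintro rfl
        exact hw1.1 (third_unique h c3 x2.symm p3.symm x1.symm c1.symm)
    rw [ha₃, mem_singleton] at hc
    subst hc
    exact third_unique h r3 x1 c3.symm s1 s3
  have := card_split (G := H) u (fun z => H.Adj w z ∧ H.Adj w' z)
  rw [card_common h hne hn, if_neg (fun h' => hw1.2 h'.1.symm), e, card_singleton] at this
  omega

theorem exists_far_coclique (h : H.IsSRGWith 15 6 1 3) {u w : W} (hw : w ∈ far H u) :
    ∃ C ⊆ far H u, w ∈ C ∧ C.card = 4 ∧ (∀ a ∈ C, ∀ b ∈ C, ¬ H.Adj a b) ∧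
      ∀ S ⊆ far H u, w ∈ S → (∀ a ∈ S, ∀ b ∈ S, ¬ H.Adj a b) → 4 ≤ S.card → S = C := by
  have h8 : (far H u).card = 8 := by
    have := card_far h u
    omega
  have h3 : ∀ z ∈ far H u, ((far H u).filter (H.Adj z)).card = 3 := fun z hz => by
    have := card_far_adj_far h hz
    omega
  set A := (far H u).filter (H.Adj w) with hA
  set R := (far H u).filter fun d => d ≠ w ∧ ¬ H.Adj w d with hR
  have hR4 : R.card = 4 := by
    have e : far H u = insert w (A ∪ R) := by
      ext z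
      simp only [hA, hR, mem_insert, mem_union, mem_filter]
      constructor
      · tauto
      · rintro (rfl | h' | h')
        exacts [hw, h'.1, h'.1]
    rw [e, card_insert_of_notMem (by simp [hA, hR]), card_union_of_disjoint (by
      rw [disjoint_left]
      intro z hz hz'
      exact (mem_filter.1 hz').2.2 (mem_filter.1 hz).2), h3 w hw] at h8
    omega
  have hn : ∀ d ∈ R, (A.filter (H.Adj d)).card = 0 ∨ (A.filter (H.Adj d)).card = 2 := by
    intro d hd
    obtain ⟨hd1, hd2, hd3⟩ := mem_filter.1 hd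
    rcases (A.filter (H.Adj d)).eq_empty_or_nonempty with e | ⟨v, hv⟩
    · simp [e]
    · right
      simp only [hA, mem_filter] at hv
      rw [hA, filter_filter]
      exact (far_common h hv.1.1 hw hd1 hv.1.2.symm hv.2.symm hd2.symm).2
  have hsum : ∑ d ∈ R, (A.filter (H.Adj d)).card = 6 := by
    rw [sum_card_filter_eq R A (fun d a => H.Adj d a) (r := 2), h3 w hw]
    intro a ha
    obtain ⟨ha1, ha2⟩ := mem_filter.1 ha
    have e : (far H u).filter (H.Adj a) = insert w (R.filter fun d => H.Adj d a) := by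
      ext z
      simp only [hR, mem_insert, mem_filter]
      constructor
      · rintro ⟨z1, z2⟩
        by_cases hz : z = w
        · exact Or.inl hz
        · exact Or.inr ⟨⟨z1, hz, (far_common h ha1 hw z1 ha2.symm z2 (Ne.symm hz)).1⟩, z2.symm⟩
      · rintro (rfl | h')
        exacts [⟨hw, ha2.symm⟩, ⟨h'.1.1, h'.2.symm⟩]
    have := h3 a ha1
    rw [e, card_insert_of_notMem (by simp [hR])] at this
    omega
  set D := R.filter fun d => (A.filter (H.Adj d)).card = 2 with hD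
  have hD3 : D.card = 3 := by
    have : ∑ d ∈ R, (A.filter (H.Adj d)).card
        = ∑ d ∈ R, if (A.filter (H.Adj d)).card = 2 then 2 else 0 :=
      sum_congr rfl fun d hd => by rcases hn d hd with e | e <;> simp [e]
    rw [this, ← sum_filter, sum_const, smul_eq_mul, ← hD] at hsum
    omega
  obtain ⟨s, hs⟩ : ∃ s, R \ D = {s} := by
    rw [← card_eq_one, card_sdiff_of_subset (filter_subset _ _), hR4, hD3]
  have hs1 := mem_sdiff.1 (hs ▸ mem_singleton_self s)
  obtain ⟨hs2, hs3, hs4⟩ := mem_filter.1 hs1.1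
  have hsA : A.filter (H.Adj s) = ∅ := by
    rw [← card_eq_zero]
    exact (hn s hs1.1).resolve_right fun e => hs1.2 (mem_filter.2 ⟨hs1.1, e⟩)
  have hRD : ∀ z ∈ R, z ≠ s → z ∈ D := fun z hz hzs => by
    by_contra h'
    exact hzs (mem_singleton.1 (hs ▸ mem_sdiff.2 ⟨hz, h'⟩))
  have hsD : ∀ d ∈ D, H.Adj s d := by
    have : (far H u).filter (H.Adj s) = D := by
      refine eq_of_subset_of_card_le (fun z hz => ?_) (by rw [h3 s hs2, hD3])
      obtain ⟨z1, z2⟩ := mem_filter.1 hz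
      refine hRD z (mem_filter.2 ⟨z1, ?_, fun h' => ?_⟩) z2.ne'
      · rintro rfl
        exact hs4 z2.symm
      · exact filter_eq_empty_iff.1 hsA (mem_filter.2 ⟨z1, h'⟩) z2
    intro d hd
    exact (mem_filter.1 (this ▸ hd)).2
  have hDR : ∀ d ∈ D, d ∈ far H u ∧ d ≠ w ∧ ¬ H.Adj w d := fun d hd =>
    mem_filter.1 (mem_filter.1 hd).1
  have hDD : ∀ d ∈ D, ∀ d' ∈ D, ¬ H.Adj d d' := by
    intro d hd d' hd' h'
    have : insert d' (insert s (A.filter (H.Adj d))) ⊆ (far H u).filter (H.Adj d) := by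
      intro z hz
      simp only [hA, mem_insert, mem_filter] at hz ⊢
      rcases hz with rfl | rfl | hz
      exacts [⟨(hDR _ hd').1, h'⟩, ⟨hs2, (hsD d hd).symm⟩, ⟨hz.1.1, hz.2⟩]
    have := card_le_card this
    rw [card_insert_of_notMem, card_insert_of_notMem, (mem_filter.1 hd).2, h3 d (hDR d hd).1]
      at this
    · omega
    · simp [hA, hs4]
    · simp [hA, (hDR d' hd').2.2, (hsD d' hd').ne']
  have hC4 : (insert w D).card = 4 := by
    rw [card_insert_of_notMem fun h' => (hDR w h').2.1 rfl, hD3]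
  refine ⟨insert w D, ?_, mem_insert_self _ _, hC4, ?_, ?_⟩
  · exact insert_subset hw fun d hd => (hDR d hd).1
  · intro a ha b hb
    rcases mem_insert.1 ha with ha | ha <;> rcases mem_insert.1 hb with hb | hb
    exacts [ha ▸ hb ▸ H.irrefl, ha ▸ (hDR b hb).2.2, fun h' => (hDR a ha).2.2 (hb ▸ h'.symm),
      hDD a ha b hb]
  · intro S hS hwS hc h4
    have hSR : ∀ z ∈ S, z ≠ w → z ∈ R := fun z hz hzw =>
      mem_filter.2 ⟨hS hz, hzw, hc w hwS z hz⟩
    have hsS : s ∉ S := fun h' => by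
      have : S ⊆ {w, s} := fun z hz => by
        by_contra h''
        simp only [mem_insert, mem_singleton, not_or] at h''
        exact hc s h' z hz (hsD z (hRD z (hSR z hz h''.1) h''.2))
      have := (card_le_card this).trans card_le_two
      omega
    refine eq_of_subset_of_card_le (fun z hz => ?_) (by omega)
    by_cases hzw : z = w
    · exact hzw ▸ mem_insert_self _ _
    · exact mem_insert_of_mem (hRD z (hSR z hz hzw) fun e => hsS (e ▸ hz))

theorem exists_two_cocliques (h : H.IsSRGWith 15 6 1 3) (u : W) :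
    ∃ O₁ O₂ : Finset W, O₁ ≠ O₂ ∧ (u ∈ O₁ ∧ O₁.card = 5 ∧ ∀ a ∈ O₁, ∀ b ∈ O₁, ¬ H.Adj a b) ∧
      (u ∈ O₂ ∧ O₂.card = 5 ∧ ∀ a ∈ O₂, ∀ b ∈ O₂, ¬ H.Adj a b) ∧
      ∀ S : Finset W, u ∈ S → (∀ a ∈ S, ∀ b ∈ S, ¬ H.Adj a b) → 5 ≤ S.card →
        S = O₁ ∨ S = O₂ := by
  have h8 : (far H u).card = 8 := by
    have := card_far h u
    omega
  obtain ⟨w₁, hw₁⟩ : (far H u).Nonempty := card_pos.1 (by omega)
  obtain ⟨w₂, hw₂⟩ : ((far H u).filter (H.Adj w₁)).Nonempty := card_pos.1 (by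
    have := card_far_adj_far h hw₁
    omega)
  obtain ⟨hw₂, h12⟩ := mem_filter.1 hw₂
  obtain ⟨C₁, a1, a2, a3, a4, -⟩ := exists_far_coclique h hw₁
  obtain ⟨C₂, b1, b2, b3, b4, -⟩ := exists_far_coclique h hw₂
  have uniq : ∀ S ⊆ far H u, ∀ S' ⊆ far H u, (∀ a ∈ S, ∀ b ∈ S, ¬ H.Adj a b) →
      (∀ a ∈ S', ∀ b ∈ S', ¬ H.Adj a b) → 4 ≤ S.card → 4 ≤ S'.card → ∀ z ∈ S, z ∈ S' →
      S = S' := by
    intro S hS S' hS' c c' d d' z hz hz'
    obtain ⟨C, -, -, -, -, e⟩ := exists_far_coclique h (hS hz)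
    rw [e S hS hz c d, e S' hS' hz' c' d']
  have hne : C₁ ≠ C₂ := fun e => a4 w₁ a2 w₂ (e ▸ b2) h12
  have hcov : C₁ ∪ C₂ = far H u := by
    refine eq_of_subset_of_card_le (union_subset a1 b1) ?_
    rw [card_union_of_disjoint, a3, b3, h8]
    rw [disjoint_left]
    exact fun z hz hz' => hne (uniq _ a1 _ b1 a4 b4 a3.ge b3.ge z hz hz')
  have hu : u ∉ far H u := by simp [mem_far]
  have good : ∀ C ⊆ far H u, C.card = 4 → (∀ a ∈ C, ∀ b ∈ C, ¬ H.Adj a b) →
      u ∈ insert u C ∧ (insert u C).card = 5 ∧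
        ∀ a ∈ insert u C, ∀ b ∈ insert u C, ¬ H.Adj a b := by
    intro C hC c d
    refine ⟨mem_insert_self _ _, by rw [card_insert_of_notMem fun h' => hu (hC h'), c], ?_⟩
    intro a ha b hb
    rcases mem_insert.1 ha with ha | ha <;> rcases mem_insert.1 hb with hb | hb
    exacts [ha ▸ hb ▸ H.irrefl, ha ▸ (mem_far.1 (hC hb)).2,
      fun h' => (mem_far.1 (hC ha)).2 (hb ▸ h'.symm), d a ha b hb]
  refine ⟨insert u C₁, insert u C₂, fun e => hne ?_, good _ a1 a3 a4, good _ b1 b3 b4, ?_⟩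
  · rw [← erase_insert fun h' => hu (a1 h'), e, erase_insert fun h' => hu (b1 h')]
  · intro S huS hc h5
    have e1 : S.erase u ⊆ far H u := fun z hz =>
      mem_far.2 ⟨ne_of_mem_erase hz, hc u huS z (mem_of_mem_erase hz)⟩
    have e2 : 4 ≤ (S.erase u).card := by
      rw [card_erase_of_mem huS]
      omega
    have e3 : ∀ a ∈ S.erase u, ∀ b ∈ S.erase u, ¬ H.Adj a b := fun a ha b hb =>
      hc a (mem_of_mem_erase ha) b (mem_of_mem_erase hb)
    obtain ⟨z, hz⟩ : (S.erase u).Nonempty := card_pos.1 (by omega)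
    rw [← insert_erase huS]
    rcases mem_union.1 (hcov ▸ e1 hz) with h' | h'
    · exact Or.inl (congrArg _ (uniq _ e1 _ a1 e3 a4 e2 a3.ge z hz h'))
    · exact Or.inr (congrArg _ (uniq _ e1 _ b1 e3 b4 e2 b3.ge z hz h'))

end CL.Srg
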