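/-
Uniqueness of the strongly regular graph with parameters (77, 16, 0, 4) (after Brouwer): the
cocliques of size 21 are the points of a Steiner system S(3,6,22) whose blocks are the vertices.
-/
import Mathlib
import Cfsg.Agent.SPOR.Srg15
import Cfsg.Agent.SPOR.Srg100

set_option autoImplicit false

namespace CL.Srg

open Finset Cfsg Steiner

theorem exists_two_of_gram {Q : Type*} [Fintype Q] [DecidableEq Q] (π : Q → Q → ℤ)
    (hs : ∀ y z, π y z = π z y) (hd : ∀ y, π y y = 2) (hle : ∀ y z, π y z ≤ 2)
    (hc : Fintype.card Q = 60) (h1 : ∀ y, ∑ w, π y w = 40)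
    (h2 : ∀ y z, ∑ w, π y w * π z w = 16 * π y z + 16) (y : Q) :
    ∃ D₁ D₂ : Finset Q, D₁ ≠ D₂ ∧ (y ∈ D₁ ∧ D₁.card = 20 ∧ ∀ a ∈ D₁, ∀ b ∈ D₁, π a b ≠ 0) ∧
      (y ∈ D₂ ∧ D₂.card = 20 ∧ ∀ a ∈ D₂, ∀ b ∈ D₂, π a b ≠ 0) ∧
      ∀ D : Finset Q, y ∈ D → D.card = 20 → (∀ a ∈ D, ∑ w ∈ D, π a w = 24) →
        D = D₁ ∨ D = D₂ := by
  classical
  have hge : ∀ y z, 0 ≤ π y z := by
    intro y z
    have e : ∑ w, (3 * π y w + 3 * π z w - 4) ^ 2 = 192 + 288 * π y z := by
      have : ∀ w, (3 * π y w + 3 * π z w - 4) ^ 2 = 9 * (π y w * π y w) + 9 * (π z w * π z w)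
          + 18 * (π y w * π z w) - 24 * π y w - 24 * π z w + 16 := fun w => by ring
      simp only [this, sum_add_distrib, sum_sub_distrib, ← mul_sum, h1, h2, hd, sum_const,
        card_univ, hc]
      ring
    have : 0 ≤ ∑ w, (3 * π y w + 3 * π z w - 4) ^ 2 := sum_nonneg fun w _ => sq_nonneg _
    omega
  have heq : ∀ y z, π y z = 2 → π y = π z := by
    intro y z h
    have e : ∑ w, (π y w - π z w) ^ 2 = 0 := by
      have : ∀ w, (π y w - π z w) ^ 2 = π y w * π y w + π z w * π z w
          - 2 * (π y w * π z w) := fun w => by ring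
      simp only [this, sum_add_distrib, sum_sub_distrib, ← mul_sum, h2, hd, h]
      ring
    rw [sum_eq_zero_iff_of_nonneg fun w _ => sq_nonneg _] at e
    funext w
    exact sub_eq_zero.1 (pow_eq_zero_iff (two_ne_zero) |>.1 (e w (mem_univ w)))
  have hcase : ∀ y z, π y z = 0 ∨ π y z = 1 ∨ π y z = 2 := fun y z => by
    have := hge y z
    have := hle y z
    omega
  have hn2 : ∀ y, (univ.filter fun w => π y w = 2).card = 4 := by
    intro y
    have e : ∑ w, (π y w * π y w - π y w) = ∑ w, if π y w = 2 then (2 : ℤ) else 0 :=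
      sum_congr rfl fun w _ => by rcases hcase y w with h | h | h <;> simp [h]
    rw [sum_sub_distrib, h1, h2, hd, ← sum_filter, sum_const, nsmul_eq_mul] at e
    omega
  have hcl : ∀ (y : Q) (g : Q → ℤ), (∀ w, π y w = 2 → g w = g y) →
      ∑ w, (if π y w = 2 then 1 else 0) * g w = 4 * g y := by
    intro y g hg
    simp only [ite_mul, one_mul, zero_mul]
    rw [← sum_filter, sum_congr rfl fun w hw => hg w (mem_filter.1 hw).2, sum_const, hn2]
    simp
  have hind : ∀ y w, (if π y w = 0 then (1 : ℤ) else 0)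
      = 1 - π y w + if π y w = 2 then 1 else 0 := fun y w => by
    rcases hcase y w with h | h | h <;> simp [h]
  have hn0 : ∀ y, (univ.filter fun w => π y w = 0).card = 24 := by
    intro y
    have e := sum_congr rfl fun w (_ : w ∈ univ) => hind y w
    rw [sum_add_distrib, sum_sub_distrib, h1, ← sum_filter, ← sum_filter, sum_const, sum_const,
      sum_const, hn2, card_univ, hc] at e
    simp only [nsmul_eq_mul, mul_one] at e
    omega
  have hn00 : ∀ y z, ((univ.filter fun w => π y w = 0 ∧ π z w = 0).card : ℤ)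
      = 12 * π y z + 4 * if π z y = 0 then 1 else 0 := by
    intro y z
    have e : ∀ w, (if π y w = 0 ∧ π z w = 0 then (1 : ℤ) else 0)
        = 1 - π y w - π z w + π y w * π z w
          + (if π y w = 2 then 1 else 0) * (if π z w = 0 then 1 else 0)
          + (if π z w = 2 then 1 else 0) * (1 - π y w) := fun w => by
      rcases hcase y w with h | h | h <;> rcases hcase z w with h' | h' | h' <;> simp [h, h']
    rw [card_filter, Nat.cast_sum]
    simp only [Nat.cast_ite, Nat.cast_one, Nat.cast_zero, e, sum_add_distrib, sum_sub_distrib,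
      h1, h2]
    rw [hcl y (fun w => if π z w = 0 then 1 else 0) fun w hw => by
        rw [hs z w, hs z y, heq y w hw],
      hcl z (fun w => 1 - π y w) fun w hw => by rw [hs y w, hs y z, heq z w hw],
      sum_const, card_univ, hc]
    ring
  let W := Set.range π
  let f : Q → W := fun y => ⟨π y, y, rfl⟩
  have : Fintype W := Fintype.ofFinite _
  have hf : Function.Surjective f := by
    rintro ⟨_, y, rfl⟩
    exact ⟨y, rfl⟩
  have hff : ∀ y z, f z = f y ↔ π y z = 2 := fun y z =>
    ⟨fun h => by rw [← show π z = π y from congrArg Subtype.val h, hd],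
      fun h => Subtype.ext (heq y z h).symm⟩
  have hfib : ∀ K : W, (univ.filter fun y => f y = K).card = 4 := by
    intro K
    obtain ⟨y, rfl⟩ := hf K
    simp only [hff, hn2]
  have hcount : ∀ (p : W → Prop) [DecidablePred p],
      (univ.filter fun y => p (f y)).card = 4 * (univ.filter p).card := by
    intro p _
    rw [card_eq_sum_card_fiberwise (f := f) (t := univ.filter p) (fun y hy => by simpa using hy),
      mul_comm, ← smul_eq_mul, ← sum_const]
    refine sum_congr rfl fun K hK => ?_
    rw [filter_filter, ← hfib K]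
    congr 1
    exact filter_congr fun y _ => ⟨fun h => h.2, fun h => ⟨h ▸ (mem_filter.1 hK).2, h⟩⟩
  let H : SimpleGraph W := ⟨fun K L => ∃ y z, f y = K ∧ f z = L ∧ π y z = 0,
    ⟨by rintro _ _ ⟨y, z, rfl, rfl, h⟩; exact ⟨z, y, rfl, rfl, hs y z ▸ h⟩⟩,
    ⟨by
      rintro _ ⟨y, z, rfl, h, h'⟩
      rw [hff] at h
      omega⟩⟩
  have hadj : ∀ y z, H.Adj (f y) (f z) ↔ π y z = 0 := fun y z =>
    ⟨by
      rintro ⟨y', z', e1, e2, h⟩
      rw [← show π y' = π y from congrArg Subtype.val e1, hs,
        ← show π z' = π z from congrArg Subtype.val e2, hs, h], fun h => ⟨y, z, rfl, rfl, h⟩⟩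
  have hH : H.IsSRGWith 15 6 1 3 := by
    refine srg_of_ncard H ?_ (fun K => ?_) (fun K L h => ?_) (fun K L hne h => ?_)
    · have := hcount fun _ => True
      simp only [filter_true, card_univ, hc] at this
      omega
    · obtain ⟨y, rfl⟩ := hf K
      have := hcount (H.Adj (f y))
      simp only [hadj, hn0] at this
      rw [ncard_eq_card_filter]
      omega
    · obtain ⟨y, rfl⟩ := hf K
      obtain ⟨z, rfl⟩ := hf L
      have := hcount fun u => H.Adj (f y) u ∧ H.Adj (f z) u
      simp only [hadj] at this h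
      have e := hn00 y z
      rw [hs z y, h, if_pos rfl] at e
      rw [ncard_eq_card_filter]
      omega
    · obtain ⟨y, rfl⟩ := hf K
      obtain ⟨z, rfl⟩ := hf L
      have := hcount fun u => H.Adj (f y) u ∧ H.Adj (f z) u
      simp only [hadj] at this h
      have e := hn00 y z
      have h3 : π y z = 1 := by
        have := hcase y z
        have := (hff y z).not.1 hne.symm
        omega
      rw [hs z y, h3, if_neg one_ne_zero] at e
      rw [ncard_eq_card_filter]
      omega
  obtain ⟨O₁, O₂, hne, a, b, hO⟩ := exists_two_cocliques hH (f y)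
  have hcard : ∀ O : Finset W, O.card = 5 → (univ.filter fun z => f z ∈ O).card = 20 := by
    intro O h
    rw [hcount (fun K => K ∈ O), filter_mem_eq_inter, univ_inter, h]
  have good : ∀ O : Finset W, (f y ∈ O ∧ O.card = 5 ∧ ∀ a ∈ O, ∀ b ∈ O, ¬ H.Adj a b) →
      y ∈ (univ.filter fun z => f z ∈ O) ∧ (univ.filter fun z => f z ∈ O).card = 20 ∧
      ∀ a ∈ (univ.filter fun z => f z ∈ O), ∀ b ∈ (univ.filter fun z => f z ∈ O), π a b ≠ 0 :=
    fun O h => ⟨by simp [h.1], hcard O h.2.1, fun a ha b hb e =>
      h.2.2 _ (mem_filter.1 ha).2 _ (mem_filter.1 hb).2 ((hadj a b).2 e)⟩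
  refine ⟨univ.filter fun z => f z ∈ O₁, univ.filter fun z => f z ∈ O₂, fun e => hne ?_,
    good _ a, good _ b, fun D hy hD hsum => ?_⟩
  · ext K
    obtain ⟨z, rfl⟩ := hf K
    simpa using congrArg (fun s => z ∈ s) e
  · have hz : ∀ a ∈ D, ∀ b ∈ D, π a b ≠ 0 := by
      intro a ha b hb h
      have e : ∑ w ∈ D, ((if π a w = 0 then 1 else 0) + π a w)
          = ∑ w ∈ D, (1 + if π a w = 2 then 1 else 0) :=
        sum_congr rfl fun w _ => by rw [hind]; ring
      rw [sum_add_distrib, sum_add_distrib, hsum a ha, ← sum_filter, ← sum_filter, sum_const,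
        sum_const, sum_const, hD] at e
      simp only [nsmul_eq_mul, mul_one] at e
      have e1 : (D.filter fun w => π a w = 2).card ≤ 4 :=
        hn2 a ▸ card_le_card (filter_subset_filter _ (subset_univ D))
      have e2 : 0 < (D.filter fun w => π a w = 0).card := card_pos.2 ⟨b, by simp [hb, h]⟩
      omega
    have h5 : 5 ≤ (D.image f).card := by
      have := card_le_mul_card_image (f := f) D 4 fun K _ =>
        hfib K ▸ card_le_card (filter_subset_filter _ (subset_univ D))
      omega
    have key : ∀ O : Finset W, O.card = 5 → D.image f = O → D = univ.filter fun z => f z ∈ O := by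
      intro O h e
      refine eq_of_subset_of_card_le (fun z hz => ?_) (by rw [hcard O h, hD])
      exact mem_filter.2 ⟨mem_univ _, e ▸ mem_image_of_mem f hz⟩
    refine (hO (D.image f) (mem_image_of_mem f hy) ?_ h5).imp (key _ a.2.1) (key _ b.2.1)
    intro K hK L hL
    obtain ⟨a, ha, rfl⟩ := mem_image.1 hK
    obtain ⟨b, hb, rfl⟩ := mem_image.1 hL
    exact (hadj a b).not.2 (hz a ha b hb)

variable {V : Type*} [Fintype V] [DecidableEq V] {G : SimpleGraph V} [DecidableRel G.Adj]

/-- Inner products of the projections of the vertices far from `x`. -/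
def gram (G : SimpleGraph V) [DecidableRel G.Adj] (x y z : V) : ℤ :=
  (if y = z then 4 else 0) + (2 - 2 * (if G.Adj y z then 1 else 0)
    - ((blk G x y ∩ blk G x z).card : ℤ))

theorem gram_symm (x y z : V) : gram G x y z = gram G x z y := by
  simp only [gram, inter_comm (blk G x y), eq_comm (a := y), G.adj_comm y]

theorem sum_adj_far (h : G.IsSRGWith 77 16 0 4) {x y : V} (hy : y ∈ far G x) :
    ∑ w ∈ far G x, (if G.Adj y w then (1 : ℤ) else 0) = 12 := by
  have h3 := card_far_adj_far h hy
  rw [sum_boole]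
  change (((far G x).filter (G.Adj y)).card : ℤ) = 12
  omega

theorem gram_sum (h : G.IsSRGWith 77 16 0 4) {x y : V} (hy : y ∈ far G x) :
    ∑ w ∈ far G x, gram G x y w = 40 := by
  have h1 := sum_inter h x (blk G x y)
  have h2 := card_far h x
  rw [card_blk h hy] at h1
  simp only [gram, sum_add_distrib, sum_sub_distrib, ← mul_sum, sum_ite_eq, if_pos hy, sum_const,
    ← Nat.cast_sum, h1, sum_adj_far h hy, nsmul_eq_mul]
  omega

theorem sum_adj_inter (h : G.IsSRGWith 77 16 0 4) {x y z : V} (hy : y ∈ far G x)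
    (hz : z ∈ far G x) :
    ∑ w ∈ far G x, (if G.Adj y w then 1 else 0) * ((blk G x z ∩ blk G x w).card : ℤ)
      = 16 - 4 * ((blk G x y ∩ blk G x z).card : ℤ) := by
  have e := sum_card_filter_comm (far G x) (blk G x z) (fun w a => G.Adj y w ∧ G.Adj w a)
  have e1 : ∀ w, (if G.Adj y w then 1 else 0) * ((blk G x z ∩ blk G x w).card : ℤ)
      = (((blk G x z).filter fun a : {a // G.Adj x a} => G.Adj y w ∧ G.Adj w a).card : ℕ) := by
    intro w
    split_ifs with h'
    · simp only [h', true_and, one_mul]
      congr 2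
      ext a
      simp [blk]
    · simp [h']
  have e2 : ∀ a ∈ blk G x z, (((far G x).filter fun w => G.Adj y w ∧ G.Adj w a).card : ℤ)
      = 4 - 4 * if a ∈ blk G x y then 1 else 0 := by
    intro a _
    have := card_split (G := G) x (fun w => G.Adj y w ∧ G.Adj w a)
    have h0 : (univ.filter fun u => G.Adj x u ∧ G.Adj y u ∧ G.Adj u a).card = 0 := by
      rw [card_eq_zero, filter_eq_empty_iff]
      exact fun u _ hu => no_triangle h hu.1 a.2 hu.2.2
    rw [if_neg fun h' => (mem_far.1 hy).2 h'.1.symm, h0,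
      filter_congr (q := fun w => G.Adj y w ∧ G.Adj a w) fun w _ => by rw [G.adj_comm w]] at this
    split_ifs with h'
    · rw [card_common_adj h (mem_blk.1 h')] at this
      omega
    · rw [card_common h (fun e : y = a => (mem_far.1 hy).2 (e ▸ a.2)) (mem_blk.not.1 h')] at this
      omega
  simp only [e1]
  rw [← Nat.cast_sum, e, Nat.cast_sum, sum_congr rfl e2, sum_sub_distrib, ← mul_sum, sum_boole,
    filter_mem_eq_inter, sum_const, card_blk h hz, inter_comm]
  simp

theorem gram_sq (h : G.IsSRGWith 77 16 0 4) {x y z : V} (hy : y ∈ far G x) (hz : z ∈ far G x) :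
    ∑ w ∈ far G x, gram G x y w * gram G x z w = 16 * gram G x y z + 16 := by
  have h1 := sum_inter h x (blk G x y)
  have h1' := sum_inter h x (blk G x z)
  have h2 := card_far h x
  have h4 := sum_inter_mul h (by norm_num) (by norm_num) x (blk G x y) (blk G x z)
  have h5 := sum_adj_inter h hy hz
  have h5' := sum_adj_inter h hz hy
  have h6 := card_split (G := G) x (fun w => G.Adj y w ∧ G.Adj z w)
  rw [card_blk h hy] at h1 h4
  rw [card_blk h hz] at h1' h4
  rw [if_neg fun h' => (mem_far.1 hy).2 h'.1.symm,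
    ← card_filter_subtype (G.Adj x) (fun w => G.Adj y w ∧ G.Adj z w),
    filter_and (fun a : {a // G.Adj x a} => G.Adj y a)] at h6
  have h7 : ((univ.filter fun w => G.Adj y w ∧ G.Adj z w).card : ℤ)
      = (if y = z then 12 else 0) + (4 - 4 * if G.Adj y z then 1 else 0) := by
    by_cases e : y = z
    · subst e
      simp [card_adj h]
    · by_cases e' : G.Adj y z
      · simp [e, e', card_common_adj h e']
      · simp [e, e', card_common h e e']
  set a : V → V → ℤ := fun y w => if G.Adj y w then 1 else 0 with ha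
  set c : V → V → ℤ := fun y w => ((blk G x y ∩ blk G x w).card : ℤ) with hc
  have e : ∀ w, gram G x y w * gram G x z w
      = (if y = w then 4 * gram G x z w else 0) + (if z = w then 4 * (2 - 2 * a y w - c y w) else 0)
        + (4 - 4 * a y w - 4 * a z w - 2 * c y w - 2 * c z w + 4 * (a y w * a z w)
          + 2 * (a y w * c z w) + 2 * (a z w * c y w) + c y w * c z w) := by
    intro w
    simp only [gram, ha, hc]
    split_ifs <;> ring
  have s1 : ∑ w ∈ far G x, a y w = 12 := sum_adj_far h hy
  have s2 : ∑ w ∈ far G x, a z w = 12 := sum_adj_far h hz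
  have s3 : ∑ w ∈ far G x, c y w = 60 := by
    simp only [hc]
    exact_mod_cast h1
  have s4 : ∑ w ∈ far G x, c z w = 60 := by
    simp only [hc]
    exact_mod_cast h1'
  have s5 : ∑ w ∈ far G x, a y w * a z w
      = (((far G x).filter fun w => G.Adj y w ∧ G.Adj z w).card : ℤ) := by
    simp only [ha, ite_zero_mul_ite_zero, mul_one, sum_boole]
  have s6 : ∑ w ∈ far G x, c y w * c z w = 48 + c y z * 12 := by
    simp only [hc]
    exact_mod_cast h4
  have s7 : ∑ w ∈ far G x, a y w * c z w = 16 - 4 * c y z := h5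
  have s8 : ∑ w ∈ far G x, a z w * c y w = 16 - 4 * c z y := h5'
  have s9 : c z y = c y z := by simp only [hc, inter_comm]
  have s10 : c y z = ((filter (fun a : {a // G.Adj x a} => G.Adj y a) univ ∩
      filter (fun a : {a // G.Adj x a} => G.Adj z a) univ).card : ℤ) := rfl
  simp only [e, sum_add_distrib, sum_sub_distrib, ← mul_sum, sum_ite_eq, if_pos hy, if_pos hz,
    s1, s2, s3, s4, s5, s6, s7, s8, s9, sum_const, nsmul_eq_mul]
  rw [gram_symm x z y]
  have s11 : gram G x y z = (if y = z then 4 else 0) + (2 - 2 * a y z - c y z) := rfl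
  have s12 : a y z = if G.Adj y z then 1 else 0 := rfl
  rw [← s12] at h7
  rw [s11]
  split_ifs at h7 ⊢ <;> omega

/-- Cocliques of size 21. -/
def IsPt (G : SimpleGraph V) (C : Finset V) : Prop := C.card = 21 ∧ ∀ a ∈ C, ∀ b ∈ C, ¬ G.Adj a b

instance : DecidablePred (IsPt G) := fun C => by unfold IsPt; infer_instance

theorem IsPt.card_adj (h : G.IsSRGWith 77 16 0 4) {C : Finset V} (hC : IsPt G C) {v : V}
    (hv : v ∉ C) : (C.filter (G.Adj v)).card = 6 := by
  have h1 := sum_card_filter_eq univ C G.Adj (r := 16) fun a _ => by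
    rw [← Srg.card_adj h a]
    exact congrArg _ (filter_congr fun y _ => G.adj_comm y a)
  have h2 := sum_card_mul_eq univ C G.Adj C (l := 4) (d := 12) (fun a _ => by
    rw [show 4 + 12 = 16 from rfl, ← Srg.card_adj h a]
    exact congrArg _ (filter_congr fun y _ => G.adj_comm y a)) fun a ha b hb hne => by
    rw [← card_common h hne (hC.2 a ha b hb)]
    exact congrArg _ (filter_congr fun y _ => by rw [G.adj_comm y a, G.adj_comm y b])
  rw [inter_self, hC.1] at h2
  rw [hC.1] at h1
  set d : V → ℤ := fun v => ((C.filter (G.Adj v)).card : ℤ) with hd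
  have e1 : ∑ v, d v = 336 := by simp only [hd]; exact_mod_cast h1
  have e2 : ∑ v, d v * d v = 2016 := by simp only [hd]; exact_mod_cast h2
  have e3 : ∑ v, ((d v - 6) ^ 2 - if v ∈ C then 36 else 0) = 0 := by
    have : ∀ z, (d z - 6) ^ 2 = d z * d z - 12 * d z + 36 := fun z => by ring
    simp only [this, sum_sub_distrib, sum_add_distrib, ← mul_sum, e1, e2, sum_const, ← sum_filter,
      filter_mem_eq_inter, univ_inter, hC.1, card_univ, h.card]
    norm_num
  rw [sum_eq_zero_iff_of_nonneg] at e3
  · have := e3 v (mem_univ v)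
    rw [if_neg hv, sub_zero, pow_eq_zero_iff (by norm_num), sub_eq_zero] at this
    simp only [hd] at this
    exact_mod_cast this
  · intro w _
    split_ifs with hw
    · have : C.filter (G.Adj w) = ∅ := filter_eq_empty_iff.2 fun b hb => hC.2 w hw b hb
      simp [hd, this]
    · rw [sub_zero]
      positivity

theorem card_pt_two (h : G.IsSRGWith 77 16 0 4) {x y : V} (hy : y ∈ far G x) :
    (univ.filter fun C : {C // IsPt G C} => x ∈ C.1 ∧ y ∈ C.1).card = 2 := by
  obtain ⟨D₁, D₂, hne, a, b, hD⟩ := exists_two_of_gram (Q := far G x)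
    (fun y z => gram G x y z) (fun y z => gram_symm x y z)
    (fun y => by simp [gram, card_blk h y.2])
    (fun y z => by
      by_cases e : y.1 = z.1
      · simp [gram, e, card_blk h z.2]
      · simp only [gram, if_neg e]
        split_ifs <;> omega)
    (by
      have := card_far h x
      rw [Fintype.card_coe]
      omega)
    (fun y => (sum_coe_sort (far G x) (gram G x y)).trans (gram_sum h y.2))
    (fun y z => (sum_coe_sort (far G x) fun w => gram G x y w * gram G x z w).trans
      (gram_sq h y.2 z.2)) ⟨y, hy⟩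
  let emb : far G x ↪ V := Function.Embedding.subtype _
  have hx : ∀ D : Finset (far G x), x ∉ D.map emb := fun D h' => by
    obtain ⟨z, -, e⟩ := mem_map.1 h'
    exact (mem_far.1 z.2).1 e
  have good : ∀ D : Finset (far G x), D.card = 20 → (∀ a ∈ D, ∀ b ∈ D, gram G x a b ≠ 0) →
      IsPt G (insert x (D.map emb)) := by
    intro D h1 h2
    refine ⟨by rw [card_insert_of_notMem (hx D), card_map, h1], fun a ha b hb h' => ?_⟩
    rcases mem_insert.1 ha with ha | ha <;> rcases mem_insert.1 hb with hb | hb
    · exact h'.ne (ha.trans hb.symm)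
    · obtain ⟨b, -, rfl⟩ := mem_map.1 hb
      exact (mem_far.1 b.2).2 (ha ▸ h')
    · obtain ⟨a, -, rfl⟩ := mem_map.1 ha
      exact (mem_far.1 a.2).2 (hb ▸ h'.symm)
    · obtain ⟨a, ha', rfl⟩ := mem_map.1 ha
      obtain ⟨b, hb', rfl⟩ := mem_map.1 hb
      have h' : G.Adj a b := h'
      exact h2 a ha' b hb' (by simp [gram, h', h'.ne, disjoint_blk h x h'])
  rw [card_eq_two]
  refine ⟨⟨_, good D₁ a.2.1 a.2.2⟩, ⟨_, good D₂ b.2.1 b.2.2⟩, fun e => hne ?_, ?_⟩
  · have := congrArg (fun C : {C // IsPt G C} => C.1.erase x) e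
    simpa only [erase_insert (hx _), map_inj] using this
  · ext ⟨C, hC⟩
    simp only [mem_filter, mem_univ, true_and, mem_insert, mem_singleton, Subtype.mk.injEq]
    constructor
    · rintro ⟨hxC, hyC⟩
      have e : (C.subtype (· ∈ far G x)).map emb = C.erase x := by
        rw [subtype_map]
        ext z
        simp only [mem_filter, mem_erase, mem_far]
        exact ⟨fun h' => ⟨h'.2.1, h'.1⟩, fun h' => ⟨h'.2, h'.1, hC.2 x hxC z h'.2⟩⟩
      have e1 : (C.erase x).card = 20 := by rw [card_erase_of_mem hxC, hC.1]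
      rw [← insert_erase hxC, ← e]
      refine (hD (C.subtype (· ∈ far G x)) (mem_subtype.2 hyC) (by rw [← card_map emb, e, e1])
        fun a ha => ?_).imp (fun h' => by rw [h']) fun h' => by rw [h']
      have ha' : a.1 ∈ C.erase x := e ▸ mem_map_of_mem emb ha
      have e2 : ∑ w ∈ C.erase x, ((blk G x a ∩ blk G x w).card : ℤ) = 20 := by
        have := sum_card_filter_eq (C.erase x) (blk G x a) (fun w b => G.Adj w b) (r := 5)
          fun b _ => by
            have := hC.card_adj h (v := b) fun h' => hC.2 x hxC b h' b.2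
            rw [← insert_erase hxC, filter_insert, if_pos b.2.symm,
              card_insert_of_notMem (by simp)] at this
            rw [filter_congr (q := G.Adj b) fun y _ => G.adj_comm y b]
            omega
        rw [card_blk h a.2] at this
        rw [← Nat.cast_sum, show (20 : ℤ) = ((4 * 5 : ℕ) : ℤ) from rfl, ← this]
        congr 1
        refine sum_congr rfl fun w _ => ?_
        congr 1
        ext b
        simp [blk]
      have e3 : ∑ w ∈ C.erase x, (if G.Adj a w then (1 : ℤ) else 0) = 0 :=
        sum_eq_zero fun w hw => if_neg (hC.2 a (mem_of_mem_erase ha') w (mem_of_mem_erase hw))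
      refine (sum_map (C.subtype (· ∈ far G x)) emb (gram G x a)).symm.trans ?_
      rw [e]
      simp only [gram, sum_add_distrib, sum_sub_distrib, ← mul_sum, sum_ite_eq, if_pos ha', e2, e3,
        sum_const, e1]
      norm_num
    · rintro (rfl | rfl)
      · exact ⟨mem_insert_self _ _, mem_insert_of_mem (mem_map_of_mem emb a.1)⟩
      · exact ⟨mem_insert_self _ _, mem_insert_of_mem (mem_map_of_mem emb b.1)⟩

/-- The cocliques through a vertex. -/
def pts (G : SimpleGraph V) [DecidableRel G.Adj] (x : V) : Finset {C // IsPt G C} :=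
  univ.filter fun C => x ∈ C.1

theorem pts_inter_far (h : G.IsSRGWith 77 16 0 4) {x y : V} (hy : y ∈ far G x) :
    (pts G x ∩ pts G y).card = 2 := by
  rw [pts, pts, ← filter_and, card_pt_two h hy]

theorem pts_inter_adj {x y : V} (hxy : G.Adj x y) : pts G x ∩ pts G y = ∅ := by
  rw [pts, pts, ← filter_and, filter_eq_empty_iff]
  exact fun C _ h => C.2.2 x h.1 y h.2 hxy

theorem card_pts (h : G.IsSRGWith 77 16 0 4) (x : V) : (pts G x).card = 6 := by
  have e := sum_card_filter_comm (pts G x) (far G x) (fun C y => y ∈ C.1)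
  have h2 := card_far h x
  have e1 : ∀ C ∈ pts G x, ((far G x).filter fun y => y ∈ C.1).card = 20 := fun C hC => by
    have hx := (mem_filter.1 hC).2
    have : (far G x).filter (· ∈ C.1) = C.1.erase x := by
      ext z
      simp only [mem_filter, mem_erase, mem_far]
      exact ⟨fun h' => ⟨h'.1.1, h'.2⟩, fun h' => ⟨⟨h'.1, C.2.2 x hx z h'.2⟩, h'.2⟩⟩
    rw [this, card_erase_of_mem hx, C.2.1]
  have e2 : ∀ y ∈ far G x, ((pts G x).filter fun C => y ∈ C.1).card = 2 := fun y hy => by
    rw [pts, filter_filter, card_pt_two h hy]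
  rw [sum_congr rfl e1, sum_congr rfl e2, sum_const, sum_const, smul_eq_mul, smul_eq_mul] at e
  omega

theorem card_isPt (h : G.IsSRGWith 77 16 0 4) : Fintype.card {C // IsPt G C} = 22 := by
  have e := sum_card_filter_comm univ univ (fun (C : {C // IsPt G C}) (y : V) => y ∈ C.1)
  have e1 : ∀ C ∈ (univ : Finset {C // IsPt G C}), (univ.filter fun y => y ∈ C.1).card = 21 :=
    fun C _ => by rw [filter_mem_eq_inter, univ_inter, C.2.1]
  have e2 : ∀ y ∈ (univ : Finset V), (univ.filter fun C : {C // IsPt G C} => y ∈ C.1).card = 6 :=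
    fun y _ => card_pts h y
  rw [sum_congr rfl e1, sum_congr rfl e2, sum_const, sum_const, smul_eq_mul,
    smul_eq_mul, card_univ, card_univ, h.card] at e
  omega

theorem pts_injective (h : G.IsSRGWith 77 16 0 4) : Function.Injective (pts G) := by
  intro x y e
  rcases vertex_cases (G := G) x y with h' | h' | h'
  · exact h'.symm
  · have := pts_inter_adj h'
    rw [← e, inter_self, ← card_eq_zero, card_pts h] at this
    omega
  · have := pts_inter_far h h'
    rw [← e, inter_self, card_pts h] at this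
    omega

theorem steiner77 (h : G.IsSRGWith 77 16 0 4) :
    IsSteinerSystem 3 6 ((univ.image (pts G) : Finset _) : Set (Finset {C // IsPt G C})) := by
  refine steiner_of_card _ (fun b hb => ?_) (fun b hb c hc hne => ?_) ?_
  · obtain ⟨y, -, rfl⟩ := mem_image.1 hb
    exact card_pts h y
  · obtain ⟨y, -, rfl⟩ := mem_image.1 hb
    obtain ⟨z, -, rfl⟩ := mem_image.1 hc
    rcases vertex_cases (G := G) y z with h' | h' | h'
    · exact absurd (h' ▸ rfl) hne
    · simp [pts_inter_adj h']
    · rw [pts_inter_far h h']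
      norm_num
  · rw [card_image_of_injective _ (pts_injective h), card_univ, h.card, card_isPt h]
    decide +kernel

theorem nonempty_iso77 (h : G.IsSRGWith 77 16 0 4) {α : Type*} [Fintype α] [DecidableEq α]
    {B : Set (Finset α)} (hα : Fintype.card α = 22) (hB : IsSteinerSystem 3 6 B) :
    Nonempty (G ≃g blockGraph B) := by
  obtain ⟨e, he⟩ := Cfsg.Agent.S0410.result (card_isPt h) hα (steiner77 h) hB
  have hb : Function.Bijective fun v : V => (⟨pts G v, mem_image_of_mem _ (mem_univ v)⟩ :
      ((univ.image (pts G) : Finset _) : Set (Finset {C // IsPt G C}))) := by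
    refine ⟨fun v w h' => pts_injective h (congrArg Subtype.val h'), ?_⟩
    rintro ⟨b, hb⟩
    obtain ⟨y, -, rfl⟩ := mem_image.1 hb
    exact ⟨y, rfl⟩
  refine ⟨⟨(Equiv.ofBijective _ hb).trans (blockEquiv e he), fun {v w} => ?_⟩⟩
  rw [blockGraph_adj hB]
  show Disjoint ((pts G v).image e) ((pts G w).image e) ↔ _
  rw [disjoint_image e.injective, disjoint_iff_inter_eq_empty]
  refine ⟨fun h' => ?_, pts_inter_adj⟩
  rcases vertex_cases (G := G) v w with h'' | h'' | h''
  · rw [h'', inter_self, ← card_eq_zero, card_pts h] at h'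
    omega
  · exact h''
  · have := pts_inter_far h h''
    rw [h'] at this
    simp at this

end CL.Srg
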