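import Cfsg.Prelude.Def_SporadicCombinatorics

set_option autoImplicit false

namespace CL.Tern
open Cfsg

theorem mem_tetracode (t : Fin 4 → ZMod 3) :
    t ∈ tetracode ↔ ∃ a b : ZMod 3, t = ![b, a, a + b, a + 2 * b] := by
  rw [tetracode, Submodule.mem_span_pair]
  constructor
  · rintro ⟨a, b, rfl⟩
    refine ⟨a, b, ?_⟩
    funext i; fin_cases i <;> simp [mul_comm]
  · rintro ⟨a, b, rfl⟩
    refine ⟨a, b, ?_⟩
    funext i; fin_cases i <;> simp [mul_comm]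

/-- The systematic encoder of the ternary code. -/
def enc (u : Fin 6 → ZMod 3) : ArrayPt → ZMod 3 := fun p =>
  ![![u 0, u 1, u 2],
    ![u 3, u 4, u 0 + u 1 + u 2 + 2 * u 3 + 2 * u 4],
    ![u 5, 2 * u 1 + u 2 + 2 * u 3 + u 4 + u 5, u 0 + 2 * u 1 + u 3 + 2 * u 4 + u 5],
    ![u 0 + 2 * u 1 + 2 * u 2 + 2 * u 3 + 2 * u 5, u 0 + u 2 + u 3 + u 4 + 2 * u 5,
      2 * u 0 + 2 * u 1 + u 2 + 2 * u 4 + 2 * u 5]] p.1 p.2

/-- The information coordinates. -/
def dec (x : ArrayPt → ZMod 3) : Fin 6 → ZMod 3 :=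
  ![x (0, 0), x (0, 1), x (0, 2), x (1, 0), x (1, 1), x (2, 0)]

theorem dec_enc (u : Fin 6 → ZMod 3) : dec (enc u) = u := by
  funext i; fin_cases i <;> rfl

theorem enc_injective : Function.Injective enc := Function.LeftInverse.injective dec_enc

theorem sum3 (f : ZMod 3 → ZMod 3) : ∑ r : ZMod 3, f r = f 0 + f 1 + f 2 :=
  Fin.sum_univ_three f

/-- Explicit form of the defining conditions. -/
theorem mem_iff_explicit (x : ArrayPt → ZMod 3) : x ∈ ternaryGolayCode ↔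
    ∃ s : ZMod 3, (∀ i : Fin 4, x (i, 0) + x (i, 1) + x (i, 2) = -s) ∧
      ∀ a b : ZMod 3, x (0, b) + x (1, a) + x (2, a + b) + x (3, a + 2 * b) = s := by
  change IsTernaryGolayWord x ↔ _
  unfold IsTernaryGolayWord
  refine exists_congr fun s => and_congr (forall_congr' fun i => by rw [sum3]) ?_
  constructor
  · intro h a b
    have := h _ ((mem_tetracode _).2 ⟨a, b, rfl⟩)
    rw [Fin.sum_univ_four] at this
    exact this
  · intro h t ht
    obtain ⟨a, b, rfl⟩ := (mem_tetracode _).1 ht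
    rw [Fin.sum_univ_four]
    exact h a b

theorem enc_mem (u : Fin 6 → ZMod 3) : enc u ∈ ternaryGolayCode := by
  rw [mem_iff_explicit]
  refine ⟨-(u 0 + u 1 + u 2), ?_⟩
  revert u
  decide +kernel

theorem enc_dec {x : ArrayPt → ZMod 3} (hx : x ∈ ternaryGolayCode) : enc (dec x) = x := by
  rw [mem_iff_explicit] at hx
  obtain ⟨s, h1, h2⟩ := hx
  have a0 := h1 0
  have a1 := h1 1
  have a2 := h1 2
  have a3 := h1 3
  have b00 : x (0, 0) + x (1, 0) + x (2, 0) + x (3, 0) = s := h2 0 0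
  have b01 : x (0, 1) + x (1, 0) + x (2, 1) + x (3, 2) = s := h2 0 1
  have b02 : x (0, 2) + x (1, 0) + x (2, 2) + x (3, 1) = s := h2 0 2
  have b10 : x (0, 0) + x (1, 1) + x (2, 1) + x (3, 1) = s := h2 1 0
  have b11 : x (0, 1) + x (1, 1) + x (2, 2) + x (3, 0) = s := h2 1 1
  have b12 : x (0, 2) + x (1, 1) + x (2, 0) + x (3, 2) = s := h2 1 2
  have b20 : x (0, 0) + x (1, 2) + x (2, 2) + x (3, 2) = s := h2 2 0
  have b21 : x (0, 1) + x (1, 2) + x (2, 0) + x (3, 1) = s := h2 2 1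
  have b22 : x (0, 2) + x (1, 2) + x (2, 1) + x (3, 0) = s := h2 2 2
  have c1 : x (1, 2) = x (0, 0) + x (0, 1) + x (0, 2) + 2 * x (1, 0) + 2 * x (1, 1) := by grind
  have c2 : x (2, 1) = 2 * x (0, 1) + x (0, 2) + 2 * x (1, 0) + x (1, 1) + x (2, 0) := by grind
  have c3 : x (2, 2) = x (0, 0) + 2 * x (0, 1) + x (1, 0) + 2 * x (1, 1) + x (2, 0) := by grind
  have c4 : x (3, 0) = x (0, 0) + 2 * x (0, 1) + 2 * x (0, 2) + 2 * x (1, 0) + 2 * x (2, 0) := by grind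
  have c5 : x (3, 1) = x (0, 0) + x (0, 2) + x (1, 0) + x (1, 1) + 2 * x (2, 0) := by grind
  have c6 : x (3, 2) = 2 * x (0, 0) + 2 * x (0, 1) + x (0, 2) + 2 * x (1, 1) + 2 * x (2, 0) := by grind
  funext ⟨i, r⟩
  fin_cases i <;> fin_cases r
  all_goals first | rfl | exact c1.symm | exact c2.symm | exact c3.symm | exact c4.symm | exact c5.symm | exact c6.symm

theorem mem_iff (x : ArrayPt → ZMod 3) : x ∈ ternaryGolayCode ↔ ∃ u, enc u = x :=
  ⟨fun h => ⟨_, enc_dec h⟩, by rintro ⟨u, rfl⟩; exact enc_mem u⟩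

end CL.Tern
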