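import Mathlib

set_option autoImplicit false

/-! Kernel-friendly bounded quantifiers and sums (binary splitting, no deep recursion). -/

namespace CL.KAll

/-- `allPow f lo d` checks `f` on `lo, ..., lo + 2^d - 1`. -/
def allPow (f : ℕ → Bool) : ℕ → ℕ → Bool
  | 0, lo => f lo
  | d + 1, lo => allPow f d lo && allPow f d (lo + 2 ^ d)

theorem allPow_zero (f : ℕ → Bool) (lo : ℕ) : allPow f 0 lo = f lo := rfl
theorem allPow_succ (f : ℕ → Bool) (d lo : ℕ) :
    allPow f (d + 1) lo = (allPow f d lo && allPow f d (lo + 2 ^ d)) := rfl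

theorem of_allPow {f : ℕ → Bool} {d lo : ℕ} (h : allPow f d lo = true) (i : ℕ) (h1 : lo ≤ i)
    (h2 : i < lo + 2 ^ d) : f i = true := by
  induction d generalizing lo with
  | zero =>
    have : i = lo := by simp at h2; omega
    rw [this]; exact h
  | succ d ih =>
    rw [allPow_succ, Bool.and_eq_true] at h
    by_cases hi : i < lo + 2 ^ d
    · exact ih h.1 h1 hi
    · exact ih h.2 (not_lt.1 hi) (by rw [pow_succ] at h2; omega)

theorem of_allPow_zero {f : ℕ → Bool} {d : ℕ} (h : allPow f d 0 = true) (i : ℕ)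
    (h2 : i < 2 ^ d) : f i = true :=
  of_allPow h i (Nat.zero_le _) (by simpa using h2)

/-- Decidable-predicate version. -/
theorem forall_lt_two_pow {p : ℕ → Prop} [DecidablePred p] (d : ℕ)
    (h : allPow (fun i => decide (p i)) d 0 = true) : ∀ i < 2 ^ d, p i := fun i hi =>
  of_decide_eq_true (of_allPow_zero h i hi)

/-- Bounded version with an arbitrary bound `n ≤ 2^d`. -/
theorem forall_lt {p : ℕ → Prop} [DecidablePred p] (n d : ℕ) (hn : n ≤ 2 ^ d)
    (h : allPow (fun i => decide (n ≤ i) || decide (p i)) d 0 = true) : ∀ i < n, p i := by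
  intro i hi
  have := of_allPow_zero h i (lt_of_lt_of_le hi hn)
  simp only [Bool.or_eq_true, decide_eq_true_eq] at this
  exact this.resolve_left (not_le.2 hi)

/-- `sumPow f d lo` is the sum of `f` over `lo, ..., lo + 2^d - 1`. -/
def sumPow (f : ℕ → ℕ) : ℕ → ℕ → ℕ
  | 0, lo => f lo
  | d + 1, lo => sumPow f d lo + sumPow f d (lo + 2 ^ d)

theorem sumPow_zero (f : ℕ → ℕ) (lo : ℕ) : sumPow f 0 lo = f lo := rfl
theorem sumPow_succ (f : ℕ → ℕ) (d lo : ℕ) :
    sumPow f (d + 1) lo = sumPow f d lo + sumPow f d (lo + 2 ^ d) := rfl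

theorem sumPow_eq (f : ℕ → ℕ) (d lo : ℕ) :
    sumPow f d lo = ∑ i ∈ Finset.range (2 ^ d), f (lo + i) := by
  induction d generalizing lo with
  | zero => simp [sumPow_zero]
  | succ d ih =>
    rw [sumPow_succ, ih, ih, pow_succ, mul_two, Finset.sum_range_add]
    simp only [add_assoc]

/-- Counting the `i < 2^d` with a decidable property. -/
theorem card_filter_range_two_pow (p : ℕ → Prop) [DecidablePred p] (d : ℕ) :
    ((Finset.range (2 ^ d)).filter p).card = sumPow (fun i => if p i then 1 else 0) d 0 := by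
  rw [sumPow_eq, Finset.card_filter]
  simp only [zero_add]

end CL.KAll
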