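import Mathlib

set_option autoImplicit false

/-! Bitmask model of finite subsets of a finite type enumerated by `e : α ≃ Fin n`. -/

namespace CL.Mask

variable {α : Type*} {n : ℕ}

/-- The subset coded by the bits of `m`. -/
def ofMask [Fintype α] (e : α ≃ Fin n) (m : ℕ) : Finset α :=
  Finset.univ.filter fun p => m.testBit (e p).val = true

/-- The bitmask of a subset. -/
def toMask [DecidableEq α] (e : α ≃ Fin n) (s : Finset α) : ℕ :=
  Nat.ofBits fun i : Fin n => decide (e.symm i ∈ s)

/-- Number of set bits among the lowest `k`. -/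
def pc (m : ℕ) : ℕ → ℕ
  | 0 => 0
  | k + 1 => if m.testBit k then pc m k + 1 else pc m k

theorem pc_zero (m : ℕ) : pc m 0 = 0 := rfl
theorem pc_succ (m k : ℕ) : pc m (k + 1) = if m.testBit k then pc m k + 1 else pc m k := rfl

theorem pc_eq (m k : ℕ) : pc m k = ((Finset.range k).filter fun i => m.testBit i = true).card := by
  induction k with
  | zero => rfl
  | succ k ih =>
    rw [pc_succ, Finset.range_add_one, Finset.filter_insert]
    split_ifs with h
    · rw [Finset.card_insert_of_notMem (by simp), ih]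
    · exact ih

variable [Fintype α] (e : α ≃ Fin n)

theorem mem_ofMask (m : ℕ) (p : α) : p ∈ ofMask e m ↔ m.testBit (e p).val = true := by
  simp [ofMask]

theorem card_ofMask (m : ℕ) : (ofMask e m).card = pc m n := by
  rw [pc_eq]
  apply Finset.card_bij (fun p _ => (e p).val)
  · intro p hp
    simp only [Finset.mem_filter, Finset.mem_range]
    exact ⟨(e p).2, (mem_ofMask e m p).1 hp⟩
  · intro p _ q _ h
    exact e.injective (Fin.ext h)
  · intro i hi
    simp only [Finset.mem_filter, Finset.mem_range] at hi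
    exact ⟨e.symm ⟨i, hi.1⟩, by rw [mem_ofMask]; simpa using hi.2, by simp⟩

omit [Fintype α] in
theorem toMask_lt [DecidableEq α] (s : Finset α) : toMask e s < 2 ^ n := Nat.ofBits_lt_two_pow _

omit [Fintype α] in
theorem testBit_toMask [DecidableEq α] (s : Finset α) (p : α) :
    (toMask e s).testBit (e p).val = true ↔ p ∈ s := by
  rw [toMask, Nat.testBit_ofBits_lt _ _ (e p).2]
  simp

theorem ofMask_toMask [DecidableEq α] (s : Finset α) : ofMask e (toMask e s) = s := by
  ext p
  rw [mem_ofMask, testBit_toMask]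

theorem exists_mask (s : Finset α) : ∃ m < 2 ^ n, ofMask e m = s := by
  classical
  exact ⟨_, toMask_lt e s, ofMask_toMask e s⟩

theorem ofMask_inj {a b : ℕ} (ha : a < 2 ^ n) (hb : b < 2 ^ n) (h : ofMask e a = ofMask e b) :
    a = b := by
  apply Nat.eq_of_testBit_eq
  intro i
  by_cases hi : i < n
  · have := congrArg (fun s => e.symm ⟨i, hi⟩ ∈ s) h
    simp only [mem_ofMask, Equiv.apply_symm_apply, eq_iff_iff] at this
    exact Bool.eq_iff_iff.2 this
  · rw [Nat.testBit_lt_two_pow (lt_of_lt_of_le ha (Nat.pow_le_pow_right (by norm_num) (not_lt.1 hi))),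
      Nat.testBit_lt_two_pow (lt_of_lt_of_le hb (Nat.pow_le_pow_right (by norm_num) (not_lt.1 hi)))]

theorem toMask_ofMask [DecidableEq α] {a : ℕ} (ha : a < 2 ^ n) : toMask e (ofMask e a) = a :=
  ofMask_inj e (toMask_lt e _) ha (ofMask_toMask e _)

theorem ofMask_and [DecidableEq α] (a b : ℕ) : ofMask e (a &&& b) = ofMask e a ∩ ofMask e b := by
  ext p; simp [mem_ofMask, Nat.testBit_and]

theorem ofMask_or [DecidableEq α] (a b : ℕ) : ofMask e (a ||| b) = ofMask e a ∪ ofMask e b := by
  ext p; simp [mem_ofMask, Nat.testBit_or]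

theorem ofMask_xor [DecidableEq α] (a b : ℕ) :
    ofMask e (a ^^^ b) = symmDiff (ofMask e a) (ofMask e b) := by
  ext p
  simp only [mem_ofMask, Nat.testBit_xor, Finset.mem_symmDiff]
  cases a.testBit (e p).val <;> cases b.testBit (e p).val <;> simp

theorem ofMask_zero : ofMask e 0 = ∅ := by
  ext p; simp [mem_ofMask]

theorem ofMask_two_pow (p : α) : ofMask e (2 ^ (e p).val) = {p} := by
  ext q
  simp only [mem_ofMask, Nat.testBit_two_pow, decide_eq_true_eq, Finset.mem_singleton]
  constructor
  · intro h; exact (e.injective (Fin.ext h)).symm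
  · rintro rfl; rfl

theorem ofMask_subset_iff {a : ℕ} (ha : a < 2 ^ n) (b : ℕ) :
    ofMask e a ⊆ ofMask e b ↔ a &&& b = a := by
  classical
  rw [← Finset.inter_eq_left, ← ofMask_and]
  constructor
  · intro h
    exact ofMask_inj e (lt_of_le_of_lt Nat.and_le_left ha) ha h
  · intro h; rw [h]

theorem ofMask_disjoint_iff {a : ℕ} (ha : a < 2 ^ n) (b : ℕ) :
    Disjoint (ofMask e a) (ofMask e b) ↔ a &&& b = 0 := by
  classical
  rw [Finset.disjoint_iff_inter_eq_empty, ← ofMask_and, ← ofMask_zero e]
  constructor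
  · intro h
    exact ofMask_inj e (lt_of_le_of_lt Nat.and_le_left ha) (Nat.two_pow_pos n) h
  · intro h; rw [h]

/-- The family coded by a duplicate-free list of masks has the list's length as size. -/
theorem ncard_ofMask_list (L : List ℕ) (hL : L.Nodup) (hlt : ∀ m ∈ L, m < 2 ^ n) :
    (ofMask e '' {m | m ∈ L}).ncard = L.length := by
  have hinj : Set.InjOn (ofMask e) {m | m ∈ L} :=
    fun a ha b hb h => ofMask_inj e (hlt a ha) (hlt b hb) h
  rw [hinj.ncard_image]
  have : {m | m ∈ L} = (L.toFinset : Set ℕ) := by ext; simp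
  rw [this, Set.ncard_coe_finset, List.toFinset_card_of_nodup hL]

end CL.Mask
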