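import Cfsg.Agent.SPOR.Ternary
import Cfsg.Agent.SPOR.Mask
import Cfsg.Agent.SPOR.Chain
import Cfsg.Agent.SPOR.KAll

set_option autoImplicit false

namespace CL.Tern
open Cfsg CL.Mask
open scoped Pointwise

/-- Enumeration of the twelve positions. -/
def e12 : ArrayPt ≃ Fin 12 where
  toFun p := ⟨3 * p.1.val + p.2.val, by have := p.1.2; have := ZMod.val_lt p.2; omega⟩
  invFun i := (⟨i.val / 3, by have := i.2; omega⟩, ((i.val % 3 : ℕ) : ZMod 3))
  left_inv := by decide
  right_inv := by decide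

/-- The hexads of the ternary code. -/
def hexads : Set (Finset ArrayPt) :=
  {h : Finset ArrayPt | ∃ x ∈ ternaryGolayCode, ternarySupport x = h ∧ h.card = 6}

/-- Masks of the hexads. -/
def hexL : List ℕ := [63, 222, 237, 243, 347, 366, 373, 413, 427, 438, 455, 504, 591, 630, 633, 667, 679, 700, 725, 746, 791, 813, 826, 860, 867, 910, 945, 969, 978, 996, 1117, 1127, 1146, 1175, 1198, 1209, 1227, 1268, 1295, 1331, 1340, 1366, 1385, 1434, 1445, 1484, 1489, 1506, 1566, 1579, 1589, 1619, 1644, 1677, 1714, 1734, 1752, 1761, 1817, 1830, 1861, 1866, 1904, 1923, 1940, 1960, 2135, 2155, 2172, 2191, 2229, 2234, 2265, 2278, 2334, 2343, 2361, 2381, 2418, 2451, 2476, 2506, 2516, 2529, 2589, 2606, 2611, 2650, 2661, 2710, 2729, 2755, 2764, 2800, 2827, 2868, 2886, 2897, 2920, 2949, 2968, 2978, 3099, 3117, 3126, 3150, 3185, 3228, 3235, 3269, 3282, 3304, 3349, 3370, 3395, 3416, 3428, 3462, 3465, 3504, 3591, 3640, 3657, 3668, 3682, 3722, 3729, 3748, 3852, 3858, 3873,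 4032]

def hexK : List ℕ := [134, 393, 289, 410, 439, 318, 335, 154, 32, 102, 269, 459, 284, 429, 379, 112, 17, 117, 415, 276, 97, 37, 141, 369, 247, 51, 83, 299, 327, 252, 479, 259, 354, 95, 39, 137, 301, 342, 49, 85, 144, 417, 272, 114, 10, 279, 325, 249, 156, 34, 100, 332, 306, 47, 87, 264, 432, 245, 110, 12, 262, 303, 405, 5, 90, 27, 346, 305, 441, 43, 91, 138, 353, 255, 120, 14, 109, 307, 330, 89, 45, 273, 423, 244, 146, 48, 86, 462, 263, 105, 29, 250, 315, 324, 35, 99, 258, 407, 270, 11, 135, 3, 142, 38, 96, 294, 406, 126, 4, 254, 411, 297, 101, 33, 248, 378, 261, 15, 28, 81, 13, 108, 271, 333, 246, 30, 82, 9, 36, 84, 1, 243]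

def ofNat6 (k : ℕ) : Fin 6 → ZMod 3 := fun i => ((k / 3 ^ i.val % 3 : ℕ) : ZMod 3)

/-- Mask of the support of a word. -/
def smask (x : ArrayPt → ZMod 3) : ℕ := Nat.ofBits fun i : Fin 12 => decide (x (e12.symm i) ≠ 0)

theorem ofMask_smask (x : ArrayPt → ZMod 3) : ofMask e12 (smask x) = ternarySupport x := by
  ext p
  rw [mem_ofMask, smask, Nat.testBit_ofBits_lt _ _ (e12 p).2]
  simp [ternarySupport]

theorem hexL_lt : ∀ m ∈ hexL, m < 2 ^ 12 := by decide +kernel
theorem hexL_nodup : hexL.Nodup := by decide +kernel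
theorem hexL_pc : ∀ m ∈ hexL, pc m 12 = 6 := by decide +kernel
theorem hexL_eq : hexK.map (fun k => smask (enc (ofNat6 k))) = hexL := by decide +kernel
theorem smask_mem : ∀ u : Fin 6 → ZMod 3, pc (smask (enc u)) 12 = 6 → smask (enc u) ∈ hexL := by
  decide +kernel

theorem hexads_eq : hexads = ofMask e12 '' {m | m ∈ hexL} := by
  ext h
  constructor
  · rintro ⟨x, hx, rfl, hc⟩
    obtain ⟨u, rfl⟩ := (mem_iff x).1 hx
    refine ⟨smask (enc u), smask_mem u ?_, ofMask_smask _⟩
    rw [← card_ofMask e12, ofMask_smask, hc]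
  · rintro ⟨m, hm, rfl⟩
    have hm' : m ∈ hexL := hm
    have hc := hexL_pc m hm'
    rw [← hexL_eq, List.mem_map] at hm'
    obtain ⟨k, -, rfl⟩ := hm'
    exact ⟨_, enc_mem _, (ofMask_smask _).symm, by rw [card_ofMask, hc]⟩

theorem ofMask_mem_hexads {m : ℕ} (hm : m < 2 ^ 12) : ofMask e12 m ∈ hexads ↔ m ∈ hexL := by
  rw [hexads_eq]
  constructor
  · rintro ⟨m', hm', h⟩
    rw [← ofMask_inj e12 (hexL_lt m' hm') hm h]; exact hm'
  · intro h; exact ⟨m, h, rfl⟩

theorem ncard_hexads : hexads.ncard = 132 := by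
  rw [hexads_eq, ncard_ofMask_list e12 hexL hexL_nodup hexL_lt]
  rfl

theorem steiner_aux : ∀ m < 2 ^ 12, pc m 12 = 5 →
    (hexL.filter fun b => m &&& b = m).length = 1 :=
  CL.KAll.forall_lt_two_pow 12 (by decide +kernel)

theorem steiner : IsSteinerSystem 5 6 hexads := by
  refine ⟨fun b hb => hb.choose_spec.2.2, fun s hs => ?_⟩
  obtain ⟨m, hm, rfl⟩ := exists_mask e12 s
  rw [card_ofMask] at hs
  obtain ⟨b, hb⟩ := List.length_eq_one_iff.1 (steiner_aux m hm hs)
  have hb' : ∀ c, (c ∈ hexL ∧ m &&& c = m) ↔ c = b := by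
    intro c
    have : c ∈ (hexL.filter fun b => m &&& b = m) ↔ c = b := by rw [hb]; simp
    rw [← this, List.mem_filter]; simp
  refine ⟨ofMask e12 b, ⟨?_, ?_⟩, ?_⟩
  · rw [hexads_eq]; exact ⟨b, ((hb' b).2 rfl).1, rfl⟩
  · rw [ofMask_subset_iff e12 hm]; exact ((hb' b).2 rfl).2
  · rintro c ⟨hc, hsub⟩
    rw [hexads_eq] at hc
    obtain ⟨c, hc, rfl⟩ := hc
    rw [ofMask_subset_iff e12 hm] at hsub
    rw [(hb' c).1 ⟨hc, hsub⟩]

/-! ### Rigidity: an automorphism of the hexad system fixing five points is trivial -/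

def m6 (a b c d e f : Fin 12) : ℕ :=
  2 ^ a.val ||| 2 ^ b.val ||| 2 ^ c.val ||| 2 ^ d.val ||| 2 ^ e.val ||| 2 ^ f.val

theorem m6_lt (a b c d e f : Fin 12) : m6 a b c d e f < 2 ^ 12 := by
  have h : ∀ a : Fin 12, 2 ^ a.val < 2 ^ 12 := fun a => Nat.pow_lt_pow_right (by norm_num) a.2
  unfold m6
  repeat' apply Nat.or_lt_two_pow
  all_goals exact h _

theorem ofMask_m6 (a b c d e f : Fin 12) : ofMask e12 (m6 a b c d e f) =
    {e12.symm a, e12.symm b, e12.symm c, e12.symm d, e12.symm e, e12.symm f} := by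
  have h : ∀ a : Fin 12, ofMask e12 (2 ^ a.val) = {e12.symm a} := fun a => by
    rw [← ofMask_two_pow e12, Equiv.apply_symm_apply]
  simp only [m6, ofMask_or, h]
  ext p; simp

theorem m6_map {σ : Equiv.Perm ArrayPt} (hσ : σ ∈ setSystemAut hexads) (a b c d e f : Fin 12)
    (h : m6 a b c d e f ∈ hexL) :
    m6 (e12 (σ (e12.symm a))) (e12 (σ (e12.symm b))) (e12 (σ (e12.symm c)))
      (e12 (σ (e12.symm d))) (e12 (σ (e12.symm e))) (e12 (σ (e12.symm f))) ∈ hexL := by
  rw [← ofMask_mem_hexads (m6_lt ..)] at h ⊢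
  have h2 : σ • ofMask e12 (m6 a b c d e f) ∈ σ • hexads := Set.smul_mem_smul_set h
  rw [MulAction.mem_stabilizer_iff.1 hσ] at h2
  convert h2 using 1
  rw [ofMask_m6, ofMask_m6]
  simp only [Equiv.symm_apply_apply, Finset.smul_finset_insert, Finset.smul_finset_singleton,
    Equiv.Perm.smul_def]

set_option synthInstance.maxSize 4000 in
theorem rigid_aux : ∀ y5 : Fin 12, m6 0 1 2 3 4 y5 ∈ hexL → ∀ y6 y7 : Fin 12,
    m6 1 2 3 4 y6 y7 ∈ hexL → m6 0 2 3 y5 y6 y7 ∈ hexL → m6 0 1 4 y5 y6 y7 ∈ hexL →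
    ∀ y8 : Fin 12, m6 0 1 3 4 y6 y8 ∈ hexL → m6 1 2 3 y5 y6 y8 ∈ hexL →
    ∀ y9 : Fin 12, m6 0 1 2 3 y6 y9 ∈ hexL → ∀ y10 : Fin 12, m6 0 2 3 4 y6 y10 ∈ hexL →
    ∀ y11 : Fin 12, m6 0 1 2 4 y6 y11 ∈ hexL →
    y5 = 5 ∧ y6 = 6 ∧ y7 = 7 ∧ y8 = 8 ∧ y9 = 9 ∧ y10 = 10 ∧ y11 = 11 := by decide +kernel

/-- The base points. -/
def base5 (i : Fin 5) : ArrayPt := e12.symm (Fin.castLE (by norm_num) i)

theorem rigid {σ : Equiv.Perm ArrayPt} (hσ : σ ∈ setSystemAut hexads)
    (h : ∀ i, σ • base5 i = base5 i) : σ = 1 := by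
  have h0 : e12 (σ (e12.symm 0)) = 0 := (congrArg e12 (h 0)).trans (by decide)
  have h1 : e12 (σ (e12.symm 1)) = 1 := (congrArg e12 (h 1)).trans (by decide)
  have h2 : e12 (σ (e12.symm 2)) = 2 := (congrArg e12 (h 2)).trans (by decide)
  have h3 : e12 (σ (e12.symm 3)) = 3 := (congrArg e12 (h 3)).trans (by decide)
  have h4 : e12 (σ (e12.symm 4)) = 4 := (congrArg e12 (h 4)).trans (by decide)
  have a1 := m6_map hσ 0 1 2 3 4 5 (by decide +kernel)
  have a2 := m6_map hσ 1 2 3 4 6 7 (by decide +kernel)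
  have a3 := m6_map hσ 0 2 3 5 6 7 (by decide +kernel)
  have a4 := m6_map hσ 0 1 4 5 6 7 (by decide +kernel)
  have a5 := m6_map hσ 0 1 3 4 6 8 (by decide +kernel)
  have a6 := m6_map hσ 1 2 3 5 6 8 (by decide +kernel)
  have a7 := m6_map hσ 0 1 2 3 6 9 (by decide +kernel)
  have a8 := m6_map hσ 0 2 3 4 6 10 (by decide +kernel)
  have a9 := m6_map hσ 0 1 2 4 6 11 (by decide +kernel)
  simp only [h0, h1, h2, h3, h4] at a1 a2 a3 a4 a5 a6 a7 a8 a9
  obtain ⟨h5, h6, h7, h8, h9, h10, h11⟩ := rigid_aux _ a1 _ _ a2 a3 a4 _ a5 a6 _ a7 _ a8 _ a9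
  have : ∀ i : Fin 12, e12 (σ (e12.symm i)) = i := by
    intro i; fin_cases i <;> assumption
  ext1 p
  have := this (e12 p)
  rw [Equiv.symm_apply_apply] at this
  exact e12.injective this

/-! ### Monomial automorphisms -/

theorem enc_eq_sum (u : Fin 6 → ZMod 3) : enc u = ∑ i, u i • enc (Pi.single i 1) := by
  have hm : ∑ i, u i • enc (Pi.single i 1) ∈ ternaryGolayCode :=
    Submodule.sum_mem _ fun i _ => Submodule.smul_mem _ _ (enc_mem _)
  rw [← enc_dec hm]
  congr 1
  funext j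
  have : ∀ x : Fin 6 → ArrayPt → ZMod 3, dec (∑ i, u i • x i) j = ∑ i, u i * dec (x i) j := by
    intro x
    fin_cases j <;> simp [dec, Finset.sum_apply]
  rw [this]
  simp [dec_enc, Pi.single_apply]

/-- A signed map of the positions preserves the code as soon as it maps the basis into it. -/
theorem map_mem_of_basis (f : ArrayPt → ArrayPt) (c : ArrayPt → ZMod 3)
    (h : ∀ i : Fin 6, enc (dec fun p => c p * enc (Pi.single i 1) (f p)) =
      fun p => c p * enc (Pi.single i 1) (f p))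
    {x : ArrayPt → ZMod 3} (hx : x ∈ ternaryGolayCode) :
    (fun p => c p * x (f p)) ∈ ternaryGolayCode := by
  obtain ⟨u, rfl⟩ := (mem_iff x).1 hx
  have : (fun p => c p * enc u (f p)) = ∑ i, u i • fun p => c p * enc (Pi.single i 1) (f p) := by
    funext p
    rw [enc_eq_sum u]
    simp only [Finset.sum_apply, Pi.smul_apply, smul_eq_mul, Finset.mul_sum]
    exact Finset.sum_congr rfl fun i _ => by ring
  rw [this]
  exact Submodule.sum_mem _ fun i _ => Submodule.smul_mem _ _ (h i ▸ enc_mem _)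

def levT : List (List (ℕ × ℕ)) := [[(205163983024656, 0), (114875801285121, 0), (186601419583521, 0), (200838984500001, 2764), (167656838677281, 1940), (188465698652961, 3428), (203798352446241, 2514), (95138016215841, 3102), (129331828900641, 1224), (151774303765281, 3746), (106195122340641, 2824), (8479751947041, 430)], [(0, 0), (205163983024656, 0), (148896472117536, 0), (118230153958176, 2764), (134787001041696, 1940), (148135453475616, 3428), (113630368056096, 2514), (100781785563936, 3102), (164384360514336, 1224), (184818442388256, 3746), (195118630322976, 2824), (27948870026016, 430)], [(0, 0), (0, 0), (205163983024656, 0), (167926364906256, 2764), (184072505803536, 1940), (203992259183376, 3428), (169717554103056, 2514), (97264529457936, 3102), (111817503752976, 1224), (135422825480976, 3746), (143646984323856, 2824), (42435747726096, 430)], [(0, 0), (0, 0), (0, 0), (205163983024656, 0), (147865428247056, 0), (171139535290896, 0), (202694063505936,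 6), (99399427965456, 4090), (129277051159056, 4092), (115692283773456, 6), (179793663050256, 4092), (61273455280656, 4090)], [(0, 0), (0, 0), (0, 0), (0, 0), (205163983024656, 0), (132399770186256, 0), (153208536773136, 6), (95285065495056, 4090), (164327252963856, 4092), (183942805598736, 6), (110731096240656, 4092), (80841396400656, 4090)]]

def levF (i : Fin 5) (p : ArrayPt) (q : ArrayPt) : ArrayPt :=
  e12.symm (Fin.ofNat 12 (((levT.getD i []).getD (e12 p) (0, 0)).1 / 16 ^ (e12 q).val % 16))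

def levC (i : Fin 5) (p : ArrayPt) (q : ArrayPt) : (ZMod 3)ˣ :=
  if ((levT.getD i []).getD (e12 p) (0, 0)).2.testBit (e12 q).val then -1 else 1

theorem lev_spec : ∀ (i : Fin 5) (p : ArrayPt), (∀ j < i, p ≠ base5 j) →
    Function.Injective (levF i p) ∧ (∀ j < i, levF i p (base5 j) = base5 j) ∧ levF i p p = base5 i ∧
    ∀ k : Fin 6, enc (dec fun q => (levC i p q : ZMod 3) * enc (Pi.single k 1) (levF i p q)) =
      fun q => (levC i p q : ZMod 3) * enc (Pi.single k 1) (levF i p q) := by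
  decide +kernel

end CL.Tern
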