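/-
Quartets of a dodecad.
-/
import Mathlib
import Cfsg.Agent.SPOR.M12b

set_option autoImplicit false

namespace CL.M12

open Finset Cfsg CL.K CL.Orb CL.Enc CL.Golay MulAction
open scoped Pointwise

theorem orbit_conj {G X : Type*} [Group G] [MulAction G X] {M : Subgroup G} {A : Subgroup M}
    {H : Subgroup G} (hle : H ≤ M) (a : M) (h : ∀ g : M, a * g * a⁻¹ ∈ A ↔ (g : G) ∈ H) (x : X) :
    orbit A (a • x) = a • orbit H x := by
  ext y
  constructor
  · rintro ⟨⟨g, hg⟩, rfl⟩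
    refine ⟨_, ⟨⟨(a⁻¹ * g * a : M), (h _).1 (by simpa [mul_assoc] using hg)⟩, rfl⟩, ?_⟩
    show a • (a⁻¹ * g * a : M) • x = g • a • x
    simp [mul_smul]
  · rintro ⟨_, ⟨⟨g, hg⟩, rfl⟩, rfl⟩
    refine ⟨⟨_, (h ⟨g, hle hg⟩).2 hg⟩, ?_⟩
    show (a * ⟨g, hle hg⟩ * a⁻¹ : M) • a • x = a • (⟨g, hle hg⟩ : M) • x
    simp [mul_smul]

theorem smul_mem_quartets {a : Equiv.Perm GolayPt} (ha : a ∈ M24) {d : Finset GolayPt}
    {Q : Finset (Finset GolayPt)} (hQ : Q ∈ quartets d) : a • Q ∈ quartets (a • d) := by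
  refine ⟨(Finset.card_smul_finset _ _).trans hQ.1, fun t ht => ?_, fun t ht u hu hne => ?_⟩
  · obtain ⟨t', ht', rfl⟩ := Finset.mem_smul_finset.1 ht
    exact ⟨(Finset.card_smul_finset _ _).trans (hQ.2.1 t' ht').1,
      Finset.smul_finset_subset_smul_finset (hQ.2.1 t' ht').2⟩
  · obtain ⟨t', ht', rfl⟩ := Finset.mem_smul_finset.1 ht
    obtain ⟨u', hu', rfl⟩ := Finset.mem_smul_finset.1 hu
    rw [← Finset.smul_finset_union]
    exact smul_mem_hexadsOn ha (hQ.2.2 t' ht' u' hu' fun h => hne (h ▸ rfl))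

theorem smul_mem_quartets_iff {a : Equiv.Perm GolayPt} (ha : a ∈ M24) {d : Finset GolayPt}
    {Q : Finset (Finset GolayPt)} : a • Q ∈ quartets (a • d) ↔ Q ∈ quartets d :=
  ⟨fun h => by simpa using smul_mem_quartets (M24.inv_mem ha) h, smul_mem_quartets ha⟩

theorem disjoint_of_union_hexad {d t u : Finset GolayPt} (ht : t.card = 3) (hu : u.card = 3)
    (h : t ∪ u ∈ hexadsOn d) : Disjoint t u := by
  rw [← Finset.card_union_eq_card_add_card, h.1, ht, hu]

/-! ### Packed families of four sets -/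

/-- field number `i` of a packed family. -/
def q4 (c i : ℕ) : ℕ := fld 24 16777215 c i

theorem q4_lt (c i : ℕ) : q4 c i < 2 ^ 24 := lt_of_le_of_lt (fld_le _ _ _ _) (by norm_num)

/-- the family of the four sets packed in `c`. -/
def fam4 (c : ℕ) : Finset (Finset GolayPt) :=
  {E.setOf (q4 c 0), E.setOf (q4 c 1), E.setOf (q4 c 2), E.setOf (q4 c 3)}

/-- the image of a packed family. -/
noncomputable def img4 (P c : ℕ) : ℕ := PC.mk 24 4 fun i => img24 P (q4 c i)

theorem q4_img4 {g : Equiv.Perm GolayPt} {P : ℕ} (hP : R g P) (c : ℕ) {i : ℕ} (hi : i < 4) :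
    q4 (img4 P c) i = img24 P (q4 c i) :=
  PC.fld_mk (w := 24) (fun _ _ => R.img_lt hP _) hi

theorem smul_fam4 {g : Equiv.Perm GolayPt} {P : ℕ} (hP : R g P) (c : ℕ) :
    g • fam4 c = fam4 (img4 P c) := by
  simp only [fam4, Finset.smul_finset_insert, Finset.smul_finset_singleton]
  rw [q4_img4 hP c (by norm_num), q4_img4 hP c (by norm_num), q4_img4 hP c (by norm_num),
    q4_img4 hP c (by norm_num)]
  simp only [R.setOf_img hP]

/-- hash of a family of sets. -/
def famHash (Q : Finset (Finset GolayPt)) : ℕ :=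
  (Q.sup E.maskOf * 7 + Q.sup fun t => 16777216 - E.maskOf t) % 3116

/-- hash of a packed family. -/
def hash4 (c : ℕ) : ℕ :=
  (max (q4 c 0) (max (q4 c 1) (max (q4 c 2) (q4 c 3))) * 7 + max (16777216 - q4 c 0)
    (max (16777216 - q4 c 1) (max (16777216 - q4 c 2) (16777216 - q4 c 3)))) % 3116

theorem famHash_fam4 (c : ℕ) : famHash (fam4 c) = hash4 c := by
  simp only [famHash, fam4, hash4, Finset.sup_insert, Finset.sup_singleton,
    E.maskOf_setOf (q4_lt _ _)]

theorem coded_fam4 {H : Subgroup (Equiv.Perm GolayPt)} {L : List ℕ} (hL : ∀ P ∈ L, I H P) :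
    Coded fam4 (fun _ => True) famHash hash4 (fun j => pm (lget L j))
      (fun j c => img4 (lget L j) c) L.length where
  hash c _ := (famHash_fam4 c).symm
  valid _ _ _ _ := trivial
  act _ hj c _ := smul_fam4 (hL _ (lget_mem hj)).rep c

theorem mem_fam4 {c : ℕ} {t : Finset GolayPt} : t ∈ fam4 c ↔ ∃ i < 4, E.setOf (q4 c i) = t := by
  simp only [fam4, Finset.mem_insert, Finset.mem_singleton, Nat.exists_lt_succ_right,
    Nat.not_lt_zero, false_and, exists_false, false_or, eq_comm (a := t), or_assoc]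

/-- test for a hexad on `D0`. -/
noncomputable def isHex (m : ℕ) : Bool := Nat.beq (pc24 m) 6 && Nat.beq (Nat.land m D0) m &&
  anyLt (fun i => anyLt (fun j => force (Nat.lor m (Nat.lor (Nat.shiftLeft 1 i) (Nat.shiftLeft 1 j)))
    fun o => isOct o && Nat.beq (Nat.land o D0) m) 24) 24

theorem hexad_of_isHex {m : ℕ} (h : isHex m = true) : E.setOf m ∈ hexadsOn (E.setOf D0) := by
  simp only [isHex, Bool.and_eq_true, anyLt_iff, force_eq, Nat.beq_eq] at h
  obtain ⟨⟨h1, -⟩, i, -, j, -, h2, h3⟩ := h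
  exact ⟨(Golay.card_setOf m).trans h1, _, setOf_mem_of_isOct h2, by
    rw [← E.setOf_and]; exact congrArg _ h3⟩

/-- test for a quartet of `D0`. -/
noncomputable def isQua (c : ℕ) : Bool :=
  allLt (fun i => Nat.beq (pc24 (q4 c i)) 3 && Nat.beq (Nat.land (q4 c i) D0) (q4 c i) &&
    allLt (fun j => Nat.beq i j || isHex (Nat.lor (q4 c i) (q4 c j))) 4) 4

theorem fam4_mem {c : ℕ} (h : isQua c = true) : fam4 c ∈ quartets (E.setOf D0) := by
  simp only [isQua, allLt_iff, Bool.and_eq_true, Bool.or_eq_true, Nat.beq_eq] at h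
  have h1 : ∀ i < 4, (E.setOf (q4 c i)).card = 3 := fun i hi =>
    (Golay.card_setOf _).trans (h i hi).1.1
  have h2 : ∀ i < 4, ∀ j < 4, i ≠ j → E.setOf (q4 c i) ∪ E.setOf (q4 c j) ∈ hexadsOn (E.setOf D0) :=
    fun i hi j hj hne => E.setOf_or _ _ ▸ hexad_of_isHex (((h i hi).2 j hj).resolve_left hne)
  have h3 : ∀ i < 4, ∀ j < 4, i ≠ j → E.setOf (q4 c i) ≠ E.setOf (q4 c j) := fun i hi j hj hne e => by
    have := (h2 i hi j hj hne).1
    rw [e, Finset.union_self, h1 j hj] at this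
    omega
  refine ⟨?_, fun t ht => ?_, fun t ht u hu hne => ?_⟩
  · rw [fam4, Finset.card_insert_of_notMem, Finset.card_insert_of_notMem, Finset.card_pair]
    all_goals simp [h3]
  · obtain ⟨i, hi, rfl⟩ := mem_fam4.1 ht
    exact ⟨h1 i hi, (E.setOf_subset_iff (q4_lt _ _)).2 (h i hi).1.2⟩
  · obtain ⟨i, hi, rfl⟩ := mem_fam4.1 ht
    obtain ⟨j, hj, rfl⟩ := mem_fam4.1 hu
    exact h2 i hi j hj fun e => hne (e ▸ rfl)

/-- The standard quartet of `D0`. -/
def Q0 : ℕ := 42312495938246857294086151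

theorem Q0_mem : fam4 Q0 ∈ quartets (E.setOf D0) := fam4_mem (by decide +kernel)

theorem fam4_Q0 : fam4 Q0 = {E.setOf 7, E.setOf 4120, E.setOf 327744, E.setOf 8960} := by
  rw [fam4, show q4 Q0 0 = 7 by decide +kernel, show q4 Q0 1 = 4120 by decide +kernel,
    show q4 Q0 2 = 327744 by decide +kernel, show q4 Q0 3 = 8960 by decide +kernel]

theorem third_check : allLt2 (fun k => force (Nat.land (cw k) D0) fun h =>
    !(Nat.beq (pc24 h) 6 && Nat.beq (Nat.land h 7) 7 && Nat.beq (pc24 (cw k)) 8) ||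
      force (Nat.xor h 7) fun v => Nat.beq v 327744 || Nat.beq v 8960 ||
        allLt2 (fun k' => !(Nat.beq (Nat.land (cw k') D0) (Nat.lor 4120 v) &&
          Nat.beq (pc24 (cw k')) 8)) 64 64) 64 64 = true := by
  decide +kernel

theorem third_triple {v : Finset GolayPt} (hv : v.card = 3)
    (h1 : E.setOf 7 ∪ v ∈ hexadsOn (E.setOf D0)) (h2 : E.setOf 4120 ∪ v ∈ hexadsOn (E.setOf D0)) :
    v = E.setOf 327744 ∨ v = E.setOf 8960 := by
  have hd := disjoint_of_union_hexad (by decide +kernel) hv h1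
  obtain ⟨h6, o, ho, e⟩ := h1
  obtain ⟨-, o', ho', e'⟩ := h2
  obtain ⟨k, hk, rfl⟩ := mem_code_iff.1 ho.1
  obtain ⟨k', hk', rfl⟩ := mem_code_iff.1 ho'.1
  obtain ⟨m, hm, rfl⟩ := E.exists_setOf v
  have hlt : ∀ j < 4096, cw j &&& D0 < 2 ^ 24 := fun j hj => Nat.and_le_left.trans_lt (cw_lt hj)
  rw [← E.setOf_and, ← E.setOf_or] at e e'
  rw [← E.setOf_or, ← e, Golay.card_setOf] at h6
  rw [E.setOf_inj (hlt _ hk) (Nat.or_lt_two_pow (by norm_num) hm)] at e
  rw [E.setOf_inj (hlt _ hk') (Nat.or_lt_two_pow (by norm_num) hm)] at e'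
  rw [E.disjoint_setOf_iff (by norm_num)] at hd
  have e1 : (7 ||| m) &&& 7 = 7 := Nat.eq_of_testBit_eq fun i => by
    simp only [Nat.testBit_and, Nat.testBit_or]
    cases Nat.testBit 7 i <;> simp
  have e2 : (7 ||| m) ^^^ 7 = m := Nat.eq_of_testBit_eq fun i => by
    have := congrArg (·.testBit i) hd
    simp only [Nat.testBit_and, Nat.zero_testBit] at this
    simp only [Nat.testBit_xor, Nat.testBit_or]
    revert this
    cases Nat.testBit 7 i <;> cases Nat.testBit m i <;> simp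
  have := allLt2_iff.1 third_check k hk
  simp only [force_eq, Bool.or_eq_true, Bool.not_eq_true', ← Bool.not_eq_true, Bool.and_eq_true,
    Nat.beq_eq, allLt2_iff] at this
  change ¬ ((pc24 (cw k &&& D0) = 6 ∧ (cw k &&& D0) &&& 7 = 7) ∧ pc24 (cw k) = 8) ∨
    ((cw k &&& D0) ^^^ 7 = 327744 ∨ (cw k &&& D0) ^^^ 7 = 8960) ∨
      ∀ i < 64 * 64, ¬ (cw i &&& D0 = 4120 ||| ((cw k &&& D0) ^^^ 7) ∧ pc24 (cw i) = 8) at this
  rw [h6, e, e1, e2] at this
  rcases this with h | (h | h) | h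
  · exact absurd ⟨⟨rfl, rfl⟩, (Golay.card_setOf _).symm.trans ho.2⟩ h
  · exact Or.inl (congrArg _ h)
  · exact Or.inr (congrArg _ h)
  · exact absurd ⟨e', (Golay.card_setOf _).symm.trans ho'.2⟩ (h k' hk')

theorem eq_Q0 {Q : Finset (Finset GolayPt)} (hQ : Q ∈ quartets (E.setOf D0)) (h1 : E.setOf 7 ∈ Q)
    (h2 : E.setOf 4120 ∈ Q) : Q = fam4 Q0 := by
  refine Finset.eq_of_subset_of_card_le (fun v hv => ?_) (by rw [hQ.1, Q0_mem.1])
  rw [fam4_Q0]
  simp only [Finset.mem_insert, Finset.mem_singleton]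
  by_cases e1 : E.setOf 7 = v
  · exact Or.inl e1.symm
  by_cases e2 : E.setOf 4120 = v
  · exact Or.inr (Or.inl e2.symm)
  exact Or.inr (Or.inr (third_triple (hQ.2.1 v hv).1 (hQ.2.2 _ h1 _ hv e1) (hQ.2.2 _ h2 _ hv e2)))

/-- Two triples uniting to a hexad can be moved to standard position. -/
theorem exists_smul_triples {d t u : Finset GolayPt} (hd : d ∈ dodecads) (ht : t.card = 3)
    (hu : u.card = 3) (hh : t ∪ u ∈ hexadsOn d) :
    ∃ a ∈ M24, a • E.setOf D0 = d ∧ a • E.setOf 7 = t ∧ a • E.setOf 4120 = u := by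
  have htu := disjoint_of_union_hexad ht hu hh
  obtain ⟨x, y, z, hxy, hxz, hyz, rfl⟩ := Finset.card_eq_three.1 ht
  obtain ⟨p, q, r, hpq, -, -, hu'⟩ := Finset.card_eq_three.1 hu
  have hp : p ∈ u := by simp [hu']
  have hq : q ∈ u := by simp [hu']
  have hp' := Finset.disjoint_right.1 htu hp
  have hq' := Finset.disjoint_right.1 htu hq
  simp only [Finset.mem_insert, Finset.mem_singleton, not_or] at hp' hq'
  have hs := hexad_subset hh
  obtain ⟨a, ha, e1, e⟩ := exists_smul_tuple D0_mem hd le_rfl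
    ![E.dec 0, E.dec 1, E.dec 2, E.dec 3, E.dec 4] ![x, y, z, p, q] (by decide +kernel)
    (by decide +kernel) (List.nodup_ofFn.1 (by
      simp [hxy, hxz, hyz, hpq, Ne.symm hp'.1, Ne.symm hp'.2.1, Ne.symm hp'.2.2, Ne.symm hq'.1,
        Ne.symm hq'.2.1, Ne.symm hq'.2.2]))
    (fun i => hs (by fin_cases i <;> simp [hp, hq]))
  have e2 : a • E.setOf 7 = {x, y, z} := by
    rw [show E.setOf 7 = {E.dec 0, E.dec 1, E.dec 2} by decide +kernel, Finset.smul_finset_insert,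
      Finset.smul_finset_insert, Finset.smul_finset_singleton, ← show a (E.dec 0) = x from e 0,
      ← show a (E.dec 1) = y from e 1, ← show a (E.dec 2) = z from e 2]
    rfl
  refine ⟨a, ha, e1, e2, ?_⟩
  have h1 := smul_mem_hexadsOn ha (hexad_of_isHex (m := 4127) (by decide +kernel))
  rw [e1] at h1
  have h2 : a • E.setOf 4127 = {x, y, z} ∪ u := by
    refine hexad_eq_of_le_card_inter h1 hh ?_
    have h3 : (a • E.setOf 31).card = 5 := (Finset.card_smul_finset _ _).trans (by decide +kernel)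
    rw [← h3]
    refine Finset.card_le_card (Finset.subset_inter
      (Finset.smul_finset_subset_smul_finset (by decide +kernel)) fun w hw => ?_)
    obtain ⟨w', hw', rfl⟩ := Finset.mem_smul_finset.1 hw
    obtain ⟨i, rfl⟩ := (by decide +kernel : ∀ w ∈ E.setOf 31, ∃ i,
      ![E.dec 0, E.dec 1, E.dec 2, E.dec 3, E.dec 4] i = w) w' hw'
    rw [Equiv.Perm.smul_def, e]
    fin_cases i <;> simp [hp, hq]
  rw [show E.setOf 4120 = E.setOf 4127 \ E.setOf 7 by decide +kernel, Finset.smul_finset_sdiff, h2,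
    e2, Finset.union_sdiff_cancel_left htu]

theorem existsUnique_quartet {d t u : Finset GolayPt} (hd : d ∈ dodecads) (ht : t.card = 3)
    (hu : u.card = 3) (hh : t ∪ u ∈ hexadsOn d) : ∃! Q, Q ∈ quartets d ∧ t ∈ Q ∧ u ∈ Q := by
  obtain ⟨a, ha, rfl, rfl, rfl⟩ := exists_smul_triples hd ht hu hh
  refine ⟨a • fam4 Q0, ⟨smul_mem_quartets ha Q0_mem, Finset.smul_mem_smul_finset (by simp [fam4_Q0]),
    Finset.smul_mem_smul_finset (by simp [fam4_Q0])⟩, fun Q hQ => ?_⟩
  rw [← inv_smul_eq_iff]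
  exact eq_Q0 ((smul_mem_quartets_iff ha).1 (by rw [smul_inv_smul]; exact hQ.1))
    (Finset.mem_inv_smul_finset_iff.2 hQ.2.1) (Finset.mem_inv_smul_finset_iff.2 hQ.2.2)

/-- Every quartet can be moved to standard position. -/
theorem exists_smul_quartet {d : Finset GolayPt} {Q : Finset (Finset GolayPt)} (hd : d ∈ dodecads)
    (hQ : Q ∈ quartets d) : ∃ a ∈ M24, a • E.setOf D0 = d ∧ a • fam4 Q0 = Q := by
  obtain ⟨t, ht, u, hu, hne⟩ := Finset.one_lt_card.1 (show 1 < Q.card by rw [hQ.1]; norm_num)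
  obtain ⟨a, ha, rfl, rfl, rfl⟩ := exists_smul_triples hd (hQ.2.1 t ht).1 (hQ.2.1 u hu).1
    (hQ.2.2 t ht u hu hne)
  refine ⟨a, ha, rfl, ?_⟩
  rw [eq_comm, ← inv_smul_eq_iff]
  exact eq_Q0 ((smul_mem_quartets_iff ha).1 (by rwa [smul_inv_smul]))
    (Finset.mem_inv_smul_finset_iff.2 ht) (Finset.mem_inv_smul_finset_iff.2 hu)

theorem orbit_Q0 : orbit (St (E.setOf D0)) (fam4 Q0) = quartets (E.setOf D0) := by
  ext Q
  constructor
  · rintro ⟨g, rfl⟩
    have := smul_mem_quartets g.2.1 Q0_mem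
    rwa [show (g : Equiv.Perm GolayPt) • E.setOf D0 = E.setOf D0 from g.2.2] at this
  · intro hQ
    obtain ⟨a, ha, h1, h2⟩ := exists_smul_quartet D0_mem hQ
    exact ⟨⟨a, ha, h1⟩, h2⟩

/-- The stabiliser of the standard quartet. -/
abbrev GQ : Subgroup (Equiv.Perm GolayPt) :=
  St (E.setOf D0) ⊓ stabilizer (Equiv.Perm GolayPt) (fam4 Q0)

/-- Strong generators of `GQ` for the base `0, 1, 3, 4`. -/
def sgsQ : List ℕ := [970499966350631336865513127433832480, 487607080158395075740321133224921120, 984769902586367543974814854303385632, 809295211412880799543496580361749568, 940403409124245240054241821826756739]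

theorem sgsQ_in : ∀ P ∈ sgsQ, I GQ P := fun P hP => by
  obtain ⟨g, hg, hr⟩ := in_St_of_lall (n := D0) (by decide +kernel) P hP
  refine ⟨g, ⟨hg, ?_⟩, hr⟩
  refine Finset.eq_of_subset_of_card_le (fun t ht => ?_) (Finset.card_smul_finset _ _).ge
  rw [smul_fam4 hr, mem_fam4] at ht
  obtain ⟨i, hi, rfl⟩ := ht
  obtain ⟨j, hj, e⟩ := (by decide +kernel :
    ∀ P ∈ sgsQ, ∀ i < 4, ∃ j < 4, q4 Q0 j = q4 (img4 P Q0) i) P hP i hi
  exact mem_fam4.2 ⟨j, hj, congrArg _ e⟩

theorem sgsQ_chain : PC.chainOK 5 31 24 [(0, 12), (1, 2), (3, 9), (4, 2)] sgsQ = true := by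
  decide +kernel

theorem ncard_quartets_card_GQ : (quartets (E.setOf D0)).ncard = 220 ∧ Nat.card GQ = 432 := by
  have h1 := card_eq_orbit_mul (St (E.setOf D0)) (fam4 Q0)
  obtain ⟨S, n, hk, -, h2, -⟩ := (coded_fam4 gens_in).orb_le (H := St (E.setOf D0)) (c0 := Q0)
    (fuel := 230) (k := fun _ n => Nat.ble 220 n)
    (fun _ hj => (gens_in _ (lget_mem hj)).permOf_mem) trivial (Set.toFinite _) (by decide +kernel)
  have h3 : 220 ≤ _ := (Nat.le_of_ble_eq_true hk).trans h2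
  have h4 : 432 ≤ Nat.card GQ := chain_le sgsQ_in sgsQ_chain
  rw [card_St D0_mem] at h1
  rw [← orbit_Q0]
  constructor <;> nlinarith

theorem card_GQ : Nat.card GQ = 432 := ncard_quartets_card_GQ.2

theorem famHash_injOn : Set.InjOn famHash (quartets (E.setOf D0)) :=
  ((coded_fam4 gens_in).orbit_eq_of_count (H := St (E.setOf D0)) (c0 := Q0) (N := 220) (fuel := 230)
    (fun _ hj => (gens_in _ (lget_mem hj)).permOf_mem) trivial (Set.toFinite _) orbit_Q0.le
    ncard_quartets_card_GQ.1.le (by decide +kernel)).2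

theorem GQ_eq_gen : GQ = grp sgsQ := (eq_gen_of_chain sgsQ_in sgsQ_chain card_GQ.le).1

theorem conj_mem_GQ_iff (a g : M24) : a * g * a⁻¹ ∈ stabilizer M24 (a • E.setOf D0) ⊓
    stabilizer M24 (a • fam4 Q0) ↔ (g : Equiv.Perm GolayPt) ∈ GQ := by
  simp only [Subgroup.mem_inf, Graph.conj_mem_stabilizer, g.2, true_and]
  rfl

end CL.M12
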