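import Mathlib
import Cfsg.Agent.SPOR.GolayIdx

/-! Subgroups of the Mathieu groups containing elements of order 11 and 23. -/

set_option autoImplicit false
set_option maxRecDepth 20000

namespace CL.Golay.Idx

open Finset Cfsg CL.K CL.Orb CL.Enc MulAction
open scoped Pointwise

instance fact11 : Fact (Nat.Prime 11) := ⟨by norm_num⟩
instance fact23 : Fact (Nat.Prime 23) := ⟨by norm_num⟩

/-- translation -/
abbrev tA : Pm := Equiv.optionCongr (Equiv.addRight (1 : ZMod 23))
/-- the unit two -/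
def u2 : (ZMod 23)ˣ := ⟨2, 12, by decide, by decide⟩
/-- multiplication by two -/
abbrev tU : Pm := Equiv.optionCongr (Units.mulLeft u2)

theorem u2_sq : IsSquare u2 := ⟨⟨5, 14, by decide, by decide⟩, Units.ext (by decide)⟩
theorem R_U : R tU (cMul 2) := R_mulLeft u2
theorem tU_mem : tU ∈ M24 := mulLeft_mem u2 u2_sq
theorem ord_U : orderOf tU = 11 := R_U.orderOf_eq_prime (by decide +kernel)
theorem ord_A : orderOf tA = 23 := R_transl.orderOf_eq_prime (by decide +kernel)
/-- a conjugating element -/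
def cV : ℕ := 0xb96b10d12e11150999071b16d959e0
theorem cV_in : I M24 cV := I.of_okM (by decide +kernel)
theorem R_V : R (pm cV * tU * (pm cV)⁻¹) 0xbb42a2b12fb20f034a74746ab20c40 :=
  (by decide +kernel : conj24 cV (cMul 2) = 0xbb42a2b12fb20f034a74746ab20c40) ▸ R.conj cV_in.rep R_U
theorem ord_V : orderOf (pm cV * tU * (pm cV)⁻¹) = 11 := R_V.orderOf_eq_prime (by decide +kernel)
theorem card_Nrm_U : Nat.card (Nrm tU) = 110 := by
  rw [← ConjTo.card_Nrm ⟨_, cV_in.permOf_mem, rfl⟩, card_Nrm_eq R_V ord_V]; decide +kernel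
theorem card_Nrm_A : Nat.card (Nrm tA) = 253 := by
  rw [card_Nrm_eq R_transl ord_A]; decide +kernel

theorem lv23 : Lv (M24 ⊓ stabilizer Pm (none : GolayPt)) lv1 [] :=
  Lv.ofM (p := fun P => Nat.beq (app24 P 23) 23)
    (fun _ h e => h.stabilizer (b := 23) (by norm_num) (Nat.eq_of_beq_eq_true e)) (by decide +kernel)
    ((card_stabilizer_of_orbit (n := 24) (k := 10200960) (by
      rw [Set.eq_univ_of_forall (s := orbit M24 (none : GolayPt)) fun p =>
        let ⟨g, a, b⟩ := exists_map_pt none p; ⟨⟨g, a⟩, b⟩, Set.ncard_univ, Nat.card_eq_fintype_card, card_pt])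
      (by norm_num) card_M24).trans_le (by decide +kernel))

theorem card_N23 : Nat.card ↥(Nrm tU ⊓ stabilizer Pm (none : GolayPt)) = 55 := by
  have h : pm cV ∈ stabilizer Pm (none : GolayPt) := (cV_in.stabilizer (b := 23) (by norm_num) rfl).permOf_mem.2
  rw [← card_conj_eq (K := Nrm (pm cV * tU * (pm cV)⁻¹) ⊓ stabilizer Pm (none : GolayPt)) (pm cV) fun g =>
    Subgroup.mem_inf.trans ((and_congr (mem_Nrm_conj cV_in.permOf_mem) (mem_conj_iff h g).symm).trans
      Subgroup.mem_inf.symm), card_eq_ncard fun g => Subgroup.mem_inf.trans ((and_congr_left' mem_Nrm).trans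
      (and_right_comm.trans (and_congr_left' Subgroup.mem_inf.symm))), ncard_norm lv23 R_V ord_V]
  decide +kernel

variable {K : Subgroup Pm}

theorem fact_one {n m p : ℕ} [Fact p.Prime] (h : n ∣ m) (h1 : p ∣ n) (h2 : m.factorization p = 1) :
    n.factorization p = 1 := by
  have hm : m ≠ 0 := fun e => by simp [e] at h2
  have hn : n ≠ 0 := fun e => hm (by simpa [e] using h)
  exact le_antisymm (h2 ▸ Nat.factorization_le_factorization_of_dvd_right h hn hm)
    ((Fact.out : p.Prime).factorization_pos_of_dvd hn h1)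

theorem eq_M23 (hK : K ≤ M24 ⊓ stabilizer Pm (none : GolayPt)) (hA : tA ∈ K) (hU : tU ∈ K) (h : Nrm tA ≤ K) :
    Nat.card K = 253 ∨ Nat.card K = 10200960 := by
  have hM := hK.trans inf_le_left
  have d := Subgroup.card_dvd_of_le hM
  obtain ⟨n, h1, h2⟩ := sylow_count hA ord_A
    (fact_one d (ord_A ▸ K.orderOf_dvd_natCard hA) factorization_card_M24.2.2.2.1)
  obtain ⟨m, h3, h4⟩ := sylow_count hU ord_U
    (fact_one d (ord_U ▸ K.orderOf_dvd_natCard hU) factorization_card_M24.2.2.1)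
  rw [show K ⊓ _ = Nrm tA from (inf_le_inf_right _ hM).antisymm (le_inf h inf_le_right), card_Nrm_A] at h2
  have h5 := (Subgroup.card_dvd_of_le (le_inf (inf_le_inf_right _ hM) (inf_le_left.trans
    (hK.trans inf_le_right)))).trans card_N23.dvd
  have h6 := (Subgroup.card_dvd_of_le (stab_le le_rfl none)).trans (card_Fix_one _).dvd
  have h7 : n ∣ 40320 := Nat.dvd_of_mul_dvd_mul_right (k := 253) (by norm_num)
    (h2 ▸ (Subgroup.card_dvd_of_le hK).trans h6)
  have key : ∀ a < 1754, 23 * a + 1 ∣ 40320 → ∀ c ∈ Nat.divisors 55, (23 * a + 1) * 253 / c % 11 = 1 →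
      c ∣ (23 * a + 1) * 253 → a = 0 ∨ a = 1753 := by decide +kernel
  have h8 := Nat.le_of_dvd (by norm_num) h7
  obtain ⟨a, rfl⟩ : ∃ a, n = 23 * a + 1 := ⟨n / 23, by rw [Nat.ModEq] at h1; omega⟩
  rcases key a (by omega) h7 _ (Nat.mem_divisors.2 ⟨h5, by norm_num⟩) (by
    rw [← h2, h4, Nat.mul_div_cancel _ Nat.card_pos]; exact h3) (by rw [← h2, h4]; exact dvd_mul_left _ _) with
    e | e <;> simp [h2, e]

theorem exists_conj_U (hK : K ≤ M24) (h : 11 ∣ Nat.card K) : ∃ k ∈ M24, k * tU * k⁻¹ ∈ K := by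
  obtain ⟨g, hg, g11⟩ := exists_ord K 11 h
  obtain ⟨k, e⟩ := exists_conj_zpowers factorization_card_M24.2.2.1 (t := ⟨tU, tU_mem⟩)
    (by rw [← Subgroup.orderOf_coe]; exact ord_U) (S := Subgroup.zpowers ⟨g, hK hg⟩)
    (by rw [Nat.card_zpowers, ← Subgroup.orderOf_coe]; exact g11)
  obtain ⟨i, hi⟩ := e.le (Subgroup.mem_zpowers _)
  have : g ^ i = k * tU * (k : Pm)⁻¹ := congrArg Subtype.val hi
  exact ⟨k, k.2, this ▸ K.zpow_mem hg i⟩

theorem ne_2112 (hK : K ≤ M24) : Nat.card K ≠ 2112 := fun h => by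
  obtain ⟨k, hk, hU⟩ := exists_conj_U hK (by rw [h]; norm_num)
  obtain ⟨m, h3, h4⟩ := sylow_count hU (((MulAut.conj k).orderOf_eq tU).trans ord_U)
    (fact_one (Subgroup.card_dvd_of_le hK) (by rw [h]; norm_num) factorization_card_M24.2.2.1)
  have h5 := (Subgroup.card_dvd_of_le (inf_le_inf_right _ hK)).trans
    ((ConjTo.card_Nrm ⟨k, hk, rfl⟩).trans card_Nrm_U).dvd
  have key : ∀ c ∈ Nat.divisors 110, c ∣ 2112 → 2112 / c % 11 ≠ 1 := by decide +kernel
  exact key _ (Nat.mem_divisors.2 ⟨h5, by norm_num⟩) (by rw [← h, h4]; exact dvd_mul_left _ _) (by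
    rw [← h, h4, Nat.mul_div_cancel _ Nat.card_pos]; exact h3)

/-- the point `1` lies on a cycle of length 7 -/
def C7 (w : Pm) : Prop := w (some 1) ≠ some 1 ∧ w (w (w (w (w (w (w (some 1))))))) = some 1
/-- the same on tables -/
noncomputable def c7 (f : ℕ → ℕ) : Bool := force (f 1) fun a => !Nat.beq a 1 && Nat.beq (f (f (f (f (f (f a)))))) 1
/-- tables of the powers of `tU` -/
def UL : List ℕ := [0xbdab49ca307b9ac5a928398a418820, 0xbd6717b56939461b52507314831040, 0xbcdeb38ed2728c2ac5a92869062080, 0xbbcf671aad2d1849ac7250a290c100, 0xb9dd52b263544287d8cda117212600, 0xbb8b3505e6a2c503d5838a2cd24920, 0xb954fa08ec8d88974c265c2a343640, 0xbaa87891c15d5122bc4cb266680da0, 0xbd22e5a0a2b4e0d51c81ac9ec49860, 0xbc565b4144abd23a39029b4e1930c0, 0xbaecaaa68899e468960478dc268580]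
/-- no test word has a cycle of length 7 -/
noncomputable def q7 (P : ℕ) : Bool :=
  allLt (fun i => force (lget UL i) fun V => !c7 fun a => app24 P (app24 V a)) 11 &&
    allLt (fun i => force (lget UL i) fun V => !c7 fun a =>
      app24 P (app24 (lget UL 1) (app24 P (app24 (lget UL 2) (app24 P (app24 V a)))))) 11

theorem q7_count : sumP24 PC.cTrue (fun P => when (q7 P) 1) lv3 [1, 0, 23] one24 ≤ 329 := by decide +kernel

theorem c7_iff {w : Pm} {f : ℕ → ℕ} (h : ∀ p, E.enc (w p) = f (E.enc p)) : c7 f = true ↔ C7 w := by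
  have e : E.enc (some 1) = 1 := rfl
  rw [c7, force_eq, ← e, ← h, ← h, ← h, ← h, ← h, ← h, ← h]
  simp [C7, ← Bool.not_eq_true, E.enc_injective.eq_iff]

theorem C7.dvd {w : Pm} (h : C7 w) : 7 ∣ orderOf w := by
  have : Fact (Nat.Prime 7) := ⟨by norm_num⟩
  rw [← Function.minimalPeriod_eq_prime (f := w) (p := 7) (x := some 1) h.2 h.1]
  refine Function.IsPeriodicPt.minimalPeriod_dvd ?_
  rw [Function.IsPeriodicPt, Equiv.Perm.iterate_eq_pow, pow_orderOf_eq_one]
  rfl

theorem R_UL {i : ℕ} (hi : i < 11) : R (tU ^ i) (lget UL i) :=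
  (by decide +kernel : ∀ i < 11, pow24 (cMul 2) i = lget UL i) i hi ▸ R_U.pow i

theorem ne_7920 (hK : K ≤ M24) (hU : tU ∈ K) (hf : ∀ g ∈ K, g none = none ∧ g (some 0) = some 0) :
    Nat.card K ≠ 7920 := fun h => by
  have h1 := lvl3.count1 (c := PC.cTrue) (p := fun g => (∀ i < 11, ¬ C7 (g * tU ^ i)) ∧
      ∀ i < 11, ¬ C7 (g * (tU ^ 1 * (g * (tU ^ 2 * (g * tU ^ i))))))
    (Snd.cTrue _) (q := fun P => when (q7 P) 1) fun g P hP => when_spec (by
      rw [q7, Bool.and_eq_true, allLt_iff, allLt_iff]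
      refine and_congr (forall₂_congr fun i hi => ?_) (forall₂_congr fun i hi => ?_) <;>
        rw [force_eq, Bool.not_eq_true', ← Bool.not_eq_true, c7_iff fun p => ?_] <;>
        simp only [Equiv.Perm.mul_apply, hP _, R_UL hi _, R_UL (i := 1) (by norm_num) _,
          R_UL (i := 2) (by norm_num) _, app24_eq])
  have h2 := card_ob K (some 1)
  have h3 : ∀ w ∈ K, ¬ C7 w := fun w a b => absurd (h ▸ b.dvd.trans (K.orderOf_dvd_natCard a)) (by norm_num)
  have h4 : Nat.card ↥(K ⊓ stabilizer Pm (some 1 : GolayPt)) ≤ 329 := by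
    rw [card_eq_ncard fun _ => Iff.rfl]
    refine ((Set.ncard_le_ncard fun g hg => ?_).trans_eq h1).trans q7_count
    have a := hg.1
    have b := pow_mem hU
    exact ⟨hK a, List.forall_mem_cons.2 ⟨hg.2, List.forall_mem_cons.2 ⟨(hf g a).2, List.forall_mem_singleton.2
      (hf g a).1⟩⟩, fun i _ => h3 _ (mul_mem a (b i)),
      fun i _ => h3 _ (mul_mem a (mul_mem (b 1) (mul_mem a (mul_mem (b 2) (mul_mem a (b i))))))⟩
  have := h.symm.trans_le (h2.trans_le (Nat.mul_le_mul (card_le24 _) h4))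
  norm_num at this

end CL.Golay.Idx
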