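import Cfsg.Prelude.Def_SporadicCombinatorics
import Cfsg.Agent.SPOR.F4
import Cfsg.Agent.SPOR.Chain

set_option autoImplicit false

namespace CL.Hexa
open Cfsg

/-- The three parity checks of the hexacode. -/
def Chk {F : Type*} [Field F] (ω : F) (x : Fin 6 → F) : Prop :=
  x 3 = x 0 + x 1 + x 2 ∧ x 4 = ω ^ 2 * x 0 + ω * x 1 + x 2 ∧ x 5 = ω * x 0 + ω ^ 2 * x 1 + x 2

instance instDecidableChk {F : Type*} [Field F] [DecidableEq F] (ω : F) (x : Fin 6 → F) :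
    Decidable (Chk ω x) := by unfold Chk; infer_instance

section general
variable {F : Type*} [Field F]

theorem mem_iff (h2 : (2 : F) = 0) {ω : F} (hω : ω ^ 2 + ω + 1 = 0) (x : Fin 6 → F) :
    x ∈ hexacode F ω ↔ Chk ω x := by
  rw [hexacode, Submodule.mem_span_triple]
  constructor
  · rintro ⟨a, b, c, rfl⟩
    refine ⟨?_, ?_, ?_⟩ <;> simp <;> grind
  · rintro ⟨h3, h4, h5⟩
    refine ⟨ω * x 0 + ω ^ 2 * x 1, ω ^ 2 * x 0 + ω ^ 2 * x 1 + x 2, x 1 + x 2, ?_⟩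
    funext i
    fin_cases i <;> simp <;> grind

/-- Systematic encoder. -/
def enc (ω : F) (u : F × F × F) : Fin 6 → F :=
  ![u.1, u.2.1, u.2.2, u.1 + u.2.1 + u.2.2, ω ^ 2 * u.1 + ω * u.2.1 + u.2.2,
    ω * u.1 + ω ^ 2 * u.2.1 + u.2.2]

theorem chk_enc (ω : F) (u : F × F × F) : Chk ω (enc ω u) := ⟨rfl, rfl, rfl⟩

theorem chk_iff (ω : F) (x : Fin 6 → F) : Chk ω x ↔ ∃ u, enc ω u = x := by
  constructor
  · rintro ⟨h3, h4, h5⟩
    refine ⟨(x 0, x 1, x 2), ?_⟩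
    funext i
    fin_cases i <;> simp [enc, h3, h4, h5]
  · rintro ⟨u, rfl⟩; exact chk_enc ω u

theorem enc_injective (ω : F) : Function.Injective (enc ω) := by
  rintro ⟨a, b, c⟩ ⟨a', b', c'⟩ h
  have h0 : a = a' := congrFun h 0
  have h1 : b = b' := congrFun h 1
  have h2 : c = c' := congrFun h 2
  rw [h0, h1, h2]

theorem chk_map {K : Type*} [Field K] (φ : K ≃+* F) (ω : K) (x : Fin 6 → K) :
    Chk (φ ω) (fun i => φ (x i)) ↔ Chk ω x := by
  simp only [Chk, ← map_pow, ← map_mul, ← map_add, φ.injective.eq_iff]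

/-- Preservation of the code can be tested on a basis. -/
theorem chk_of_basis (ω : F) (f : Fin 6 → Fin 6) (c : Fin 6 → F)
    (h0 : Chk ω fun i => c i * enc ω (1, 0, 0) (f i))
    (h1 : Chk ω fun i => c i * enc ω (0, 1, 0) (f i))
    (h2 : Chk ω fun i => c i * enc ω (0, 0, 1) (f i)) {x : Fin 6 → F} (hx : Chk ω x) :
    Chk ω fun i => c i * x (f i) := by
  obtain ⟨⟨a, b, d⟩, rfl⟩ := (chk_iff ω x).1 hx
  have : ∀ j, enc ω (a, b, d) j =
      a * enc ω (1, 0, 0) j + b * enc ω (0, 1, 0) j + d * enc ω (0, 0, 1) j := by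
    intro j
    fin_cases j <;> simp [enc] <;> ring
  simp only [Chk, this] at h0 h1 h2 ⊢
  refine ⟨?_, ?_, ?_⟩
  · linear_combination a * h0.1 + b * h1.1 + d * h2.1
  · linear_combination a * h0.2.1 + b * h1.2.1 + d * h2.2.1
  · linear_combination a * h0.2.2 + b * h1.2.2 + d * h2.2.2

end general

/-- The basis test over the concrete field. -/
def Tst (f : Fin 6 → Fin 6) (c : Fin 6 → F4) : Prop :=
  (Chk F4.w fun i => c i * enc F4.w (1, 0, 0) (f i)) ∧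
  (Chk F4.w fun i => c i * enc F4.w (0, 1, 0) (f i)) ∧
  (Chk F4.w fun i => c i * enc F4.w (0, 0, 1) (f i))

instance instDecidableTst (f : Fin 6 → Fin 6) (c : Fin 6 → F4) : Decidable (Tst f c) := by
  unfold Tst; infer_instance

theorem tst_iff (f : Fin 6 → Fin 6) (c : Fin 6 → F4) :
    Tst f c ↔ ∀ x, Chk F4.w x → Chk F4.w fun i => c i * x (f i) :=
  ⟨fun h _ hx => chk_of_basis _ f c h.1 h.2.1 h.2.2 hx,
    fun h => ⟨h _ (chk_enc _ _), h _ (chk_enc _ _), h _ (chk_enc _ _)⟩⟩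

end CL.Hexa
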