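/-
Recognition of Suz as a rank 3 group: the subgroups of index 416 of the point stabiliser.
-/
import Cfsg.Agent.SPOR.SuzR1
import Cfsg.Agent.SPOR.A10.NetFix

set_option autoImplicit false
set_option maxRecDepth 100000
set_option exponentiation.threshold 4000

namespace CL.SuzR

open CL.CE CL.K CL.Net CL.Suz MulAction Subgroup Pointwise

theorem ncard_modEq {r : ℕ} [Fact r.Prime] {P : Subgroup Pm} (hP : IsPGroup r P) {S : Set ℕ} (hf : S.Finite)
    (hS : ∀ u ∈ P, ∀ x ∈ S, u x ∈ S) : S.ncard ≡ {x ∈ S | ∀ u ∈ P, u x = x}.ncard [MOD r] := by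
  let A : SubMulAction P ℕ := ⟨S, fun u x hx => hS u u.2 x hx⟩
  have : Finite A := hf
  have h := hP.card_modEq_card_fixedPoints A
  rw [Nat.card_coe_set_eq (fixedPoints P A), ← Set.ncard_image_of_injective _ Subtype.val_injective] at h
  rwa [show Subtype.val '' fixedPoints P A = {x ∈ S | ∀ u ∈ P, u x = x} from Set.ext fun x =>
    ⟨fun ⟨y, hy, e⟩ => e ▸ ⟨y.2, fun u hu => congrArg Subtype.val (hy ⟨u, hu⟩)⟩,
      fun hx => ⟨⟨x, hx.1⟩, fun u => Subtype.ext (hx.2 u u.2), rfl⟩⟩] at h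

theorem ncard_mod {r t : ℕ} [Fact r.Prime] {W B : Subgroup Pm} [Finite B] (hW : W ≤ B) (hr : r ^ t ∣ Nat.card W)
    {S : Set ℕ} (hf : S.Finite) (hS : ∀ u ∈ W, ∀ x ∈ S, u x ∈ S) {z : ℕ} (hz : z ∈ S) (hz' : ∀ u ∈ W, u z = z)
    (h : ∀ x ∈ S, x ≠ z → ¬ r ^ t ∣ Nat.card ↥(B ⊓ stabilizer Pm x)) : S.ncard ≡ 1 [MOD r] := by
  have : Finite W := Finite.of_injective _ (inclusion_injective hW)
  obtain ⟨P, hP⟩ := Sylow.exists_subgroup_card_pow_prime r hr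
  rw [← card_map_of_injective W.subtype_injective] at hP
  have h1 := map_subtype_le P
  have h2 := ncard_modEq (IsPGroup.of_card hP) hf fun u hu => hS u (h1 hu)
  rwa [show {x ∈ S | ∀ u ∈ P.map W.subtype, u x = x} = {z} from Set.eq_singleton_iff_unique_mem.2
    ⟨⟨hz, fun u hu => hz' u (h1 hu)⟩, fun x hx => by_contra fun e =>
      h x hx.1 e (hP ▸ card_dvd_of_le (le_inf (h1.trans hW) hx.2))⟩, Set.ncard_singleton] at h2

theorem exists_conj {r : ℕ} [Fact r.Prime] {M T P : Subgroup Pm} [Finite M] (hi : ¬ r ∣ T.relIndex M) (hP : P ≤ M)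
    (hp : IsPGroup r P) : ∃ k ∈ M, ∀ x ∈ P, k⁻¹ * x * k ∈ T := by
  obtain ⟨c, hc⟩ := (hp.of_equiv (subgroupOfEquivOfLe hP).symm).nonempty_fixed_point_of_prime_not_dvd_card
    (M ⧸ T.subgroupOf M) hi
  obtain ⟨k, rfl⟩ := QuotientGroup.mk_surjective c
  refine ⟨k, k.2, fun x hx => ?_⟩
  have := QuotientGroup.eq.1 (show ((⟨x, hP hx⟩ * k : M) : M ⧸ T.subgroupOf M) = k from hc ⟨⟨x, hP hx⟩, hx⟩).symm
  simpa [mem_subgroupOf, mul_assoc] using this

theorem smul_mem_orb {W : Subgroup Pm} {z : ℕ} : ∀ u ∈ W, ∀ x ∈ orbit W z, u x ∈ orbit W z :=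
  fun u hu _ hx => mem_orbit_of_mem_orbit (⟨u, hu⟩ : W) hx

theorem orb_mono {W B : Subgroup Pm} (h : W ≤ B) (z : ℕ) : orbit W z ⊆ orbit B z :=
  fun _ ⟨u, e⟩ => ⟨⟨u, h u.2⟩, e⟩

theorem card_inf {B : Subgroup Pm} {z x n m : ℕ} (h : (orbit B z).ncard = n) (hx : x ∈ orbit B z)
    (hc : Nat.card B = n * m) (hn : 0 < n) : Nat.card ↥(B ⊓ stabilizer Pm x) = m := by
  rw [card_eq_ncard_orbit_mul B x, orbit_eq_iff.2 hx, h] at hc
  exact Nat.eq_of_mul_eq_mul_left hn hc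

def P0 : Pt := ([], 0)
def Pp : Pt := ([6, 1, 2, 3, 2, 1, 6, 5, 1, 2, 3, 2, 1, 5], 1781)
def Pq : Pt := ([6, 1, 0, 2, 1, 3, 2, 1, 4, 3, 6], 201)
def Pr : Pt := ([6, 1, 2, 3, 2, 1, 0, 4, 3, 2, 3, 6, 1], 481)
def yw : List ℕ := [0, 1, 2, 1, 3, 2, 1, 3, 4]
def zw : List ℕ := [1, 2, 3, 0, 1, 2, 3, 4, 3, 0, 1, 0, 1, 2]
def ww : List ℕ := [1, 3, 2, 1, 4, 5, 1, 0, 1, 2, 3, 2, 0, 1, 0, 1, 5, 4, 3, 1, 2, 3, 1]
noncomputable def D2 : ℕ := cl [Pp, P0] 201
noncomputable def D2' : ℕ := cl [Pp, P0] 166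
noncomputable def D3 : ℕ := cl [Pq, Pp, P0] 481
noncomputable def D3' : ℕ := cl [Pq, Pp, P0] 165

theorem oD2 : orbit (St [1781, 0]) 201 = bits D2 ∧ (bits D2).ncard = 100 :=
  orb (L := [Pp, P0]) (ws := [[0], [1], [2], [3], [4]]) (d := 4) (by decide +kernel)

theorem oD2' : orbit (St [1781, 0]) 166 = bits D2' ∧ (bits D2').ncard = 315 :=
  orb (L := [Pp, P0]) (ws := [[0], [1], [2], [3], [4]]) (d := 6) (by decide +kernel)

theorem oD3 : orbit (St [201, 1781, 0]) 481 = bits D3 ∧ (bits D3).ncard = 36 :=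
  orb (L := [Pq, Pp, P0]) (ws := [[0, 1, 2, 1, 0], [0, 3, 2, 3, 4, 1]]) (d := 8) (by decide +kernel)

theorem oD3' : orbit (St [201, 1781, 0]) 165 = bits D3' ∧ (bits D3').ncard = 63 :=
  orb (L := [Pq, Pp, P0]) (ws := [[0, 1, 2, 1, 0], [0, 3, 2, 3, 4, 1]]) (d := 9) (by decide +kernel)

theorem card_J : Nat.card (St [1781, 0]) = 604800 :=
  St_cons _ _ ▸ card_inf (orbit_O ▸ ncard_O) (mem_orbit_self _) card_St0 (by decide)

theorem card_V : Nat.card (St [201, 1781, 0]) = 6048 :=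
  St_cons _ _ ▸ card_inf (oD2.1 ▸ oD2.2) (mem_orbit_self _) card_J (by decide)

theorem card_E : Nat.card (St [481, 201, 1781, 0]) = 168 :=
  St_cons _ _ ▸ card_inf (oD3.1 ▸ oD3.2) (mem_orbit_self _) card_V (by decide)

theorem nb {D x : ℕ} (h : D.testBit x = false) : x ∉ bits D := Bool.eq_false_iff.1 h

theorem mem3 {D A B z x : ℕ} (h : sub D (Nat.lor A (Nat.lor B (Nat.pow 2 z))) = true) (hx : x ∈ bits D)
    (e : x ≠ z) : x ∈ bits A ∨ x ∈ bits B :=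
  ((bits_or _ _).le (sub_spec h hx)).imp_right fun h =>
    ((bits_or _ _).le h).resolve_right fun h => e ((bits_two_pow z).le h)

theorem O_cases {x : ℕ} (hx : x ∈ bits O) (e : x ≠ 1781) : x ∈ bits D2 ∨ x ∈ bits D2' :=
  mem3 (by decide +kernel) hx e

theorem card_Jx {x : ℕ} (hx : x ∈ bits O) (e : x ≠ 1781) :
    ¬ 5 ^ 2 ∣ Nat.card ↥(St [1781, 0] ⊓ stabilizer Pm x) := by
  rcases O_cases hx e with h | h
  · rw [card_inf (m := 6048) (oD2.1 ▸ oD2.2) (oD2.1.ge h) card_J (by decide)]; decide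
  · rw [card_inf (m := 1920) (oD2'.1 ▸ oD2'.2) (oD2'.1.ge h) card_J (by decide)]; decide

theorem card_Vx {x : ℕ} (hx : x ∈ bits D2) (e : x ≠ 201) :
    ¬ 3 ^ 2 ∣ Nat.card ↥(St [201, 1781, 0] ⊓ stabilizer Pm x) := by
  rcases mem3 (A := D3) (B := D3') (by decide +kernel) hx e with h | h
  · rw [card_inf (m := 168) (oD3.1 ▸ oD3.2) (oD3.1.ge h) card_V (by decide)]; decide
  · rw [card_inf (m := 96) (oD3'.1 ▸ oD3'.2) (oD3'.1.ge h) card_V (by decide)]; decide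

theorem eqs : wd yw ^ 7 = 1 ∧ wd zw ^ 7 = 1 ∧ wd ww * wd yw = wd yw * wd ww := by
  have h := valid0.eq_of_chk (b := 11) (by norm_num)
    (es := [(wpow yw 7, []), (wpow zw 7, []), (ww ++ yw, yw ++ ww)]) (by decide +kernel)
  simpa only [List.forall_mem_cons, List.not_mem_nil, false_imp_iff, implies_true, and_true, ev_wpow, ev_nil,
    ev_append] using h

theorem fix_y {x : ℕ} (hx : x < 1782) (h : wd yw x = x) : x = 0 ∨ x = 201 ∨ x = 481 ∨ x = 1781 := by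
  have h1 := sub_spec (y := 2 ^ 0 ||| (2 ^ 201 ||| (2 ^ 481 ||| 2 ^ 1781))) (by decide +kernel)
    ((lift.bits_fixm valid0 (n := 1782) (b := 11) (by norm_num) (by norm_num) yw).ge ⟨hx, by rwa [lift.ev]⟩)
  simpa only [bits_or, bits_two_pow, Set.mem_union, Set.mem_singleton_iff] using h1

theorem ord_y : orderOf (wd yw) = 7 :=
  have : Fact (Nat.Prime 7) := ⟨by norm_num⟩
  orderOf_eq_prime eqs.1 fun h => absurd (fix_y (x := 1) (by decide) (by rw [h]; rfl)) (by decide)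

theorem yz_E : wd yw ∈ St [481, 201, 1781, 0] ∧ wd zw ∈ St [481, 201, 1781, 0] := by
  simpa using gen_le_iff.1 (gen_le_St (ws := [yw, zw]) (l := [481, 201, 1781, 0]) (by decide +kernel))

theorem mod7 {S T : Set ℕ} (hf : S ⊆ bits O) (hS : ∀ x ∈ S, wd yw x ∈ S)
    (h : ∀ x, x ∈ T ↔ x ∈ S ∧ (x = 201 ∨ x = 481 ∨ x = 1781)) : S.ncard % 7 = T.ncard % 7 := by
  have : Fact (Nat.Prime 7) := ⟨by norm_num⟩
  have h1 : zpowers (wd yw) ≤ stabilizer Pm S := zpowers_le.2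
    ((mem_stabilizer_set_iff_smul_set_subset ((fin_bits _).subset hf)).2 (by rintro _ ⟨x, hx, rfl⟩; exact hS x hx))
  refine (ncard_modEq (P := zpowers (wd yw)) (IsPGroup.of_card (n := 1) (by rw [Nat.card_zpowers, ord_y]; rfl))
    ((fin_bits _).subset hf) fun u hu x hx => (mem_stabilizer_set.1 (h1 hu) x).2 hx).trans
    (congrArg (fun A : Set ℕ => A.ncard % 7) (Set.ext fun x => (and_congr_right fun hx => ?_).trans (h x).symm))
  refine ⟨fun e => (fix_y (mem_full.1 (sub_spec (by decide +kernel) (hf hx))) (e _ (mem_zpowers _))).resolve_left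
    fun e => nb (by decide +kernel) (hf (e ▸ hx) : 0 ∈ bits O), fun e => ?_⟩
  exact (zpowers_le (H := stabilizer Pm x)).2 (yz_E.1.2 x (by rcases e with e | e | e <;> simp [e]))

theorem num {m k j e : ℕ} (h : 604800 = m * (k * (j * e))) (he : e ∣ 168) (h7 : 7 ∣ e) (hj : j = 1 ∨ j = 36)
    (hk : k ≤ 100) (hm : m ≤ 416) (h1 : (m % 7 = 1 ∧ m + k ≤ 416) ∨ m % 7 = 3)
    (h2 : k % 7 = 1 ∨ (k % 7 = 2 ∧ j + 1 ≤ k)) (h3 : ¬ 5 ∣ m → m % 5 = 1) (h4 : 9 ∣ j * e → k % 3 = 1)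
    (h5 : 28 ≤ e → 168 ≤ e ∧ k ∈ [1, 2, 36, 100]) : m = 1 ∨ (m = 36 ∧ k = 100 ∧ e = 168) := by
  have h6 : e ∈ [7, 14, 21, 168] := by
    have := Nat.le_of_dvd (by decide) he
    have h5' : 28 ≤ e → 168 ≤ e := fun h => (h5 h).1
    simp only [List.mem_cons, List.not_mem_nil, or_false]
    have := Nat.pos_of_dvd_of_pos he (by decide)
    clear h h1 h2 h3 h4 h5 he
    omega
  have h8 : j ∈ [1, 36] := by simpa using hj
  obtain rfl : m = 604800 / (k * (j * e)) :=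
    (Nat.div_eq_of_eq_mul_left (Nat.pos_of_ne_zero fun e => by simp [e] at h) h).symm
  clear he h7 hj
  revert h hm h1 h2 h3 h4 h5
  revert k j e
  suffices ∀ e ∈ [7, 14, 21, 168], ∀ j ∈ [1, 36], ∀ k ≤ 100, _ from fun k j e hk he hj => this e he j hj k hk
  decide +kernel

theorem reg3 : regOK [yw] 6 Pr [([6, 1, 2, 3, 2, 1, 0, 4, 6], 170), ([6, 1, 0, 2, 3, 2, 1, 6], 183),
    ([6, 1, 0, 2, 1, 3, 2, 1, 6], 194), ([6, 1, 0, 2, 1, 3, 2, 1, 3, 4, 6], 205),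
    ([6, 1, 2, 3, 2, 1, 4, 3, 2, 3, 6], 460)] D3 (fun n => n == 1 || n == 36) = true := by decide +kernel

theorem reg2 : regOK [yw, zw] 5 Pq [Pr, ([6, 1, 2, 3, 2, 1, 6], 165), ([6, 1, 2, 3, 2, 1, 0, 6], 167),
    ([6, 1, 2, 3, 2, 1, 0, 4, 6], 170), ([6, 1, 0, 2, 3, 2, 1, 6], 183), ([6, 1, 0, 2, 1, 3, 2, 1, 3, 4, 6], 205)] D2
    (fun n => n == 1 || (n == 2 || (n == 36 || n == 100))) = true := by decide +kernel

theorem fix_p {K : Subgroup Pm} (hK : K ≤ St [0]) (hc : Nat.card K = 604800) (hy : wd yw ∈ K)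
    (hq : 201 ∈ orbit K 1781 ↔ 481 ∈ orbit K 1781) : K ≤ stabilizer Pm 1781 := by
  have : Fact (Nat.Prime 5) := ⟨by norm_num⟩
  have : Fact (Nat.Prime 3) := ⟨by norm_num⟩
  obtain ⟨K1, e1⟩ : ∃ K1, K1 = K ⊓ stabilizer Pm 1781 := ⟨_, rfl⟩
  obtain ⟨K2, e2⟩ : ∃ K2, K2 = K1 ⊓ stabilizer Pm 201 := ⟨_, rfl⟩
  obtain ⟨K3, e3⟩ : ∃ K3, K3 = K2 ⊓ stabilizer Pm 481 := ⟨_, rfl⟩
  have l1 : K1 ≤ St [1781, 0] := by rw [e1, St_cons]; exact inf_le_inf_right _ hK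
  have l2 : K2 ≤ St [201, 1781, 0] := by rw [e2, St_cons]; exact inf_le_inf_right _ l1
  have l3 : K3 ≤ St [481, 201, 1781, 0] := by rw [e3, St_cons]; exact inf_le_inf_right _ l2
  have k1 : K1 ≤ K := e1 ▸ inf_le_left
  have k2 : K2 ≤ K1 := e2 ▸ inf_le_left
  have k3 : K3 ≤ K2 := e3 ▸ inf_le_left
  have y3 : wd yw ∈ K3 := by
    rw [e3, e2, e1]; exact ⟨⟨⟨hy, yz_E.1.2 _ (by simp)⟩, yz_E.1.2 _ (by simp)⟩, yz_E.1.2 _ (by simp)⟩
  have c1 := e1 ▸ card_eq_ncard_orbit_mul K 1781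
  have c2 := e2 ▸ card_eq_ncard_orbit_mul K1 201
  have c3 := e3 ▸ card_eq_ncard_orbit_mul K2 481
  have s1 : orbit K 1781 ⊆ bits O := orbit_O ▸ orb_mono hK _
  have s2 : orbit K1 201 ⊆ bits D2 := oD2.1 ▸ orb_mono l1 _
  have s3 : orbit K2 481 ⊆ bits D3 := oD3.1 ▸ orb_mono l2 _
  have s4 : bits D2 ⊆ bits O := sub_spec (by decide +kernel)
  have s5 : orbit K 201 ⊆ bits O := fun _ ⟨u, e⟩ => e ▸ (O_smul (hK u.2)).2 (s4 (oD2.1.le (mem_orbit_self _)))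
  have hz : 28 ≤ Nat.card K3 → gen (sigma nets0) [yw, zw] ≤ K3 := fun h => by
    have h1 := relIndex_mul_relIndex ⊥ _ _ bot_le l3
    rw [relIndex_bot_left, relIndex_bot_left, card_E] at h1
    have h2 : K3.relIndex (St [481, 201, 1781, 0]) ≤ 6 := by nlinarith
    have h3 := (pow_mem_of_relIndex_ne_zero_of_dvd (H := K3) (fun e => by simp [e] at h1) yz_E.2 (n := 120)
      fun m h h' => by have := h'.trans h2; interval_cases m <;> decide).1
    rw [show 120 = 7 * 17 + 1 from rfl, pow_succ, pow_mul, eqs.2.1, one_pow, one_mul] at h3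
    simpa [gen_le_iff] using ⟨y3, h3⟩
  have hd : 201 ∉ orbit K 1781 → Disjoint (orbit K 1781) (orbit K1 201) := fun h =>
    Set.disjoint_left.2 fun x hx hx' => h (orbit_eq_iff.2 hx ▸ orbit_eq_iff.2 (orb_mono k1 _ hx') ▸ mem_orbit_self _)
  have m1 : 201 ∉ orbit K 1781 → (orbit K 1781).ncard % 7 = 1 := fun h =>
    (mod7 (T := {1781}) s1 (smul_mem_orb _ hy) fun x => ⟨fun e => e ▸ ⟨mem_orbit_self _, by simp⟩, by
      rintro ⟨hx, rfl | rfl | rfl⟩; exacts [absurd hx h, absurd (hq.2 hx) h, rfl]⟩).trans (by simp)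
  have m3 : 201 ∈ orbit K 1781 → (orbit K 1781).ncard % 7 = 3 := fun h =>
    (mod7 (T := {201, 481, 1781}) s1 (smul_mem_orb _ hy) fun x => ⟨by
      rintro (rfl | rfl | rfl); exacts [⟨h, by simp⟩, ⟨hq.1 h, by simp⟩, ⟨mem_orbit_self _, by simp⟩],
      fun h => h.2⟩).trans (by rw [Set.ncard_eq_three.2 ⟨_, _, _, by decide, by decide, by decide, rfl⟩])
  have n1 : 1781 ∉ orbit K1 201 := fun h => nb (by decide +kernel) (s2 h)
  rcases num (m := (orbit K 1781).ncard) (k := (orbit K1 201).ncard) (j := (orbit K2 481).ncard) (e := Nat.card K3)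
    (by rw [← c3, ← c2, ← c1, hc]) (card_E ▸ card_dvd_of_le l3) (ord_y ▸ orderOf_dvd_natCard _ y3)
    (by simpa [Pr] using reg_orb reg3 (gen_le_iff.2 (by simpa using k3 y3)) (fun u hu => (l2 hu).1) s3)
    (oD2.2 ▸ Set.ncard_le_ncard s2 (fin_bits _)) (ncard_O ▸ Set.ncard_le_ncard s1 (fin_bits _))
    ((em _).symm.imp (fun h => ⟨m1 h, by
      rw [← Set.ncard_union_eq (hd h) ((fin_bits _).subset s1) ((fin_bits _).subset s2), ← ncard_O]
      exact Set.ncard_le_ncard (Set.union_subset s1 (s2.trans s4)) (fin_bits _)⟩) m3)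
    ((em (481 ∈ orbit K1 201)).symm.imp (fun h =>
      (mod7 (T := {201}) (s2.trans s4) (smul_mem_orb _ (k2 (k3 y3))) fun x => ⟨fun e => e ▸ ⟨mem_orbit_self _, by simp⟩, by
        rintro ⟨hx, rfl | rfl | rfl⟩; exacts [rfl, absurd hx h, absurd hx n1]⟩).trans (by simp)) fun h =>
      ⟨(mod7 (T := {201, 481}) (s2.trans s4) (smul_mem_orb _ (k2 (k3 y3))) fun x => ⟨by
        rintro (rfl | rfl); exacts [⟨mem_orbit_self _, by simp⟩, ⟨h, by simp⟩], by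
        rintro ⟨hx, rfl | rfl | rfl⟩; exacts [by simp, by simp, absurd hx n1]⟩).trans
        (by rw [Set.ncard_pair (by decide)]), by
        rw [← Set.ncard_insert_of_notMem (a := 201) (fun h => nb (by decide +kernel) (s3 h))
          ((fin_bits _).subset s3)]
        exact Set.ncard_le_ncard (Set.insert_subset (mem_orbit_self _) (orbit_eq_iff.2 h ▸ orb_mono k2 _))
          ((fin_bits _).subset s2)⟩)
    (fun h => ncard_mod (t := 2) l1 ((Nat.Coprime.pow_left 2 ((Nat.Prime.coprime_iff_not_dvd (by norm_num)).2 h)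
      ).dvd_of_dvd_mul_left (by rw [← c1, hc]; decide)) ((fin_bits _).subset s1) (fun u hu => smul_mem_orb u (k1 hu))
      (mem_orbit_self _) (fun u hu => (l1 hu).2 _ (by simp)) fun x hx => card_Jx (s1 hx))
    (fun h => ncard_mod (t := 2) l2 (c3 ▸ h) ((fin_bits _).subset s2) (fun u hu => smul_mem_orb u (k2 hu))
      (mem_orbit_self _) (fun u hu => (l2 hu).2 _ (by simp)) fun x hx => card_Vx (s2 hx))
    (fun h => ⟨by
      have : Finite K3 := Finite.of_injective _ (inclusion_injective l3)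
      refine ((valid0.le_ncard_orbit (ws := [yw, zw]) (d := 6) (dc := 7) (p := 168) (by decide +kernel)).trans
        (Set.ncard_le_ncard (orb_mono (hz h) _) (Set.finite_range _))).trans ?_
      rw [card_eq_ncard_orbit_mul K3 168]
      have : Finite ↥(K3 ⊓ stabilizer Pm 168) := Finite.of_injective _ (inclusion_injective inf_le_left)
      exact Nat.le_mul_of_pos_right _ Nat.card_pos,
      by simpa [Pq] using reg_orb reg2 ((hz h).trans (k3.trans k2)) (fun u hu => (l1 hu).1) s2⟩)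
    with h | ⟨h1, h2, h3⟩
  · obtain ⟨x, hx⟩ := Set.ncard_eq_one.1 h
    exact fun u hu => (hx.le (smul_mem_orb u hu _ (mem_orbit_self _))).trans (hx.le (mem_orbit_self _)).symm
  have h4 := Set.eq_of_subset_of_ncard_le s2 (oD2.2.trans h2.symm).le (fin_bits _)
  obtain ⟨M, e, hM⟩ := sel (ws := [yw, zw]) (d := 6) (reps := [1781, 166, 168, 169, 173, 196]) (D := Nat.xor O D2)
    (Q := fun M => !Nat.beq (pc M) 36) (by decide +kernel) ((hz (by omega)).trans (k3.trans (k2.trans k1)))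
    smul_mem_orb fun x hx => by
      have := Set.disjoint_left.1 (h4 ▸ hd fun h => by have := m3 h; omega) hx
      show (O ^^^ D2).testBit x = true
      rw [Nat.testBit_xor, s1 hx, Bool.eq_false_iff.2 this]; rfl
  rw [pc_eq (fun y hy => mem_full.1 (sub_spec (by decide +kernel) (s1 (e.ge hy)))), ← e, h1] at hM
  cases hM

/-- a subgroup of index 416 fixes a neighbour of `0` -/
theorem exists_fix_O {K : Subgroup Pm} (hK : K ≤ St [0]) (hc : Nat.card K = 604800) :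
    ∃ x ∈ bits O, K ≤ stabilizer Pm x := by
  have : Fact (Nat.Prime 7) := ⟨by norm_num⟩
  have key : ∀ k ∈ St [0], k⁻¹ * wd yw * k ∈ K →
      (k⁻¹ 201 ∈ orbit K (k⁻¹ 1781) ↔ k⁻¹ 481 ∈ orbit K (k⁻¹ 1781)) → ∃ x ∈ bits O, K ≤ stabilizer Pm x := by
    intro k hk hy hq
    have h1 : ∀ x, x ∈ orbit (K.map (MulAut.conj k).toMonoidHom) 1781 ↔ k⁻¹ x ∈ orbit K (k⁻¹ 1781) := fun x =>
      ⟨fun ⟨⟨_, u, hu, rfl⟩, e⟩ => ⟨⟨u, hu⟩, Equiv.Perm.eq_inv_iff_eq.2 e⟩, fun ⟨u, e⟩ =>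
        ⟨⟨_, u, u.2, rfl⟩, (Equiv.Perm.eq_inv_iff_eq (f := k) (x := u.1 (k⁻¹ 1781))).1 e⟩⟩
    have h2 := fix_p (K := K.map (MulAut.conj k).toMonoidHom)
      (by rintro _ ⟨u, hu, rfl⟩; exact mul_mem (mul_mem hk (hK hu)) (inv_mem hk))
      ((card_map_of_injective (MulAut.conj k).injective).trans hc) ⟨_, hy, by simp [mul_assoc]⟩
      (by rwa [h1, h1])
    exact ⟨k⁻¹ 1781, (O_smul (inv_mem hk)).2 (orbit_O.le (mem_orbit_self _)), fun u hu =>
      Equiv.Perm.eq_inv_iff_eq.2 (h2 ⟨u, hu, rfl⟩)⟩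
  have h0 := relIndex_mul_relIndex ⊥ _ _ bot_le hK
  rw [relIndex_bot_left, relIndex_bot_left, card_St0, hc] at h0
  have hy : wd yw ∈ St [0] := ⟨wd_GG _, by simpa using yz_E.1.2 0 (by simp)⟩
  obtain ⟨k, hk, h⟩ := exists_conj (r := 7) (T := K) (by omega) (zpowers_le.2 hy)
    (IsPGroup.of_card (n := 1) (by rw [Nat.card_zpowers, ord_y]; rfl))
  replace h := h _ (mem_zpowers _)
  obtain ⟨w, hw, w0, w1, w2, w3⟩ : ∃ w ∈ St [0], w⁻¹ * wd yw * w = wd yw ∧ w 1781 = 201 ∧ w 201 = 481 ∧ w 481 = 1781 :=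
    ⟨wd ww, ⟨wd_GG _, by simpa using valid0.apply_eq (w := ww) (p := 0) (q := 0) (by decide +kernel)⟩,
      by rw [mul_assoc, ← eqs.2.2, inv_mul_cancel_left], valid0.apply_eq (by decide +kernel),
      valid0.apply_eq (by decide +kernel), valid0.apply_eq (by decide +kernel)⟩
  have v1 := Equiv.Perm.inv_eq_iff_eq.2 w1.symm
  have v2 := Equiv.Perm.inv_eq_iff_eq.2 w2.symm
  have v3 := Equiv.Perm.inv_eq_iff_eq.2 w3.symm
  by_cases a : k⁻¹ 201 ∈ orbit K (k⁻¹ 1781) <;> by_cases b : k⁻¹ 481 ∈ orbit K (k⁻¹ 1781)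
  · exact key k hk h (iff_of_true a b)
  · refine key (w * k) (mul_mem hw hk) (by rw [← w0] at h; simpa [mul_assoc] using h) ?_
    simp only [mul_inv_rev, Equiv.Perm.mul_apply, v1, v2, v3]
    exact iff_of_false (fun c => b (mem_orbit_symm.1 c)) fun c => b (orbit_eq_iff.2 a ▸ mem_orbit_symm.1 c)
  · refine key (w⁻¹ * k) (mul_mem (inv_mem hw) hk) (by
      have : w * wd yw * w⁻¹ = wd yw := by conv_lhs => rw [← w0]
                                           group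
      rw [← this] at h; simpa [mul_assoc] using h) ?_
    simp only [mul_inv_rev, inv_inv, Equiv.Perm.mul_apply, w1, w2, w3]
    exact iff_of_false (fun c => a (orbit_eq_iff.2 b ▸ mem_orbit_symm.1 c)) fun c => a (mem_orbit_symm.1 c)
  · exact key k hk h (iff_of_false a b)

end CL.SuzR
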