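/-
Recognition of Suz as a rank 3 group: the subgroups of index 1365 and the invariant sets.
-/
import Cfsg.Agent.SPOR.SuzR2

set_option autoImplicit false
set_option maxRecDepth 100000
set_option exponentiation.threshold 4000

namespace CL.SuzR

open CL.CE CL.K CL.Net CL.Suz MulAction Subgroup

def P1 : Pt := ([6], 1)

theorem O_lt {x : ℕ} (h : x ∈ bits O) : x < 1782 := mem_full.1 (sub_spec (by decide +kernel) h)

theorem bits_row {a : Pt} (h : a.ok = true) (M : ℕ) : bits (Nat.land a.row M) = {y | ad a.2 y ∧ y ∈ bits M} :=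
  (bits_and _ _).trans (Set.ext fun _ => and_congr_left' (a.mem_row h))

theorem oO' : orbit (St [0]) 1 = bits (cl [P0] 1) ∧ (bits (cl [P0] 1)).ncard = 1365 :=
  orb (L := [P0]) (ws := [[0], [1], [2], [3], [4], [5]]) (d := 5) (by decide +kernel)

theorem lam {S : Set ℕ} (hS : ∀ u ∈ St [1781, 0], ∀ x ∈ S, u x ∈ S) (h : S ⊆ bits O) (h' : 1781 ∉ S) :
    S.ncard ∈ [0, 315, 415] ∨ S = {y | ad 1781 y ∧ y ∈ bits O} ∧ S.ncard = 100 := by
  obtain ⟨M, e, hM⟩ := sel (ws := [[0], [1], [2], [3], [4]]) (d := 6) (reps := [201, 166])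
    (D := Nat.xor O (Nat.pow 2 1781)) (Q := fun M => pc M ∈ [0, 315, 415] ||
      (Nat.beq M (Nat.land Pp.row O) && Nat.beq (pc M) 100))
    (by decide +kernel) (gen_le_St (by decide +kernel)) hS fun x hx => by
      show (O ^^^ 2 ^ 1781).testBit x = true
      rw [Nat.testBit_xor, h hx, Nat.testBit_two_pow, decide_eq_false fun e : 1781 = x => h' (e ▸ hx)]; rfl
  rw [pc_eq fun y hy => O_lt (h (e.ge hy)), ← e] at hM
  simp only [Bool.or_eq_true, Bool.and_eq_true, decide_eq_true_eq, Nat.beq_eq] at hM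
  exact hM.imp_right fun a => ⟨by rw [e, a.1]; exact bits_row (a := Pp) (by decide +kernel) O, a.2⟩

theorem loc20 {x z : ℕ} (hx : x ∈ bits O) (hz : z ∈ bits O) (e : x ≠ z) (h : ¬ ad x z) :
    {y | ad x y ∧ ad z y ∧ y ∈ bits O}.ncard = 20 := by
  obtain ⟨k, rfl⟩ := orbit_O.ge hx
  obtain ⟨z, rfl⟩ := k.1.surjective z
  have h1 : Pp.ok = true ∧ Pt.ok ([6, 1, 2, 3, 2, 1, 6, 5], 166) = true := by decide +kernel
  obtain ⟨j, rfl⟩ := oD2'.1.ge ((O_cases ((O_smul k.2).1 hz) fun e' => e (e' ▸ rfl)).resolve_left fun a =>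
    h ((ad_smul k.2.1).2 ((Pt.mem_row h1.1).1 (sub_spec (by decide +kernel) a))))
  have h2 : k.1 * j.1 ∈ St [0] := mul_mem k.2 ((St_cons 1781 [0]).le j.2).1
  have h3 := ncard_bits (d := 7) (x := Nat.land Pp.row (Nat.land (Pt.row ([6, 1, 2, 3, 2, 1, 6, 5], 166)) O))
    (n := 20) (by decide +kernel)
  rw [bits_row h1.1, bits_row h1.2] at h3
  rw [← h3, ← Set.ncard_image_of_injective {y | ad Pp.2 y ∧ _} (k.1 * j.1).injective]
  congr 1
  ext y
  rw [← (k.1 * j.1).apply_symm_apply y, (k.1 * j.1).injective.mem_set_image]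
  refine and_congr (Iff.trans ?_ (ad_smul h2.1)) (and_congr (ad_smul h2.1) (O_smul h2))
  rw [Equiv.Perm.mul_apply k.1 j.1 Pp.2, j.2.2 Pp.2 (by simp [Pp])]; rfl

theorem row_c {S : Set ℕ} (hS : ∀ u ∈ St [1, 0], ∀ x ∈ S, u x ∈ S) (h : ∀ x ∈ S, x < 1782) (h1 : S.ncard = 416)
    (h2 : (S ∩ bits O).ncard = 96) : S = {y | ad 1 y} := by
  obtain ⟨M, e, hM⟩ := sel (ws := [[3], [4], [1, 2, 3, 5, 1, 2, 3, 1, 0, 1, 2, 0, 1]]) (d := 9)
    (reps := [0, 1, 2, 18, 72, 165, 405]) (D := full)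
    (Q := fun M => !(Nat.beq (pc M) 416 && Nat.beq (pc (Nat.land M O)) 96) || Nat.beq M P1.row)
    (by decide +kernel) (gen_le_St (by decide +kernel)) hS fun x hx => mem_full.2 (h x hx)
  have h3 : bits (Nat.land M O) = S ∩ bits O := e ▸ bits_and M O
  rw [pc_eq fun y hy => h y (e.ge hy), pc_eq fun y hy => h y (h3.le hy).1, h3, ← e, h1, h2] at hM
  rw [e, Nat.eq_of_beq_eq_true hM]
  exact Set.ext fun _ => P1.mem_row (by decide +kernel)

def Bw : List (List ℕ) := [[4], [3, 2, 3], [1, 2, 3, 5, 1, 2, 3, 1, 2, 0, 1, 5, 2, 0, 1],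
  [0, 1, 2, 3, 1, 2, 0, 1, 0, 1, 2, 3, 2, 3, 1, 2, 3, 0, 1]]

def BL : List Pt := [([6, 1, 2, 3, 2, 1, 6], 165), ([6, 1, 2, 3, 2, 1, 4, 3, 6, 5], 173),
  ([6, 1, 2, 3, 2, 1, 6, 5, 1], 405), ([6, 1, 0, 2, 1, 3, 2, 1, 0, 4, 6, 1], 411),
  ([6, 1, 0, 2, 3, 2, 1, 4, 6, 5, 1, 2, 6], 518)]

noncomputable def orbN (ws : List (List ℕ)) (d r n : ℕ) : Bool :=
  force (bfs nets0 ws d (Nat.pow 2 r)) fun x => isOrbit nets0 ws d r x && hasCard 7 x n

theorem orbN_spec {ws : List (List ℕ)} {d r n : ℕ} (h : orbN ws d r n = true) :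
    orbit (gen (sigma nets0) ws) r = bits (bfs nets0 ws d (2 ^ r)) ∧ (orbit (gen (sigma nets0) ws) r).ncard = n := by
  rw [orbN, force_eq, Bool.and_eq_true] at h
  exact ⟨valid0.orbit_eq h.1, (valid0.orbit_eq h.1).symm ▸ ncard_bits h.2⟩

theorem B_le : gen (sigma nets0) Bw ≤ St [0] := gen_le_St (by decide +kernel)

theorem dvd_B : 2 ^ 12 ∣ Nat.card (gen (sigma nets0) Bw) := by
  rw [card_eq_ncard_orbit_mul _ 2, (orbN_spec (d := 5) (n := 1024) (by decide +kernel)).2]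
  refine mul_dvd_mul_left 1024 (b := 4) (Dvd.dvd.trans (b := Nat.card (gen (sigma nets0)
    [[4], [0, 1, 2, 3, 1, 2, 0, 1, 0, 1, 2, 3, 2, 3, 1, 2, 3, 0, 1]])) ?_ (card_dvd_of_le (le_inf
      (gen_le_iff.2 fun w hw => ev_mem_gen (ws := Bw) (by revert w; decide))
      (valid0.gen_le_stabilizer (p := 2) (by decide +kernel)))))
  rw [card_eq_ncard_orbit_mul _ 10, (orbN_spec (d := 2) (n := 4) (by decide +kernel)).2]
  exact dvd_mul_right _ _

theorem orbit_two {P B : Subgroup Pm} (hP : P ≤ B) (hB : B ≤ St [0]) (hc : Nat.card P = 2 ^ 12) {x t : ℕ}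
    (h : (orbit B x).ncard = 2 ^ t) : orbit P x = orbit B x := by
  have : Finite B := Finite.of_injective _ (inclusion_injective hB)
  have : Finite P := Finite.of_injective _ (inclusion_injective hP)
  have h1 := card_eq_ncard_orbit_mul P x
  have h2 : 2 ^ t * Nat.card ↥(P ⊓ stabilizer Pm x) ∣ 2 ^ 12 * 61425 :=
    (mul_dvd_mul_left _ (card_dvd_of_le (inf_le_inf_right _ hP))).trans
      (by rw [← h, ← card_eq_ncard_orbit_mul]; exact (card_dvd_of_le hB).trans (by rw [card_St0]; decide))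
  have h3 := (Nat.Coprime.mul_left (Nat.Coprime.pow_left t (by norm_num)) (Nat.Coprime.coprime_dvd_left
    (hc ▸ card_dvd_of_le inf_le_left) (by norm_num))).dvd_of_dvd_mul_right h2
  rw [← hc, h1] at h3
  have : Finite ↥(P ⊓ stabilizer Pm x) := Finite.of_injective _ (inclusion_injective inf_le_left)
  refine Set.eq_of_subset_of_ncard_le (orb_mono hP x) (h ▸ Nat.le_of_dvd ?_ (Nat.dvd_of_mul_dvd_mul_right
    Nat.card_pos h3)) (Set.finite_range _)
  exact (Set.ncard_pos (Set.finite_range _)).2 ⟨x, mem_orbit_self x⟩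

theorem chkB : (forceL (BL.map Pt.row) fun R => force (Nat.land P1.row O) fun M0 => selOK Bw 4 (BL.map Prod.snd) O
    fun M => !(reg ((BL.map Prod.snd).zip R) 20 M && Nat.beq (pc M) 96) || Nat.beq M M0) = true := by
  decide +kernel

theorem eq_one_of_ad {c : ℕ} (h : ∀ z, ad 1 z → z ∈ bits O → ad z c) : c = 0 ∨ c = 1 := by
  have h1 : ∀ a : Pt, (a.ok && (Nat.land P1.row O).testBit a.2) = true → c ∈ bits a.row := fun a ha => by
    rw [Bool.and_eq_true] at ha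
    have := (bits_row (a := P1) (by decide +kernel) O).le ha.2
    exact (a.mem_row ha.1).2 (h _ this.1 this.2)
  have h2 := sub_spec (y := 2 ^ 0 ||| 2 ^ 1) (x := Pt.row ([6, 1, 2, 3, 2, 1, 6, 5, 1], 405) &&&
    (Pt.row ([6, 1, 0, 2, 3, 2, 1, 6, 5, 1], 410) &&& (Pt.row ([6, 1, 2, 3, 2, 1, 4, 6, 5, 1], 406) &&&
    (Pt.row ([6, 1, 2, 3, 2, 1, 6, 5, 1, 6], 521) &&& Pt.row ([6, 1, 2, 3, 2, 1, 6, 5, 1, 2, 3], 655)))))
    (by decide +kernel) (a := c) (by
      simp only [bits_and]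
      exact ⟨h1 _ (by decide +kernel), h1 _ (by decide +kernel), h1 _ (by decide +kernel), h1 _ (by decide +kernel),
        h1 _ (by decide +kernel)⟩)
  simpa only [bits_or, bits_two_pow, Set.mem_union, Set.mem_singleton_iff] using h2

/-- a subgroup of index 1365 with an invariant regular set of 96 neighbours of `0` fixes a point at distance two -/
theorem exists_fix_c {L : Subgroup Pm} (hL : L ≤ St [0]) (hc : Nat.card L = 184320) {M : Set ℕ} (hM : M ⊆ bits O)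
    (hi : ∀ u ∈ L, ∀ x ∈ M, u x ∈ M) (h96 : M.ncard = 96) (h20 : ∀ z ∈ M, {y | ad z y ∧ y ∈ M}.ncard = 20) :
    ∃ k ∈ St [0], L ≤ stabilizer Pm (k 1) := by
  have : Finite (gen (sigma nets0) Bw) := Finite.of_injective _ (inclusion_injective B_le)
  obtain ⟨P, hP⟩ := Sylow.exists_subgroup_card_pow_prime 2 dvd_B
  rw [← card_map_of_injective (gen (sigma nets0) Bw).subtype_injective] at hP
  have h0 := relIndex_mul_relIndex ⊥ _ _ bot_le hL
  rw [relIndex_bot_left, relIndex_bot_left, card_St0, hc] at h0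
  obtain ⟨k, hk, h⟩ := exists_conj (r := 2) (T := L) (by omega) ((map_subtype_le P).trans B_le) (IsPGroup.of_card hP)
  have h1 := chkB
  rw [forceL_eq, force_eq] at h1
  have h2 : ∀ x, x ∈ k '' M ↔ k⁻¹ x ∈ M := fun x => ⟨fun ⟨y, hy, e⟩ => by simpa [← e], fun hx => ⟨_, hx, by simp⟩⟩
  have h3 : k '' M ⊆ bits O := fun _ ⟨y, hy, e⟩ => e ▸ (O_smul hk).2 (hM hy)
  have h4 : ∀ r t, orbN Bw 4 r (2 ^ t) = true → bits (bfs nets0 Bw 4 (2 ^ r)) ⊆ orbit (P.map (Subgroup.subtype _)) r :=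
    fun r t h => ((orbit_two (map_subtype_le P) B_le hP (orbN_spec h).2).trans (orbN_spec h).1).ge
  obtain ⟨N, e, hN⟩ := sel' h1 (S := k '' M) (by
    simp only [BL, List.map_cons, List.map_nil, List.forall_mem_cons, List.not_mem_nil, false_imp_iff, implies_true,
      and_true]
    exact ⟨h4 _ 6 (by decide +kernel), h4 _ 8 (by decide +kernel), h4 _ 5 (by decide +kernel),
      h4 _ 5 (by decide +kernel), h4 _ 5 (by decide +kernel)⟩)
    (fun u hu x hx => by simpa [h2] using hi _ (h u hu) _ ((h2 x).1 hx)) h3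
  have h5 : ∀ y ∈ bits N, y < 1782 := fun y hy => O_lt (h3 (e.ge hy))
  rw [reg_true (by decide +kernel) h5, pc_eq h5, ← e, Set.ncard_image_of_injective _ k.injective, h96] at hN
  · rw [Nat.eq_of_beq_eq_true hN, bits_row (a := P1) (by decide +kernel)] at e
    refine ⟨k⁻¹, inv_mem hk, fun u hu => Equiv.Perm.eq_inv_iff_eq.2 ?_⟩
    have h6 : k * u * k⁻¹ ∈ St [0] := mul_mem (mul_mem hk (hL hu)) (inv_mem hk)
    refine (eq_one_of_ad (c := (k * u * k⁻¹) 1) fun z a b => ad_symm ?_).resolve_left fun a =>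
      absurd ((k * u * k⁻¹).injective (a.trans (h6.2 0 (by simp)).symm)) (by decide)
    have h7 := (e.le ⟨_, hi _ (inv_mem hu) _ ((h2 z).1 (e.ge ⟨a, b⟩)), rfl⟩).1
    simpa [P1] using (ad_smul h6.1).2 h7
  rw [← e]
  rintro _ ⟨z, hz, rfl⟩
  rw [← h20 z hz, ← Set.ncard_image_of_injective {y | ad z y ∧ _} k.injective]
  congr 1
  ext y
  rw [← k.apply_symm_apply y, k.injective.mem_set_image]
  exact and_congr (ad_smul hk.1) k.injective.mem_set_image

end CL.SuzR
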