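/-
Recognition of the Rudvalis group: the subgroups of index 2304 of the point stabiliser.
-/
import Cfsg.Agent.SPOR.RuRec2

set_option autoImplicit false
set_option Elab.async false

namespace CL.Ru

open CL.K CL.SchurC CL.Orb MulAction Subgroup

/-- an element of order 13 -/
def xw : List ℕ := [4, 5, 6, 6, 7, 7]

/-- an element of order 4 normalising it -/
def uw : List ℕ := [7, 5, 6, 4, 6, 6, 4, 6, 6, 7, 5, 6, 7, 5, 6, 7, 5]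

/-- coset representatives in the normaliser of `⟨u⟩` -/
def RR : List (List ℕ) :=
  [[],
   [6, 7],
   [7, 6, 4, 6],
   [6, 6, 6, 4, 7, 6],
   [4, 7, 7, 5, 7, 7, 5, 4, 7, 7],
   [4, 7, 7, 5, 4, 7, 7, 5, 4, 7, 7],
   [5, 7, 5, 6, 7, 7, 5, 7, 5, 4, 6],
   [5, 7, 5, 6, 7, 7, 5, 7, 5, 7, 6],
   [7, 5, 7, 5, 4, 7, 5, 4, 7, 5, 4, 7],
   [5, 7, 7, 5, 7, 5, 6, 7, 7, 5, 7, 5],
   [4, 7, 5, 6, 7, 5, 6, 4, 7, 5, 7, 7, 5],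
   [7, 5, 4, 7, 5, 7, 7, 5, 4, 6, 7, 5, 7],
   [5, 7, 5, 6, 7, 7, 5, 7, 5, 4, 6, 6, 7],
   [5, 7, 6, 4, 6, 4, 6, 7, 5, 7, 6, 4, 5, 6],
   [5, 7, 5, 7, 7, 5, 4, 7, 5, 6, 7, 5, 6, 4],
   [5, 6, 6, 7, 5, 7, 5, 6, 6, 4, 5, 7, 5, 6],
   [4, 6, 6, 7, 5, 6, 7, 5, 7, 6, 4, 6, 4, 6],
   [5, 7, 5, 6, 4, 5, 6, 6, 6, 7, 5, 7, 7, 5],
   [5, 7, 5, 6, 4, 5, 6, 7, 5, 7, 7, 5, 7, 5],
   [5, 6, 6, 7, 5, 7, 5, 4, 7, 5, 4, 7, 5, 4],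
   [5, 7, 6, 4, 6, 7, 5, 4, 6, 4, 7, 7, 5, 4, 6],
   [4, 7, 7, 5, 4, 6, 6, 7, 5, 7, 6, 4, 6, 4, 6],
   [4, 5, 4, 7, 7, 5, 7, 7, 5, 7, 5, 4, 7, 7, 5],
   [5, 7, 6, 4, 6, 7, 5, 4, 6, 4, 7, 7, 5, 7, 6],
   [6, 4, 6, 7, 5, 7, 5, 7, 5, 6, 6, 4, 6, 7, 7],
   [5, 6, 6, 7, 5, 7, 5, 7, 6, 4, 5, 7, 5, 4, 7],
   [7, 5, 6, 4, 7, 5, 7, 5, 6, 4, 6, 7, 5, 6, 6],
   [4, 5, 7, 5, 4, 6, 7, 5, 7, 5, 6, 7, 5, 4, 6],
   [7, 5, 6, 4, 7, 5, 6, 6, 4, 6, 4, 6, 6, 7, 5],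
   [6, 6, 6, 4, 5, 6, 7, 5, 6, 7, 7, 5, 7, 5, 6],
   [7, 5, 7, 5, 7, 5, 7, 5, 6, 6, 7, 5, 7, 7, 5],
   [5, 7, 6, 4, 6, 4, 6, 7, 5, 7, 6, 4, 5, 6, 6, 7],
   [6, 7, 5, 7, 6, 4, 6, 4, 6, 7, 5, 7, 6, 4, 5, 6],
   [5, 7, 6, 4, 6, 4, 6, 7, 5, 7, 5, 6, 4, 5, 7, 6],
   [5, 7, 5, 6, 4, 5, 6, 6, 6, 7, 5, 6, 6, 7, 5, 7],
   [4, 5, 7, 5, 7, 5, 7, 7, 5, 4, 6, 7, 7, 5, 4, 6],
   [5, 7, 5, 6, 7, 5, 4, 6, 4, 6, 6, 6, 4, 7, 5, 6],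
   [7, 5, 6, 4, 7, 6, 6, 4, 5, 6, 4, 7, 7, 5, 4, 6],
   [5, 7, 5, 6, 7, 5, 4, 6, 6, 7, 5, 7, 6, 4, 5, 6],
   [7, 6, 4, 5, 6, 7, 7, 5, 7, 5, 6, 7, 7, 5, 7, 5],
   [7, 5, 6, 4, 7, 6, 6, 4, 5, 6, 4, 7, 7, 5, 7, 6],
   [6, 7, 5, 7, 6, 4, 6, 7, 5, 4, 6, 4, 7, 7, 5, 7, 6],
   [5, 7, 6, 4, 6, 7, 5, 4, 6, 4, 6, 6, 7, 5, 7, 6, 6],
   [7, 5, 4, 6, 4, 6, 4, 6, 7, 5, 7, 5, 4, 6, 6, 6, 4],
   [5, 7, 6, 4, 5, 6, 4, 7, 5, 7, 5, 6, 4, 6, 6, 7, 5],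
   [6, 7, 5, 7, 6, 4, 6, 7, 5, 4, 6, 4, 7, 7, 5, 4, 6],
   [5, 7, 6, 4, 6, 4, 6, 6, 6, 4, 5, 7, 5, 7, 5, 4, 6],
   [5, 7, 6, 4, 6, 7, 5, 4, 6, 4, 7, 7, 5, 4, 6, 6, 7],
   [5, 7, 6, 4, 6, 4, 6, 6, 6, 4, 5, 7, 5, 7, 5, 7, 6],
   [6, 6, 6, 7, 5, 4, 7, 5, 6, 6, 4, 6, 4, 6, 6, 7, 5],
   [7, 5, 6, 4, 7, 5, 6, 6, 4, 6, 4, 6, 6, 7, 5, 6, 7],
   [5, 6, 6, 6, 4, 6, 6, 7, 5, 7, 5, 4, 7, 7, 5, 4, 6],
   [4, 5, 7, 6, 4, 6, 4, 5, 6, 4, 6, 6, 7, 5, 4, 6, 4],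
   [7, 5, 6, 4, 7, 5, 6, 6, 4, 6, 4, 7, 7, 5, 4, 7, 6],
   [5, 7, 6, 4, 5, 6, 4, 5, 6, 7, 5, 7, 6, 6, 4, 5, 6],
   [5, 7, 6, 4, 6, 4, 6, 7, 5, 7, 5, 6, 4, 5, 6, 7, 6, 6],
   [5, 6, 6, 6, 4, 7, 5, 6, 6, 4, 6, 6, 4, 6, 7, 5, 6, 6],
   [5, 7, 6, 4, 6, 4, 5, 7, 5, 6, 7, 5, 7, 6, 6, 4, 5, 6],
   [6, 7, 5, 7, 6, 4, 6, 4, 6, 7, 5, 7, 5, 6, 4, 5, 7, 6],
   [4, 5, 4, 6, 4, 6, 7, 5, 6, 6, 4, 6, 4, 7, 5, 4, 6, 4],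
   [5, 7, 6, 4, 6, 4, 5, 7, 5, 6, 6, 7, 7, 5, 4, 7, 5, 6],
   [4, 5, 6, 4, 6, 6, 4, 6, 6, 6, 4, 7, 5, 7, 6, 4, 5, 7],
   [4, 7, 5, 4, 7, 6, 4, 5, 6, 4, 6, 7, 5, 4, 6, 4, 6, 6],
   [6, 6, 6, 7, 5, 4, 7, 6, 6, 4, 5, 6, 4, 7, 7, 5, 7, 6],
   [7, 5, 6, 4, 5, 7, 6, 6, 4, 6, 4, 7, 5, 7, 5, 7, 5, 6],
   [6, 6, 6, 7, 5, 4, 7, 6, 6, 4, 5, 6, 4, 7, 7, 5, 4, 6],
   [5, 7, 6, 4, 6, 4, 7, 7, 5, 4, 6, 7, 5, 4, 7, 5, 4, 6],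
   [5, 6, 6, 6, 4, 5, 7, 6, 6, 4, 5, 6, 4, 7, 7, 5, 7, 6],
   [5, 6, 7, 5, 4, 6, 6, 4, 7, 5, 6, 4, 5, 7, 6, 4, 6, 4],
   [5, 7, 5, 6, 7, 7, 5, 4, 6, 4, 7, 5, 6, 4, 6, 6, 7, 5],
   [6, 7, 5, 7, 5, 6, 7, 5, 4, 6, 4, 6, 6, 6, 4, 7, 5, 6],
   [5, 7, 6, 4, 6, 4, 7, 7, 5, 4, 6, 7, 5, 4, 7, 5, 7, 6],
   [4, 6, 4, 6, 4, 6, 4, 6, 7, 5, 7, 5, 7, 6, 4, 5, 7, 5],
   [5, 7, 5, 6, 7, 5, 4, 6, 4, 6, 6, 6, 4, 7, 5, 4, 7, 6],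
   [7, 5, 6, 4, 7, 6, 6, 4, 5, 6, 4, 7, 7, 5, 4, 6, 6, 7],
   [5, 6, 6, 6, 4, 5, 7, 6, 6, 4, 5, 6, 4, 7, 7, 5, 4, 6],
   [5, 7, 5, 6, 7, 5, 4, 6, 4, 6, 6, 6, 4, 7, 5, 6, 6, 7],
   [5, 6, 6, 6, 4, 7, 6, 6, 4, 6, 4, 7, 5, 7, 5, 7, 5, 6],
   [4, 5, 4, 6, 4, 6, 4, 7, 7, 5, 7, 5, 7, 6, 4, 6, 4, 7],
   [6, 7, 5, 7, 6, 4, 6, 7, 5, 4, 6, 4, 7, 7, 5, 4, 6, 6, 7],
   [6, 7, 5, 7, 6, 4, 6, 4, 6, 6, 6, 4, 5, 7, 5, 7, 5, 4, 6],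
   [5, 7, 6, 4, 5, 6, 4, 7, 5, 7, 5, 6, 4, 6, 6, 7, 5, 6, 7],
   [7, 5, 6, 4, 5, 6, 6, 7, 5, 6, 6, 4, 6, 4, 7, 7, 5, 4, 6],
   [6, 7, 5, 7, 6, 4, 5, 6, 4, 7, 5, 7, 5, 6, 4, 6, 6, 7, 5],
   [6, 4, 6, 4, 6, 4, 7, 5, 7, 5, 4, 7, 6, 4, 6, 4, 5, 6, 4],
   [6, 4, 5, 6, 6, 7, 5, 6, 4, 6, 6, 4, 6, 4, 7, 5, 7, 6, 4],
   [5, 7, 6, 4, 5, 6, 4, 7, 5, 7, 5, 6, 4, 7, 7, 5, 4, 7, 6],
   [5, 7, 6, 4, 6, 4, 6, 6, 6, 4, 5, 7, 5, 7, 5, 6, 7, 6, 6],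
   [7, 5, 6, 4, 7, 5, 6, 6, 4, 6, 4, 6, 6, 7, 5, 7, 6, 4, 6],
   [4, 6, 7, 5, 4, 6, 4, 7, 5, 4, 7, 5, 7, 6, 4, 6, 4, 6, 6],
   [5, 7, 6, 4, 5, 6, 4, 6, 7, 5, 6, 6, 7, 5, 7, 6, 4, 5, 6],
   [5, 7, 5, 6, 7, 5, 4, 6, 4, 7, 5, 4, 6, 4, 7, 7, 5, 4, 6],
   [5, 7, 6, 4, 5, 6, 7, 7, 5, 4, 6, 7, 5, 7, 6, 4, 5, 7, 6],
   [5, 7, 5, 6, 7, 5, 4, 6, 4, 7, 5, 4, 6, 4, 7, 7, 5, 7, 6],
   [4, 6, 7, 7, 5, 7, 6, 4, 6, 4, 5, 6, 7, 5, 4, 6, 4, 7, 5, 4],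
   [4, 6, 4, 6, 6, 6, 4, 6, 7, 5, 4, 7, 5, 4, 7, 5, 6, 4, 5, 7]]

/-- the fixed points of `u` -/
@[irreducible] def Fu : ℕ := ([0, 5, 58, 771, 956, 977, 1060, 1320, 1710, 1720, 1843, 1857, 2128, 2410, 2849,
  2969, 3278, 3547, 3551, 3878].map (Nat.shiftLeft 1)).sum

theorem ok_x : Ok xw := by decide
theorem ok_u : Ok uw := by decide

theorem ne_of_wd {w : List ℕ} (h : Ok w) {n : ℕ} (i : Fin 4060)
    (e : wd (List.replicate n w).flatten i ≠ i) : gw w ^ n ≠ 1 := fun e' => e (by rw [← h.pow_smul, e', one_smul])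

theorem ord_x : orderOf (gw xw) = 13 :=
  have : Fact (Nat.Prime 13) := ⟨by norm_num⟩
  orderOf_eq_prime (gw_pow (by decide +kernel)) (pow_one (gw xw) ▸ ne_of_wd ok_x 1 (by decide +kernel))

theorem u_four : gw uw ^ 4 = 1 := gw_pow (by decide +kernel)

theorem ord_u : orderOf (gw uw) = 4 :=
  orderOf_eq_prime_pow (p := 2) (n := 1) (ne_of_wd ok_u 1 (by decide +kernel)) u_four

theorem mem_norm {w a : List ℕ} (hw : Ok w) (ha : Ok a) (n : ℕ) (h : lall (fun b => Nat.beq (wd (w ++ a) b)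
    (wd ((List.replicate n a).flatten ++ w) b)) [1, 28, 191] = true) :
    gw w ∈ normalizer (zpowers (gw a) : Set Gam) := by
  have := gw_eq (hw.append ha) ((ha.rep n).append hw) h
  rw [gw_append, gw_append, gw_rep] at this
  rw [mem_norm_iff, this, mul_inv_cancel_right]
  exact npow_mem_zpowers _ _

theorem cent_x : ∀ k ∈ St, Commute k (gw xw) → k ∈ zpowers (gw xw) := fun k hk hc => by
  have e : ∀ k ∈ St ⊓ centralizer {gw xw}, ∀ (n : ℕ) (i : Fin 4060), gw xw ^ n • k • i = k • gw xw ^ n • i :=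
    fun k hk n i => by
      rw [← mul_smul, ← mul_smul, (Commute.pow_right (mem_centralizer_singleton_iff.1 hk.2) n).eq]
  obtain ⟨w, hw, h⟩ := cover (H := St ⊓ centralizer {gw xw}) (R := [[]]) (b := 2) 13
    (fun y => !tst A0 y && frc (adj y) fun a => lall (fun z : ℕ × Bool =>
      tst a (wd (List.replicate z.1 xw).flatten y) == z.2)
      [(1, true), (2, false), (3, false), (4, false), (5, false), (6, true)])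
    ⟨ok_x, ok_x.mem, mem_centralizer_singleton_iff.2 rfl⟩
    (List.forall_mem_singleton.2 ⟨by decide, one_mem _⟩)
    (fun k hk h => rigid [] (0 :: (List.range 13).map fun n => wd (List.replicate n xw).flatten 2) (by simp)
      (List.forall_mem_cons.2 ⟨⟨0, rfl, hk.1⟩, List.forall_mem_map.2 fun n _ =>
        ⟨_, ok_x.pow_smul n 2, by rw [← e k hk, h]⟩⟩) [] [6, 4, 7, 5, 4, 7, 5] (by decide +kernel))
    (fun k hk => by simp only [frc_eq, inv_A0 hk.1, tst_eq (adj _), ← ok_x.pow_smul, e k hk, adj_smul])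
    (by decide +kernel) k ⟨hk, mem_centralizer_singleton_iff.2 hc⟩
  rw [List.mem_singleton.1 hw] at h
  simpa [gw] using h

theorem Fu_spec (i : Fin 4060) : Fu.testBit i = true ↔ gw uw • i = i := by
  have := allN_spec (p := fun i => tst Fu i == Nat.beq (wd uw i) i) (N := 4060) (by decide +kernel) i i.2
  rw [beq_iff_eq, tst_eq] at this
  rw [this, Nat.beq_eq, ← ok_u.smul, Fin.val_inj]

theorem inv_Fu {k : Gam} (h : k ∈ normalizer (zpowers (gw uw) : Set Gam)) : Inv k Fu := by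
  have key : ∀ k ∈ normalizer (zpowers (gw uw) : Set Gam), ∀ i : Fin 4060, gw uw • k • i = k • i → gw uw • i = i :=
    fun k hk i e => by
      have := zpowers_le (H := stabilizer Gam (k • i)).2 e (mem_norm_iff.1 hk)
      rwa [mem_stabilizer_iff, mul_smul, mul_smul, inv_smul_smul, smul_left_cancel_iff] at this
  exact fun i => Bool.eq_iff_iff.2 ((Fu_spec _).trans (Iff.trans ⟨key k h i, fun e =>
    key k⁻¹ (inv_mem h) (k • i) (by rwa [inv_smul_smul])⟩ (Fu_spec _).symm))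

theorem norm_u : ∀ k ∈ St ⊓ normalizer (zpowers (gw uw) : Set Gam),
    ∃ w ∈ RR, k * (gw w)⁻¹ ∈ zpowers (gw uw) := by
  have h : lall (fun w => decide (Ok w) && lany (fun n => lall (fun b => Nat.beq (wd (w ++ uw) b)
    (wd ((List.replicate n uw).flatten ++ w) b)) [1, 28, 191]) [1, 3]) RR = true := by decide +kernel
  refine cover (b := 30) 4 (fun y => !tst A0 y && Nat.beq (cn Fu y y) 14)
    ⟨ok_u, ok_u.mem, le_normalizer (mem_zpowers _)⟩ (fun w hw => ?_)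
    (fun k hk h => rigid [Fu] [0, 30] (List.forall_mem_singleton.2 (inv_Fu hk.2))
      (List.forall_mem_cons.2 ⟨⟨0, rfl, hk.1⟩, List.forall_mem_singleton.2 ⟨30, rfl, h⟩⟩)
      [(58, 58, 10), (956, 3, 157), (771, 38, 132), (58, 4, 52), (254, 254, 20), (76, 76, 8), (274, 58, 0),
        (2301, 2301, 1), (2319, 2319, 0)] [5, 7, 6, 6] (by decide +kernel))
    (fun k hk => by rw [inv_A0 hk.1, cn_smul (inv_Fu hk.2)]) (by decide +kernel)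
  have := lall_iff.1 h w hw
  rw [Bool.and_eq_true, decide_eq_true_iff, lany_iff] at this
  obtain ⟨h1, n, -, h2⟩ := this
  exact ⟨h1, h1.mem, mem_norm h1 ok_u n h2⟩

theorem fix_p {K : Subgroup Gam} (hK : K ≤ St) (hc : Nat.card K = 15600) (hx : gw xw ∈ K) :
    ∃ p : Fin 4060, (adj 0).testBit p = true ∧ K ≤ stabilizer Gam p := by
  have hun := mem_norm ok_u ok_x 5 (by decide +kernel)
  have hu := mem_of_card ord_x cent_x hK hc hx ok_u.mem hun u_four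
  have h52 : ∀ M : Subgroup Gam, gw xw ∈ M → gw uw ∈ M → 52 ∣ Nat.card M := fun M a b =>
    Nat.Coprime.mul_dvd_of_dvd_of_dvd (m := 13) (n := 4) (by decide) (ord_x ▸ M.orderOf_dvd_natCard a)
      (ord_u ▸ M.orderOf_dvd_natCard b)
  have hp : ∀ p ∈ [1843, 3278, 3878], p < 4060 ∧ (adj 0).testBit p = true ∧ wd xw p = p ∧ wd uw p = p := by
    decide +kernel
  obtain ⟨S, h1, h2, h3, h4⟩ := exists_eight ord_u hu (by rw [hc]; decide)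
  obtain ⟨v, hv, h5⟩ := SetLike.not_le_iff_exists.1 h4
  obtain ⟨w, hw, h6⟩ := norm_u v ⟨hK (h1 hv).1, (h1 hv).2⟩
  have h7 : gw w ∈ S := S.inv_mem_iff.1 ((S.mul_mem_cancel_left hv).1 (zpowers_le.2 h2 h6))
  have h8 := lall_iff.1 (show lall (fun w => decide (Ok w) && (w.isEmpty ||
    (!Nat.beq (wd (List.replicate 8 w).flatten 30) 30 ||
    (lany (fun p => Nat.beq (wd w p) p) [1843, 3278, 3878] && allLt (fun r => !Nat.beq (wd (w ++ xw) 2)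
      (wd ((List.replicate r xw).flatten ++ w) 2)) 13 ||
    Nat.ble 301 (pcN (wk [xw, w] ([12, 12, 12, 11, 11, 10, 12, 12, 11, 10, 12, 12, 12, 10, 12, 11, 12, 12,
      12, 12, 11, 12, 11, 12, 12, 12, 12, 12, 10, 12].flatMap fun j => 1 :: List.replicate j 0) 1843 0))))))
    RR = true by decide +kernel) w hw
  simp only [Bool.and_eq_true, Bool.or_eq_true, decide_eq_true_iff, List.isEmpty_iff, Bool.not_eq_true',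
    lany_iff, allLt_iff, Nat.ble_eq] at h8
  obtain ⟨ok, rfl | h8 | ⟨⟨p, h8, h9⟩, h10⟩ | h8⟩ := h8
  · exact absurd (by simpa [gw] using h6) h5
  · exact absurd (orderOf_dvd_iff_pow_eq_one.1 (h3 ▸ S.orderOf_dvd_natCard h7))
      (ne_of_wd ok 30 (Nat.ne_of_beq_eq_false h8))
  · obtain ⟨a1, a2, a3, a4⟩ := hp p h8
    have b1 : gw xw ∈ K ⊓ stabilizer Gam (⟨p, a1⟩ : Fin 4060) := ⟨hx, Fin.ext ((ok_x.smul _).trans a3)⟩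
    have b2 := card_eq_mul_relIndex (normalizer (zpowers (gw xw) : Set Gam)) (K ⊓ stabilizer Gam (⟨p, a1⟩ : Fin 4060))
    have b3 := hc ▸ card_dvd_of_le (inf_le_left (a := K) (b := stabilizer Gam (⟨p, a1⟩ : Fin 4060)))
    have b4 := relIndex_mod ord_x (fun h => absurd (h.trans b3) (by decide)) b1
    obtain ⟨c, b5⟩ := h52 (normalizer (zpowers (gw xw) : Set Gam) ⊓ (K ⊓ stabilizer Gam (⟨p, a1⟩ : Fin 4060)))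
      ⟨le_normalizer (mem_zpowers _), b1⟩ ⟨hun, hu, Fin.ext ((ok_u.smul _).trans a4)⟩
    have b6 := mt relIndex_eq_one.1 fun h : K ⊓ stabilizer Gam (⟨p, a1⟩ : Fin 4060) ≤ _ => by
      obtain ⟨r, hr, e⟩ := Finset.mem_image.1 (mem_zpowers_iff_mem_range_orderOf.1 (mem_norm_iff.1
        (h ⟨(h1 h7).1, Fin.ext ((ok.smul _).trans (Nat.eq_of_beq_eq_true h9))⟩)))
      refine Nat.ne_of_beq_eq_false (h10 r (ord_x ▸ Finset.mem_range.1 hr)) ?_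
      refine ((ok.append ok_x).smul 2).symm.trans (Eq.trans ?_ (((ok_x.rep r).append ok).smul 2))
      rw [gw_append, gw_append, gw_rep, e, inv_mul_cancel_right]
    refine ⟨⟨p, a1⟩, a2, inf_eq_left.1 (eq_of_le_of_card_ge inf_le_left ?_)⟩
    rw [b5] at b2
    generalize relIndex (G := Gam) _ _ = m at b2 b4 b6
    have b7 : m ∣ 300 := Nat.dvd_of_mul_dvd_mul_left (by decide : 0 < 52)
      ((Dvd.intro c (by rw [b2]; ring)).trans b3)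
    have b8 : m = 300 := (by decide +kernel : ∀ m ≤ 300, m ∣ 300 → m % 13 = 1 → m ≠ 1 → m = 300) m
      (Nat.le_of_dvd (by decide) b7) b7 b4 b6
    have b9 : 0 < c := Nat.pos_of_ne_zero fun e => Nat.card_pos.ne' (b2.trans (by rw [e]; simp))
    rw [hc, b2, b8]
    omega
  · have b1 := card_eq_orbit_mul K (1843 : Fin 4060)
    have b2 := Nat.le_of_dvd Nat.card_pos (h52 (K ⊓ stabilizer Gam (1843 : Fin 4060))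
      ⟨hx, Fin.ext ((ok_x.smul _).trans (hp _ (by decide)).2.2.1)⟩
      ⟨hu, Fin.ext ((ok_u.smul _).trans (hp _ (by decide)).2.2.2)⟩)
    have b3 := h8.trans ((ncard_testBit _).ge.trans (Set.ncard_le_ncard (wk_spec (O := orbit K (1843 : Fin 4060))
      (List.forall_mem_cons.2 ⟨⟨ok_x, mapsTo_smul_orbit (⟨_, hx⟩ : K) _⟩, List.forall_mem_singleton.2
        ⟨ok, mapsTo_smul_orbit (⟨_, (h1 h7).1⟩ : K) _⟩⟩) _ (mem_orbit_self _) (by simp))))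
    exact absurd (hc ▸ b1 ▸ Nat.mul_le_mul b3 b2) (by decide)

/-- The subgroups of index 2304. -/
theorem exists_fix_adj {K : Subgroup Gam} (hK : K ≤ St) (hc : Nat.card K = 15600) :
    ∃ p : Fin 4060, (adj 0).testBit p = true ∧ K ≤ stabilizer Gam p := by
  have : Fact (Nat.Prime 13) := ⟨by norm_num⟩
  have h0 : ∀ y : St, orderOf (y : Gam) = 13 → ∃ P : Sylow 13 St, (P : Subgroup St) = zpowers y := fun y hy => by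
    have h1 : Nat.card (zpowers y) = 13 ^ 1 := by rw [Nat.card_zpowers, ← orderOf_coe, hy]; rfl
    exact ⟨(IsPGroup.of_card h1).toSylow fun ⟨c, e⟩ => by
      have := (zpowers y).card_mul_index
      rw [h1, e, card_stab] at this
      omega, rfl⟩
  obtain ⟨y, hy⟩ := exists_prime_orderOf_dvd_card' (G := K) 13 (by rw [hc]; decide)
  obtain ⟨P, hP⟩ := h0 ⟨y, hK y.2⟩ ((orderOf_coe y).trans hy)
  obtain ⟨Q, hQ⟩ := h0 ⟨_, ok_x.mem⟩ ord_x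
  obtain ⟨s, hs⟩ := exists_smul_eq St P Q
  obtain ⟨z, hz, e⟩ : (⟨_, ok_x.mem⟩ : St) ∈ ((s • P : Sylow 13 St) : Subgroup St) := hs ▸ hQ ▸ mem_zpowers _
  obtain ⟨p, h1, h2⟩ := fix_p (cj_le_St s.2 hK) ((card_cj _ _).trans hc)
    ⟨z, zpowers_le (H := K.subgroupOf St).2 y.2 (hP ▸ hz), congrArg Subtype.val e⟩
  rw [← smul_inv_smul (s : Gam) p] at h1 h2
  exact ⟨_, (adj_St s.2 _).symm.trans h1, cj_le.1 h2⟩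

end CL.Ru
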