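import Cfsg.Agent.SPOR.FiS1
import Cfsg.Agent.KSG.SchurCov

/-!
Triple covers of presented groups from a model in which one relator fails.
-/

set_option autoImplicit false

namespace CL.FiS

open Cfsg CL.CE Subgroup

universe u

variable {α : Type} [DecidableEq α] {edges : List (α × ℕ × α)} {extra : List (FreeGroup α)}

theorem exists_cover {Q : Type u} [Group Q] [Finite (Spor.CoxPresented α edges extra)] (cd : α → ℕ)
    {u : ℕ → Q} {g : ℕ → Spor.CoxPresented α edges extra} (hg : ∀ x, g (cd x) = PresentedGroup.of x)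
    (h1 : ∀ i, (u i = 1 ∧ g i = 1) ∨ ∃ a, cd a = i) {R : List (List ℕ)} {r : List ℕ}
    (hu : Pres u id R) (hG : Pres g id (R ++ [r])) (h3 : ev u r ^ 3 = 1) (hne : ev u r ≠ 1) {e : ℤ}
    (hcj : ∀ a, u (cd a) * ev u r * (u (cd a))⁻¹ = ev u r ^ e)
    (hR : (coxRels edges extra cd id).all (amongRel id (R ++ [r])) = true) :
    ∃ (K : Type u) (_ : Group K) (_ : Finite K) (σ : K →* Spor.CoxPresented α edges extra)
      (x : ℕ → K) (ζ : K), (∀ a, σ (x (cd a)) = PresentedGroup.of a) ∧ Pres x id R ∧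
      closure (Set.range fun a => x (cd a)) = ⊤ ∧ σ.ker = zpowers ζ ∧ orderOf ζ = 3 ∧
      ∀ a, x (cd a) * ζ * (x (cd a))⁻¹ = ζ ^ e := by
  let K := closure (Set.range fun a => (u (cd a), g (cd a)))
  have hK : ∀ i, (u i, g i) ∈ K := fun i => by
    rcases h1 i with ⟨e1, e2⟩ | ⟨a, rfl⟩
    · rw [e1, e2]; exact one_mem K
    · exact subset_closure ⟨a, rfl⟩
  let x : ℕ → K := fun i => ⟨_, hK i⟩
  let σ : K →* Spor.CoxPresented α edges extra := (MonoidHom.snd _ _).comp K.subtype
  let τ : K →* Q := (MonoidHom.fst _ _).comp K.subtype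
  have ext : ∀ {a b : K}, τ a = τ b → σ a = σ b → a = b := fun h h' => Subtype.ext (Prod.ext h h')
  have eσ : ∀ w, σ (ev x w) = ev g w := fun w => map_ev σ x w
  have eτ : ∀ w, τ (ev x w) = ev u w := fun w => map_ev τ x w
  have hr : σ (ev x r) = 1 := (eσ r).trans (hG.rel r (by simp))
  have hP : Pres x id R := ⟨fun a => ext (hu.inv a) (hG.inv a), fun w hw =>
    ext ((eτ w).trans (hu.rel w hw)) ((eσ w).trans (hG.rel w (by simp [hw])))⟩
  have hT : closure (Set.range fun a => x (cd a)) = ⊤ := by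
    apply map_injective K.subtype_injective
    rw [MonoidHom.map_closure, ← Set.range_comp, ← MonoidHom.range_eq_map, range_subtype]
    rfl
  have hc : ∀ a, x (cd a) * ev x r * (x (cd a))⁻¹ = ev x r ^ e := fun a => ext
    (by rw [map_mul, map_mul, map_inv, map_zpow, eτ]; exact hcj a)
    (by rw [map_mul, map_mul, map_inv, map_zpow, hr]; simp)
  have ho : orderOf (ev x r) = 3 := orderOf_eq_prime
    (ext (by rw [map_pow, eτ, h3, map_one]) (by rw [map_pow, hr, one_pow, map_one]))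
    fun h => hne (by rw [← eτ, h, map_one])
  have hf : Finite (zpowers (ev x r)) := Nat.finite_of_card_ne_zero (by rw [Nat.card_zpowers, ho]; decide)
  have hn : (zpowers (ev x r)).Normal := by
    rw [← normalizer_eq_top_iff, eq_top_iff, ← hT, closure_le]
    rintro _ ⟨a, rfl⟩
    refine mem_normalizer_fintype ?_
    rintro _ ⟨k, rfl⟩
    exact conj_zpow (a := x (cd a)) ▸ zpow_mem (hc a ▸ zpow_mem (mem_zpowers _) e) k
  have hk : σ.ker = zpowers (ev x r) := le_antisymm (fun z hz => mem_of_pres cd (g := x) hg _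
    (Pres.quot hP _ (R₂ := [r]) (by simp)) hR (hT ▸ mem_top z) hz) (zpowers_le.2 hr)
  exact ⟨K, inferInstance, (MonoidHom.finite_iff_finite_ker_range σ).2 ⟨hk ▸ hf, inferInstance⟩,
    σ, x, _, hg, hP, hT, hk, ho, hc⟩

theorem sq_mem_commutator {K : Type*} [Group K] {S : Set K} (hS : closure S = ⊤)
    (h : ∀ x ∈ S, x * x = 1) (y : K) : y ^ 2 ∈ _root_.commutator K := by
  have : closure S ≤ ((powMonoidHom 2).comp (Abelianization.of (G := K))).ker :=
    (closure_le _).2 fun x hx => by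
      show Abelianization.of x ^ 2 = 1
      rw [← map_pow, pow_two, h x hx, map_one]
  have h2 : Abelianization.of y ^ 2 = 1 := this (hS ▸ mem_top y)
  rwa [← map_pow, ← MonoidHom.mem_ker, Abelianization.ker_of] at h2

theorem three_dvd_mult {Q : Type u} [Group Q] [Finite (Spor.CoxPresented α edges extra)]
    (cd : α → ℕ) {u : ℕ → Q} {g : ℕ → Spor.CoxPresented α edges extra}
    (hg : ∀ x, g (cd x) = PresentedGroup.of x)
    (h1 : ∀ i, (u i = 1 ∧ g i = 1) ∨ ∃ a, cd a = i) {R : List (List ℕ)} {r : List ℕ}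
    (hu : Pres u id R) (hG : Pres g id (R ++ [r])) (h3 : ev u r ^ 3 = 1) (hne : ev u r ≠ 1)
    (hcj : ∀ a, Commute (u (cd a)) (ev u r))
    (hR : (coxRels edges extra cd id).all (amongRel id (R ++ [r])) = true) :
    3 ∣ Nat.card (Schur.Mult (Spor.CoxPresented α edges extra)) := by
  obtain ⟨K, _, _, σ, x, ζ, k1, k2, k3, k4, k5, k6⟩ := exists_cover cd hg h1 hu hG h3 hne (e := 1)
    (fun a => by rw [(hcj a).eq]; simp) hR
  rw [← k5, ← Nat.card_zpowers, ← k4]
  refine SchurC.card_dvd_mult_of_stem ⟨fun y => ?_, ?_, ?_⟩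
  · exact let ⟨z, _, e⟩ := map_closure_gens cd k1 y; ⟨z, e⟩
  · rw [k4, zpowers_le, ← centralizer_univ, ← coe_top, ← k3, centralizer_closure]
    rintro _ ⟨a, rfl⟩
    exact mul_inv_eq_iff_eq_mul.1 ((k6 a).trans (zpow_one ζ))
  · rw [k4, zpowers_le]
    have := sq_mem_commutator k3 (by
      rintro _ ⟨a, rfl⟩
      exact mul_eq_one_iff_eq_inv.2 (k2.inv _)) (ζ ^ 2)
    rwa [← pow_mul, pow_succ, ← k5, pow_orderOf_eq_one, one_mul] at this

end CL.FiS
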