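import Cfsg.Agent.SPOR.FiS3
import Cfsg.Agent.SPOR.FiS4D
import Cfsg.Agent.SPOR.FiEx24

/-!
The triple cover of Fi24.
-/

set_option autoImplicit false
set_option maxRecDepth 100000
set_option Elab.async false
set_option linter.constructorNameAsVariable false

namespace CL.FiS

open Cfsg CL.CE CL.K CL.Net CL.Fi Subgroup

/-- a permutation of the points together with a cocycle -/
def cy (σ : Equiv.Perm ℕ) (c : ℕ → ZMod 3) : Equiv.Perm (ℕ × ZMod 3) where
  toFun v := (σ v.1, c v.1 - v.2)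
  invFun v := (σ⁻¹ v.1, c (σ⁻¹ v.1) - v.2)
  left_inv v := by simp
  right_inv v := by simp

theorem cy_apply (σ : Equiv.Perm ℕ) (c : ℕ → ZMod 3) (x : ℕ) (i : ZMod 3) :
    cy σ c (x, i) = (σ x, c x - i) := rfl

/-- the value given by two bit planes -/
def vb (a b : Bool) : ZMod 3 := cond a 1 (cond b 2 0)

theorem vb_add : ∀ a b c d : Bool, (a && b) = false → (c && d) = false →
    (((a || c) ^^ ((a || d) ^^ (b || c))) && ((b || d) ^^ ((a || d) ^^ (b || c)))) = false ∧
    vb ((a || c) ^^ ((a || d) ^^ (b || c))) ((b || d) ^^ ((a || d) ^^ (b || c))) =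
      -(vb a b + vb c d) := by decide

/-- the cocycle of a word -/
noncomputable def run (nets : List (List (ℕ × ℕ))) (mp c1 c2 : List ℕ) (k : ℕ → ℕ → Bool)
    (w : List ℕ) : ℕ → ℕ → Bool :=
  List.rec (motive := fun _ => ℕ → ℕ → Bool) k (fun a _ ih A B =>
    force (app (nets.getD (mp.getD a 0) []) A) fun A => force (app (nets.getD (mp.getD a 0) []) B)
      fun B => force (c1.getD a 0) fun C => force (c2.getD a 0) fun D =>
        force (Nat.xor (Nat.lor A D) (Nat.lor B C)) fun t => force (Nat.xor (Nat.lor A C) t) fun A' =>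
          force (Nat.xor (Nat.lor B D) t) fun B' => ih A' B') w

section

variable {N : ℕ} {nets : List (List (ℕ × ℕ))} {mp c1 c2 : List ℕ}

/-- the generators -/
def cu (nets : List (List (ℕ × ℕ))) (mp c1 c2 : List ℕ) (a : ℕ) : Equiv.Perm (ℕ × ZMod 3) :=
  if a < mp.length then
    cy (sigma nets (mp.getD a 0)) fun x => vb ((c1.getD a 0).testBit x) ((c2.getD a 0).testBit x)
  else 1

/-- the planes `A`, `B` give the cocycle of `p` -/
def Sp (nets : List (List (ℕ × ℕ))) (mp c1 c2 p : List ℕ) (A B : ℕ) : Prop :=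
  ∀ x, (A.testBit x && B.testBit x) = false ∧ ∀ i, ev (cu nets mp c1 c2) p (x, i) =
    (ev (fun a => sigma nets (mp.getD a 0)) p x,
      (-1) ^ p.length * (vb (A.testBit x) (B.testBit x) + i))

theorem run_spec (hV : Valid N nets) (hc : ∀ a < mp.length, c1.getD a 0 &&& c2.getD a 0 = 0)
    {k : ℕ → ℕ → Bool} : ∀ {w p : List ℕ} {A B : ℕ}, (∀ a ∈ w, a < mp.length) →
      Sp nets mp c1 c2 p A B → run nets mp c1 c2 k w A B = true →
      ∃ A' B', Sp nets mp c1 c2 (p ++ w) A' B' ∧ k A' B' = true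
  | [], p, A, B, _, h, e => ⟨A, B, by rwa [List.append_nil], e⟩
  | a :: w, p, A, B, hw, h, e => by
    have ha := hw a List.mem_cons_self
    rw [List.append_cons]
    refine run_spec hV hc (fun b hb => hw b (List.mem_cons_of_mem _ hb)) (fun x => ?_)
      (by simpa only [run, force_eq] using e)
    have h1 := (validNet_spec (hV.getD (mp.getD a 0))).1
    have h2 := congrArg (fun y => y.testBit x) (hc a ha)
    simp only [Nat.testBit_and, Nat.zero_testBit] at h2
    obtain ⟨h3, h4⟩ := h (sigma nets (mp.getD a 0) x)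
    obtain ⟨h5, h6⟩ := vb_add _ _ _ _ h3 h2
    simp only [Nat.xor_eq, Nat.lor_eq, Nat.testBit_xor, Nat.testBit_or, h1]
    refine ⟨h5, fun i => ?_⟩
    rw [ev_append, ev_append, ev_singleton, ev_singleton, cu, if_pos ha, Equiv.Perm.mul_apply,
      Equiv.Perm.mul_apply]
    refine (h4 _).trans (Prod.ext rfl ?_)
    rw [List.length_append, List.length_singleton, pow_succ]
    exact ((congrArg (fun y => (-1) ^ p.length * -1 * (y + i)) h6).trans (by ring)).symm

theorem ev_cu (hV : Valid N nets) (hc : ∀ a < mp.length, c1.getD a 0 &&& c2.getD a 0 = 0)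
    {w : List ℕ} {A B : ℕ} (hw : ev (fun a => sigma nets (mp.getD a 0)) w = 1)
    (h : (ltA mp.length w && Nat.beq (w.length % 2) 0 &&
      run nets mp c1 c2 (fun A' B' => Nat.beq A' A && Nat.beq B' B) w 0 0) = true) (x : ℕ)
    (i : ZMod 3) : ev (cu nets mp c1 c2) w (x, i) = (x, vb (A.testBit x) (B.testBit x) + i) := by
  simp only [Bool.and_eq_true, ltA_iff, Nat.beq_eq] at h
  obtain ⟨A', B', h1, h2⟩ := run_spec (p := []) hV hc h.1.1
    (fun x => ⟨by simp, fun i => by simp [ev_nil, vb]⟩) h.2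
  simp only [Bool.and_eq_true, Nat.beq_eq] at h2
  obtain ⟨rfl, rfl⟩ := h2
  rw [List.nil_append] at h1
  rw [(h1 x).2, hw, (Nat.even_iff.2 h.1.2).neg_one_pow, one_mul]
  rfl

end

namespace D24

def mp : List ℕ := [8, 9, 0, 1, 2, 3, 4, 5, 6, 12, 15, 14]

noncomputable def ck (A B : ℕ) (w : List ℕ) : Bool :=
  ltA mp.length w && Nat.beq (w.length % 2) 0 &&
    run Fi.D24.nets mp c1 c2 (fun A' B' => Nat.beq A' A && Nat.beq B' B) w 0 0

def R : List (List ℕ) := R24.take 79

def zw : List ℕ := wpow [3, 2, 1, 0, 10, 11, 3, 4, 5, 6, 9, 3, 7, 8] 17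

theorem ck0 : allLt (fun a => Nat.beq (Nat.land (c1.getD a 0) (c2.getD a 0)) 0) 12 = true := by
  decide +kernel
theorem ck1 : (R.take 30).all (ck 0 0) = true := by decide +kernel
theorem ck2 : ((R.drop 30).take 25).all (ck 0 0) = true := by decide +kernel
theorem ck3 : ((R.drop 55).take 23).all (ck 0 0) = true := by decide +kernel
theorem ck4 : (R.drop 78).all (ck 0 0) = true := by decide +kernel
theorem ck5 : ck 0 (full 306936) zw = true := by decide +kernel

theorem ck_R : ∀ w ∈ R, ck 0 0 w = true := by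
  rw [← List.take_append_drop 30 R, ← List.take_append_drop 25 (R.drop 30), List.drop_drop,
    ← List.take_append_drop 23 (R.drop (30 + 25)), List.drop_drop]
  simp only [List.forall_mem_append]
  exact ⟨List.all_eq_true.1 ck1, List.all_eq_true.1 ck2, List.all_eq_true.1 ck3,
    List.all_eq_true.1 ck4⟩

theorem pres24 : Pres CL.Fi24.g id (R ++ [zw]) := CL.Fi24.pres.mono (by decide +kernel)

theorem ev_sigma {w : List ℕ} (hw : w ∈ R ++ [zw]) :
    ev (fun a => sigma Fi.D24.nets (mp.getD a 0)) w = 1 := by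
  obtain ⟨φ, h1, -⟩ := exists_coxHom (edges := Spor.Fi24.edges) (extra := Spor.Fi24.extra)
    Fi.D24.cd Fi.D24.pres (by decide +kernel)
  have h2 : ∀ a ∈ w, a < 12 := ltA_iff.1
    (List.all_eq_true.1 (by decide +kernel : (R ++ [zw]).all (ltA 12) = true) w hw)
  rw [← map_one φ, ← pres24.rel w hw, map_ev]
  refine ev_congr fun a ha => ?_
  have ha := h2 a ha
  symm
  interval_cases a
  exacts [h1 .a, h1 .b, h1 .c, h1 .d, h1 .e, h1 .f, h1 .g, h1 .h, h1 .i, h1 .j, h1 .k, h1 .l]

theorem ev_u {w : List ℕ} (hw : w ∈ R ++ [zw]) {A B : ℕ} (h : ck A B w = true) (x : ℕ) (i : ZMod 3) :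
    ev (cu Fi.D24.nets mp c1 c2) w (x, i) = (x, vb (A.testBit x) (B.testBit x) + i) :=
  ev_cu (mp := mp) Fi.D24.valid (fun a (ha : a < 12) => Nat.eq_of_beq_eq_true (allLt_iff.1 ck0 a ha)) (ev_sigma hw) h x i

theorem rel_u {w : List ℕ} (hw : w ∈ R) : ev (cu Fi.D24.nets mp c1 c2) w = 1 :=
  Equiv.ext fun v => (ev_u (List.mem_append_left _ hw) (ck_R w hw) v.1 v.2).trans (by simp [vb])

theorem pres_u : Pres (cu Fi.D24.nets mp c1 c2) id R := by
  refine ⟨fun a => eq_inv_iff_mul_eq_one.2 ?_, fun _ => rel_u⟩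
  by_cases ha : a < 12
  · simpa [ev_cons, ev_nil] using rel_u (w := [a, a]) (by interval_cases a <;> decide)
  · rw [id, cu, if_neg (show ¬ a < mp.length from ha), mul_one]

theorem ev_zw (x : ℕ) (i : ZMod 3) : ev (cu Fi.D24.nets mp c1 c2) zw (x, i) =
    (x, (if x < 306936 then 2 else 0) + i) := by
  rw [ev_u (by simp) ck5, testBit_full]
  by_cases h : x < 306936 <;> simp [h, vb]

theorem exists_cover24 : ∃ (K : Type) (_ : Group K) (_ : Finite K) (σ : K →* Spor.Fi24)
    (x : ℕ → K) (ζ : K), (∀ a, σ (x (CL.Fi24.code a)) = PresentedGroup.of a) ∧ Pres x id R ∧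
    closure (Set.range fun a => x (CL.Fi24.code a)) = ⊤ ∧ σ.ker = zpowers ζ ∧ orderOf ζ = 3 ∧
    ∀ a, x (CL.Fi24.code a) * ζ * (x (CL.Fi24.code a))⁻¹ = ζ ^ (-1 : ℤ) := by
  refine exists_cover CL.Fi24.code (g := CL.Fi24.g) (fun x => by cases x <;> rfl) (fun i => ?_)
    pres_u pres24 (Equiv.ext fun v => ?_) (fun h => ?_) (fun a => ?_) (by decide +kernel)
  · by_cases hi : i < 12
    · right
      interval_cases i
      exacts [⟨.a, rfl⟩, ⟨.b, rfl⟩, ⟨.c, rfl⟩, ⟨.d, rfl⟩, ⟨.e, rfl⟩, ⟨.f, rfl⟩, ⟨.g, rfl⟩, ⟨.h, rfl⟩,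
        ⟨.i, rfl⟩, ⟨.j, rfl⟩, ⟨.k, rfl⟩, ⟨.l, rfl⟩]
    · refine Or.inl ⟨if_neg hi, ?_⟩
      rw [CL.Fi24.g, coxG, lv, List.getElem?_eq_none (not_lt.1 hi)]
      rfl
  · obtain ⟨x, i⟩ := v
    rw [pow_three, Equiv.Perm.mul_apply, Equiv.Perm.mul_apply, ev_zw, ev_zw, ev_zw]
    exact Prod.ext rfl ((by decide : ∀ c i : ZMod 3, c + (c + (c + i)) = i) _ i)
  · have := ev_zw 0 0
    rw [h] at this
    exact absurd (congrArg Prod.snd this) (by decide)
  · have ha : CL.Fi24.code a < mp.length := by cases a <;> decide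
    rw [zpow_neg_one, mul_inv_eq_iff_eq_mul, eq_inv_mul_iff_mul_eq]
    refine Equiv.ext fun v => ?_
    obtain ⟨x, i⟩ := v
    have h1 : sigma Fi.D24.nets (mp.getD (CL.Fi24.code a) 0) x < 306936 ↔ x < 306936 := by
      have h2 := Fi.D24.valid.ev_lt [mp.getD (CL.Fi24.code a) 0] (p := x)
      have h3 := Fi.D24.valid.ev_fix [mp.getD (CL.Fi24.code a) 0] (p := x)
      rw [ev_singleton] at h2 h3
      exact ⟨fun h => not_le.1 fun h' => not_le.2 h ((h3 h').symm ▸ h'), h2⟩
    rw [Equiv.Perm.mul_apply, Equiv.Perm.mul_apply, ev_zw, cu, if_pos ha, cy_apply, cy_apply, ev_zw,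
      if_congr h1 rfl rfl]
    congr 1
    ring

end D24

theorem three_dvd24 : 3 ∣ Nat.card (Schur.Mult Spor.Fi24') := by
  obtain ⟨K, _, _, σ, x, ζ, k1, k2, k3, k4, k5, k6⟩ := D24.exists_cover24
  have hs : Function.Surjective σ := fun y => let ⟨z, _, e⟩ := map_closure_gens _ k1 y; ⟨z, e⟩
  have hm : (_root_.commutator K).map σ = _root_.commutator Spor.Fi24 := by
    rw [map_commutator_eq, MonoidHom.range_eq_top.2 hs]; rfl
  have h3 : ζ ^ 3 = 1 := k5 ▸ pow_orderOf_eq_one ζ
  have hζ : ζ ∈ _root_.commutator K := by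
    have := commutator_mem_commutator (mem_top (x (CL.Fi24.code .a))) (mem_top ζ)
    rw [commutatorElement_def, k6, zpow_neg_one] at this
    rwa [show ζ = (ζ⁻¹ * ζ⁻¹) * ζ ^ 3 by group, h3, mul_one]
  have hk : σ.ker ≤ _root_.commutator K := k4 ▸ zpowers_le.2 hζ
  let σ' : _root_.commutator K →* Spor.Fi24' :=
    (σ.comp (_root_.commutator K).subtype).codRestrict _ fun y => hm ▸ mem_map_of_mem σ y.2
  have hk' : σ'.ker = σ.ker.subgroupOf _ := by
    ext y
    exact Subtype.ext_iff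
  have hs' : Function.Surjective σ' := fun y =>
    let ⟨z, hz, e⟩ := hm.ge y.2; ⟨⟨z, hz⟩, Subtype.ext e⟩
  rw [← k5, ← Nat.card_zpowers, ← k4, ← Nat.card_congr (subgroupOfEquivOfLe hk).toEquiv, ← hk']
  refine SchurC.card_dvd_mult_of_stem ⟨hs', fun y hy => mem_center_iff.2 fun z => Subtype.ext ?_, ?_⟩
  · have : IsCyclic σ.ker := k4 ▸ inferInstance
    have h1 := Abelianization.commutator_subset_ker
      ((IsCyclic.mulAutMulEquiv σ.ker).toMonoidHom.comp MulAut.conjNormal) z.2
    rw [MonoidHom.mem_ker, MonoidHom.comp_apply, MulEquiv.coe_toMonoidHom,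
      MulEquiv.map_eq_one_iff] at h1
    have h2 := congrArg (fun f : MulAut σ.ker => (f ⟨y, hk'.le hy⟩ : K)) h1
    exact mul_inv_eq_iff_eq_mul.1 h2
  · have hp : Group.IsPerfect Spor.Fi24' := by
      have := CL.Fi24.isSimpleGroup_commutator
      refine ⟨(IsSimpleGroup.eq_bot_or_eq_top_of_normal _ inferInstance).resolve_left fun h => ?_⟩
      have : IsMulCommutative Spor.Fi24' := (commutator_eq_bot_iff _).1 h
      have h4 := (Group.is_simple_iff_prime_card (α := Spor.Fi24')).1 inferInstance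
      rw [CL.Fi24.card_commutator] at h4
      exact absurd h4 (by norm_num)
    let N := ⁅_root_.commutator K, _root_.commutator K⁆
    have h1 : ∀ y ∈ _root_.commutator K, y * y = 1 → y ∈ N := fun y hy e => by
      have h2 : σ y ∈ N.map σ := by
        rw [map_commutator, hm, ← map_subtype_commutator, hp.commutator_eq_top]
        exact ⟨⟨_, hm ▸ mem_map_of_mem σ hy⟩, trivial, rfl⟩
      obtain ⟨n, hn, e'⟩ := h2
      obtain ⟨j, hj⟩ := k4.le (show n⁻¹ * y ∈ σ.ker by
        rw [MonoidHom.mem_ker, map_mul, map_inv, e', inv_mul_cancel])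
      have h4 : QuotientGroup.mk' N y = QuotientGroup.mk' N (ζ ^ j) := by
        rw [show ζ ^ j = _ from hj, map_mul, map_inv, QuotientGroup.mk'_apply N n,
          (QuotientGroup.eq_one_iff _).2 hn, inv_one, one_mul]
      rw [← QuotientGroup.eq_one_iff, show y = y ^ 3 by rw [pow_three, e, mul_one],
        ← QuotientGroup.mk'_apply, map_pow, h4, ← map_pow, ← zpow_natCast, ← zpow_mul, mul_comm,
        zpow_mul, zpow_natCast, h3, one_zpow, map_one]
    have h2 : ∀ a b : Spor.Fi24.Gen, amongRel id D24.R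
        [CL.Fi24.code a, CL.Fi24.code b, CL.Fi24.code a, CL.Fi24.code b] = true →
        QuotientGroup.mk' N (x (CL.Fi24.code a)) = QuotientGroup.mk' N (x (CL.Fi24.code b)) :=
      fun a b h => by
        have h4 : σ (x (CL.Fi24.code a) * x (CL.Fi24.code b)) ∈ (_root_.commutator K).map σ := by
          rw [hm, map_mul, k1, k1]
          have e : ∀ a, CL.Fi24.code a < 12 ∧ PresentedGroup.of a = CL.Fi24.g (CL.Fi24.code a) :=
            fun a => by cases a <;> exact ⟨by decide, rfl⟩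
          rw [(e a).2, (e b).2]
          exact CL.Fi24.mul_mem_commutator (e a).1 (e b).1
        rw [← mem_comap, comap_map_eq_self hk] at h4
        have h5 := h1 _ h4 (by simpa [ev_cons, ev_nil, mul_assoc] using k2.eq_one h)
        rw [← QuotientGroup.eq_one_iff, ← QuotientGroup.mk'_apply, map_mul,
          mul_eq_one_iff_eq_inv, ← map_inv] at h5
        exact h5.trans (congrArg _ (k2.inv _).symm)
    have h4 : ∀ y, QuotientGroup.mk' N y ∈ zpowers (QuotientGroup.mk' N (x (CL.Fi24.code .l))) :=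
      fun y => by
        refine (closure_le ((zpowers _).comap (QuotientGroup.mk' N))).2 ?_ (k3 ▸ mem_top y)
        rintro _ ⟨a, rfl⟩
        have : QuotientGroup.mk' N (x (CL.Fi24.code a)) =
            QuotientGroup.mk' N (x (CL.Fi24.code .l)) := by
          cases a <;> first
            | exact h2 _ _ (by decide +kernel)
            | exact (h2 _ .c (by decide +kernel)).trans (h2 _ _ (by decide +kernel))
        exact this ▸ mem_zpowers _
    have h5 : _root_.commutator K ≤ N := commutator_le.2 fun a _ b _ => by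
      obtain ⟨i, hi⟩ := h4 a
      obtain ⟨j, hj⟩ := h4 b
      rw [← QuotientGroup.eq_one_iff, ← QuotientGroup.mk'_apply, map_commutatorElement, ← hi, ← hj]
      exact ((Commute.refl _).zpow_zpow i j).commutator_eq
    intro y _
    have := h5 y.2
    rw [show N = _ from (map_subtype_commutator _).symm] at this
    obtain ⟨z, hz, e⟩ := this
    exact (Subtype.ext e : z = y) ▸ hz

end CL.FiS
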