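import Cfsg.Agent.SPOR.FiS2
import Cfsg.Agent.SPOR.FiA10

/-!
Extensions of Fi24 by an abelian group centralised by the even elements: the holonomy argument.
-/

set_option autoImplicit false

namespace CL.FiS

open Cfsg CL.TT CL.TTU CL.FiA CL.Fi CL.CE CL.K Subgroup
open scoped commutatorElement

variable {G : Type*} [Group G]

theorem nonempty_NB_step {E : Set G} (hne : E.Nonempty) {n : ℕ}
    (h : ∀ d ∈ E, ∀ l : List G, l.length ≤ n → (∀ a ∈ l, a ∈ nb E d) →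
      (∀ a ∈ l, ∀ b ∈ l, Commute a b) → (NB (nb E d) l).Nonempty) :
    ∀ l : List G, l.length ≤ n + 1 → (∀ a ∈ l, a ∈ E) → (∀ a ∈ l, ∀ b ∈ l, Commute a b) →
      (NB E l).Nonempty
  | [], _, _, _ => hne
  | d :: l, h1, h2, h3 => by
    classical
    obtain ⟨x, hx⟩ := h d (h2 d List.mem_cons_self) (l.filter (· ≠ d))
      ((List.length_filter_le _ _).trans (by simpa using h1))
      (fun a ha => by
        rw [List.mem_filter] at ha
        exact ⟨h2 a (List.mem_cons_of_mem _ ha.1), by simpa using ha.2,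
          h3 d List.mem_cons_self a (List.mem_cons_of_mem _ ha.1)⟩)
      fun a ha b hb => h3 a (List.mem_cons_of_mem _ (List.mem_filter.1 ha).1) b
        (List.mem_cons_of_mem _ (List.mem_filter.1 hb).1)
    obtain ⟨⟨x1, x2, x3⟩, x4, x5⟩ := mem_NB.1 hx
    refine ⟨x, mem_NB.2 ⟨x1, fun e => x4 ?_, fun a ha => ?_⟩⟩
    · exact List.mem_filter.2 ⟨(List.mem_cons.1 e).resolve_left x2, by simpa using x2⟩
    · by_cases e : a = d
      · exact e ▸ x3
      · exact x5 a (List.mem_filter.2 ⟨(List.mem_cons.1 ha).resolve_left e, by simpa using e⟩)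

theorem chk_three : sub (full 306936) (Net.bfs D24.nets (U6.sing [0, 1, 2, 3, 4, 5, 6, 9, 11, 12]) 2
    (Nat.lor (Nat.land (D24.cmM 145) (Nat.xor (full 306936) (lmask [145])))
      (Nat.land (D24.cmM 3725) (Nat.xor (full 306936) (lmask [3725]))))) = true := by
  decide +kernel

theorem three_real {D : Set G} {p : ℕ → G} (R : Real 306936 D24.op D p) {c : G} (hc : c ∈ D) :
    ∃ u, u ∈ nb D (p 0) ∧ u ∈ nb D (p 102681) ∧ u ∈ nb D c := by
  have M := D24.mod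
  have key : ∀ u < 306936, u ≠ 0 → u ≠ 102681 → D24.cm 0 u = true → D24.cm 102681 u = true →
      ms 306936 p (Nat.land (D24.cmM u) (Nat.xor (full 306936) (lmask [u]))) ⊆
        {y | y ∈ D ∧ ∃ u, u ∈ nb D (p 0) ∧ u ∈ nb D (p 102681) ∧ u ∈ nb D y} :=
    fun u hu h0 h1 c0 c1 y hy => by
      rw [ms_land R, ms_compl R, M.ms_cmM R hu, ms_lmask R (by simpa using hu)] at hy
      exact ⟨hy.1.1, p u, ⟨R.mem hu, fun e => h0 (R.bij.injOn hu (by simp) e),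
        (M.commute_iff_cm R (by simp) hu).2 c0⟩, ⟨R.mem hu, fun e => h1 (R.bij.injOn hu (by simp) e),
        (M.commute_iff_cm R (by simp) hu).2 c1⟩, R.mem hu, fun e => hy.2.2 ⟨u, by simp, e⟩,
        hy.1.2.symm⟩
  have hw : ∀ w ∈ U6.sing [0, 1, 2, 3, 4, 5, 6, 9, 11, 12], (∀ a ∈ w, a < 17) ∧
      lact D24.T w 0 = 0 ∧ lact D24.T w 102681 = 102681 := by decide +kernel
  refine (M.ms_bfs_subset R (fun w h => (hw w h).1)
    (S := {y | y ∈ D ∧ ∃ u, u ∈ nb D (p 0) ∧ u ∈ nb D (p 102681) ∧ u ∈ nb D y}) ?_ 2 ?_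
    (ms_mono R chk_three (by rwa [ms_full R]))).2
  · rintro w h y hy ⟨-, u, h0, h1, h2⟩
    obtain ⟨w1, w2, w3⟩ := hw w h
    have c0 := (M.commute_lw_iff R w1 (by simp)).2 w2
    have c1 := (M.commute_lw_iff R w1 (by simp)).2 w3
    have hn := nm_of_mem_closure R.fs subset_rfl (inv_mem (M.lw_mem R w1))
    refine ⟨hy, _, hn.nb c0.inv_left u h0, hn.nb c1.inv_left u h1, hn u h2.1, fun e => h2.2.1 ?_, ?_⟩
    · rw [← e]; group
    · rw [← commute_cj_iff (lw p D24.pt w)]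
      simpa [mul_assoc] using h2.2.2
  · rw [ms_lor R]
    exact Set.union_subset
      (key 145 (by simp) (by simp) (by simp) (by decide +kernel) (by decide +kernel))
      (key 3725 (by simp) (by simp) (by simp) (by decide +kernel) (by decide +kernel))

theorem cj_nb {D : Set G} (g : Gp D) (k : G) {a u : G} (h : u ∈ nb D a) :
    k * u * k⁻¹ ∈ nb D (k * a * k⁻¹) :=
  ⟨g.nm k u h.1, fun e => h.2.1 (cj_inj e), (commute_cj_iff _ _ _).2 h.2.2⟩

section three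

variable {D : Set G} (h : Is24 D) (g : Gp D)
include h g

theorem three_far {a b c : G} (ha : a ∈ D) (hb : b ∈ far D a) (hc : c ∈ D) :
    ∃ u, u ∈ nb D a ∧ u ∈ nb D b ∧ u ∈ nb D c := by
  have := g.finite
  obtain ⟨p, R⟩ := D24.exists_real h
  obtain ⟨k, -, rfl, rfl⟩ := (r3_of_prim (g.prim fun _ hd _ => h.inter_nonempty hd)).far _
    (R.mem D24.mod.pos) (p 102681) ⟨R.mem (by simp), fun e =>
      absurd ((D24.mod.commute_zero_iff R (by simp)).1 e) (by simp)⟩ a ha b hb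
  obtain ⟨u, h1, h2, h3⟩ := three_real R (g.nm k⁻¹ c hc)
  exact ⟨_, cj_nb g k h1, cj_nb g k h2, by simpa [mul_assoc] using cj_nb g k h3⟩

/-- Any three points have a common neighbour. -/
theorem three {a b c : G} (ha : a ∈ D) (hb : b ∈ D) (hc : c ∈ D) :
    ∃ u, u ∈ nb D a ∧ u ∈ nb D b ∧ u ∈ nb D c := by
  by_cases e1 : Commute a b
  · by_cases e2 : Commute a c
    · by_cases e3 : Commute b c
      · obtain ⟨u, hu⟩ := nonempty_NB_step h.ne (n := 2) (fun d hd => nonempty_NB_step (h.loc d hd).ne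
          fun d' hd' => nonempty_NB_step ((h.loc d hd).loc d' hd').ne fun d'' hd'' l hl _ _ => by
            rw [List.length_eq_zero_iff.1 (Nat.le_zero.1 hl)]
            exact (((h.loc d hd).loc d' hd').loc d'' hd'').nonempty) [a, b, c] le_rfl
          (by simp [ha, hb, hc]) (by simp [e1, e2, e3, e1.symm, e2.symm, e3.symm])
        simp only [mem_NB, List.mem_cons, List.not_mem_nil, or_false, not_or, forall_eq_or_imp,
          forall_eq] at hu
        exact ⟨u, ⟨hu.1, hu.2.1.1, hu.2.2.1⟩, ⟨hu.1, hu.2.1.2.1, hu.2.2.2.1⟩, hu.1, hu.2.1.2.2,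
          hu.2.2.2.2⟩
      · obtain ⟨u, h1, h2, h3⟩ := three_far h g hb ⟨hc, e3⟩ ha
        exact ⟨u, h3, h1, h2⟩
    · obtain ⟨u, h1, h2, h3⟩ := three_far h g ha ⟨hc, e2⟩ hb
      exact ⟨u, h1, h3, h2⟩
  · exact three_far h g ha ⟨hb, e1⟩ hc

end three

theorem exists_ext {L : Subgroup G} [L.Normal] {t : G} (ht : t ∉ L) (t2 : t * t = 1) {Γ : Type}
    [Group Γ] [Finite Γ] {σ : Γ →* L} (hs : Function.Surjective σ) (hc : σ.ker ≤ center Γ) :
    ∃ (X : Type) (_ : Group X) (_ : Finite X) (π : X →* G) (W : Type) (_ : Group W) (ι : W →* X)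
      (ρ : W →* Γ) (τ : X), Function.Injective ι ∧ Function.Surjective ρ ∧
      (∀ w, π (ι w) = σ (ρ w)) ∧ (∀ x, π x ∈ L → ∃ w, ι w = x) ∧
      (∀ k, π k = 1 → ∀ x, π x ∈ L → Commute k x) ∧ π τ = t ∧ τ * τ = 1 := by
  let s := L.subtype.comp σ
  let W := (s.comp (MonoidHom.snd Γ Γ)).eqLocus
    ((MulAut.conj t).toMonoidHom.comp (s.comp (MonoidHom.fst Γ Γ)))
  have hW : ∀ {x : Γ × Γ}, x ∈ W ↔ s x.2 = t * s x.1 * t⁻¹ := Iff.rfl
  have hsw : ∀ x : W, x.1.swap ∈ W := fun x => hW.2 (by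
    rw [Prod.fst_swap, Prod.snd_swap, hW.1 x.2, cj_cj, t2]; simp)
  let τ : MulAut W := ⟨⟨fun x => ⟨_, hsw x⟩, fun x => ⟨_, hsw x⟩, fun _ => rfl, fun _ => rfl⟩,
    fun _ _ => rfl⟩
  let φ := SchurC.zmodHom 2 τ (by rw [pow_two]; rfl)
  let ψ := SchurC.zmodHom 2 t (by rw [pow_two, t2])
  let ρ : W →* Γ := (MonoidHom.fst Γ Γ).comp W.subtype
  have h2 : ∀ e : Multiplicative (ZMod 2), e = 1 ∨ e = Multiplicative.ofAdd 1 := by decide
  let π : W ⋊[φ] Multiplicative (ZMod 2) →* G := SemidirectProduct.lift (s.comp ρ) ψ fun e => by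
    ext x
    rcases h2 e with rfl | rfl
    · simp
    · rw [SchurC.zmodHom_one, SchurC.zmodHom_one]
      exact hW.1 x.2
  have h3 : ∀ w, π (.inl w) = σ (ρ w) := fun w => SemidirectProduct.lift_inl _ _ _ w
  have h4 : π (.inr (Multiplicative.ofAdd 1)) = t :=
    (SemidirectProduct.lift_inr _ _ _ _).trans (SchurC.zmodHom_one _ _ _)
  have h5 : ∀ x, π x ∈ L → ∃ w, SemidirectProduct.inl w = x := fun x hx => by
    have e := SemidirectProduct.inl_left_mul_inr_right x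
    rcases h2 x.right with e' | e'
    · exact ⟨_, by rwa [e', map_one, mul_one] at e⟩
    · rw [← e, e', map_mul, h3, h4] at hx
      exact absurd ((mul_mem_cancel_left (σ _).2).1 hx) ht
  refine ⟨_, inferInstance, Finite.of_equiv _ SemidirectProduct.equivProd.symm, π, W, inferInstance,
    SemidirectProduct.inl, ρ, .inr (Multiplicative.ofAdd 1), SemidirectProduct.inl_injective,
    fun a => ?_, h3, h5, fun k hk x hx => ?_, h4, by rw [← map_mul]; exact map_one _⟩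
  · obtain ⟨b, hb⟩ := hs ⟨_, ‹L.Normal›.conj_mem _ (σ a).2 t⟩
    exact ⟨⟨(a, b), congrArg Subtype.val hb⟩, rfl⟩
  · obtain ⟨k, rfl⟩ := h5 k (hk ▸ one_mem L)
    obtain ⟨x, rfl⟩ := h5 x hx
    have h6 : s k.1.1 = 1 := (h3 k).symm.trans hk
    have h7 : s k.1.2 = 1 := by rw [hW.1 k.2, h6]; simp
    exact Commute.map (show k * x = x * k from Subtype.ext (Prod.ext
      (commute_of_ker hc (Subtype.ext h6) _).eq (commute_of_ker hc (Subtype.ext h7) _).eq)) _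

theorem T24.sit1 {D : Set G} (h : Is24 D) (g : Gp D) {a : G} (ha : a ∈ D) : Sit D [a] :=
  ⟨g, T24.sg h g, fr_one.2 ha, ⟨lv24 h, T24.cn h, trivial⟩, lv23 (h.loc a ha),
    fun _ hb => (List.mem_singleton.1 hb).symm ▸ g.self_mem (T24.selfIn h) ha, T24.mw6 h g, by simp,
    by simp, tf_one h.fs h.transOn, T23.simple (h.loc a ha)⟩

theorem mem_KK1 {a x : G} : x ∈ KK [a] ↔ x ∈ _root_.commutator G ∧ Commute x a := by
  simp [mem_KK]

theorem mem_KK2 {a b x : G} :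
    x ∈ KK [a, b] ↔ x ∈ _root_.commutator G ∧ Commute x a ∧ Commute x b := by
  simp [mem_KK]

theorem Sit.exists_cj {D : Set G} {l : List G} (S : Sit D l) {x y : G} (hx : x ∈ NB D l)
    (hy : y ∈ NB D l) : ∃ k ∈ KK l, k * x * k⁻¹ = y := by
  obtain ⟨k, hk, rfl⟩ := S.lv.trans x hx y hy
  rw [S.cl] at hk
  obtain ⟨a, ha⟩ := List.exists_mem_of_ne_nil l S.ne
  rcases S.gp.mem_or (S.fr.mem a ha) k with e | e
  · exact ⟨k, ⟨e, hk⟩, rfl⟩
  · exact ⟨k * a, ⟨e, mul_mem hk (S.V_le (subset_closure ha))⟩, by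
      rw [← cj_cj, cj_eq_of_commute ((mem_NB.1 hx).2.2 a ha)]⟩

variable {X : Type} [Group X]

/-- the canonical lift of the even part of the centraliser of `u` -/
def HH (π : X →* G) (u : G) : Subgroup X := ⁅(KK [u]).comap π, (KK [u]).comap π⁆

/-- the possible holonomy -/
def AA (π : X →* G) (k : X) : Prop :=
  π k = 1 ∧ k ^ 3 = 1 ∧ ∀ x, π x ∉ _root_.commutator G → x * k * x⁻¹ = k⁻¹

def MM (D : Set G) (π : X →* G) (p : G) (x : X) : Prop :=
  ∃ u ∈ nb D p, ∃ a h s, AA π a ∧ h ∈ HH π u ∧ s ∈ HH π p ∧ x = a * h * s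

variable {π : X →* G}

theorem HH_le {u : G} {h : X} (hh : h ∈ HH π u) : π h ∈ KK [u] :=
  commutator_le_self ((KK [u]).comap π) hh

theorem cj_HH {u : G} {h : X} (hh : h ∈ HH π u) (x : X) :
    x * h * x⁻¹ ∈ HH π (π x * u * (π x)⁻¹) := by
  have h1 : ((KK [u]).comap π).map (MulAut.conj x).toMonoidHom ≤
      (KK [π x * u * (π x)⁻¹]).comap π := by
    rintro _ ⟨y, hy, rfl⟩
    show π (x * y * x⁻¹) ∈ KK _
    rw [map_mul, map_mul, map_inv, mem_KK1, commute_cj_iff]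
    exact ⟨Normal.conj_mem inferInstance _ hy.1 _, (mem_KK1.1 hy).2⟩
  exact commutator_mono h1 h1
    ((map_commutator _ _ (MulAut.conj x).toMonoidHom).le (mem_map_of_mem _ hh))

theorem AA.one : AA π 1 := ⟨map_one π, one_pow 3, by simp⟩

section ext

variable (hc : ∀ k, π k = 1 → ∀ x, π x ∈ _root_.commutator G → Commute k x)
include hc

theorem AA.mul {a b : X} (ha : AA π a) (hb : AA π b) : AA π (a * b) :=
  have c := hc a ha.1 b (hb.1 ▸ one_mem _)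
  ⟨by rw [map_mul, ha.1, hb.1, mul_one], by rw [c.mul_pow, ha.2.1, hb.2.1, mul_one], fun x hx => by
    rw [← conj_mul, ha.2.2 x hx, hb.2.2 x hx, c.eq, mul_inv_rev]⟩

omit hc in
theorem AA.inv {a : X} (ha : AA π a) : AA π a⁻¹ :=
  ⟨by rw [map_inv, ha.1, inv_one], by rw [inv_pow, ha.2.1, inv_one], fun x hx => by
    rw [← conj_inv, ha.2.2 x hx]⟩

theorem AA.cj {a : X} (ha : AA π a) (x : X) : AA π (x * a * x⁻¹) := by
  by_cases hx : π x ∈ _root_.commutator G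
  · rwa [cj_eq_of_commute (hc a ha.1 x hx).symm]
  · exact ha.2.2 x hx ▸ ha.inv

theorem comm_le {P : Subgroup G} (hP : P ≤ _root_.commutator G) {M : Subgroup X}
    (hM : P ≤ M.map π) : ⁅P.comap π, P.comap π⁆ ≤ ⁅M, M⁆ := by
  refine commutator_le.2 fun a ha b hb => ?_
  obtain ⟨a', ha', ea⟩ := hM ha
  obtain ⟨b', hb', eb⟩ := hM hb
  have h1 : ∀ {a a' : X}, π a' = π a → π (a * a'⁻¹) = 1 := fun e => by
    rw [map_mul, map_inv, e, mul_inv_cancel]
  have h2 := hc _ (h1 ea) b (hP hb)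
  have h3 := hc _ (h1 eb) a' (ea ▸ hP ha)
  have h4 := hc _ (h1 ea) a' (ea ▸ hP ha)
  have h5 := hc _ (h1 eb) b' (eb ▸ hP hb)
  obtain ⟨k, rfl⟩ : ∃ k, a = k * a' := ⟨a * a'⁻¹, by group⟩
  obtain ⟨k', rfl⟩ : ∃ k', b = k' * b' := ⟨b * b'⁻¹, by group⟩
  rw [mul_inv_cancel_right] at h2 h3 h4 h5
  have e : ⁅k * a', k' * b'⁆ = ⁅a', b'⁆ := by
    rw [commutatorElement_def, ← cj_cj,
      cj_eq_of_commute (h4.mul_right h2 |>.mul_right h4.inv_right), ← mul_assoc a', ← h3.eq,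
      mul_inv_rev, ← mul_assoc, mul_assoc k', mul_assoc k', mul_assoc k', cj_eq_of_commute
      (((h3.mul_right h5).mul_right h3.inv_right).mul_right h5.inv_right), commutatorElement_def]
  exact e ▸ commutator_mem_commutator ha' hb'

variable [Finite X] (hs : Function.Surjective π) {D : Set G} (h : Is24 D) (g : Gp D)
include hs h g

omit hc [Finite X] in
theorem exists_HH {u c : G} (hu : u ∈ D) (hc' : c ∈ KK [u]) : ∃ x ∈ HH π u, π x = c := by
  rw [← isPerfect_iff.1 (T24.sit1 h g hu).quasi.1, ← map_comap_eq_self_of_surjective hs (KK [u]),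
    ← map_commutator] at hc'
  exact hc'

omit hc [Finite X] in
theorem exists_HH2 {u p c : G} (hu : u ∈ D) (hp : p ∈ nb D u) (hc' : c ∈ KK [u, p]) :
    ∃ x, x ∈ HH π u ∧ x ∈ HH π p ∧ π x = c := by
  rw [← isPerfect_iff.1 (T24.sit2 h g (T24.sg h g) (fr_two.2 ⟨hu, hp⟩)).quasi.1,
    ← map_comap_eq_self_of_surjective hs (KK [u, p]), ← map_commutator] at hc'
  obtain ⟨x, hx, e⟩ := hc'
  have h1 : (KK [u, p]).comap π ≤ (KK [u]).comap π := fun y hy =>
    mem_KK1.2 ⟨hy.1, (mem_KK2.1 hy).2.1⟩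
  have h2 : (KK [u, p]).comap π ≤ (KK [p]).comap π := fun y hy =>
    mem_KK1.2 ⟨hy.1, (mem_KK2.1 hy).2.2⟩
  exact ⟨x, commutator_mono h1 h1 hx, commutator_mono h2 h2 hx, e⟩

theorem HH_inj {u : G} (hu : u ∈ D) {x : X} (hx : x ∈ HH π u) (e : π x = 1) : x = 1 := by
  obtain ⟨ρ, h1, h2⟩ := (T24.sit1 h g hu).exists_proj gp23 ((h.loc u hu).exists_isoOn D23.is23)
  let σ : HH π u →* KK [u] := (π.comp (HH π u).subtype).codRestrict _ fun y => HH_le (π := π) y.2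
  have h3 : ∀ y, ρ (σ y) = 1 → π y = 1 := fun y hy => by
    have h4 : π y ∈ Subgroup.closure {x | x ∈ [u]} := h2.le hy
    rw [show {x | x ∈ [u]} = {u} by simp, ← zpowers_eq_closure] at h4
    obtain ⟨k, hk⟩ := h4
    have h5 := (HH_le y.2).1
    rcases Int.even_or_odd' k with ⟨j, rfl | rfl⟩
    · rw [← hk]; simp only [zpow_mul, zpow_two, h.fs.sq hu, one_zpow]
    · simp only [zpow_add, zpow_mul, zpow_two, h.fs.sq hu, one_zpow, zpow_one, one_mul] at hk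
      exact absurd (hk ▸ h5) (T24.sg h g u hu)
  have hp : Group.IsPerfect (HH π u) := isPerfect_iff.2 (le_antisymm (commutator_le_self _)
    (comm_le hc inf_le_left fun c hc' => exists_HH hs h g hu hc'))
  obtain ⟨f, hf⟩ := upper23 (HH π u) (ρ.comp σ) ⟨h1.comp fun c =>
    let ⟨y, hy, e⟩ := exists_HH hs h g hu c.2; ⟨⟨y, hy⟩, Subtype.ext e⟩,
    fun y hy => mem_center_iff.2 fun z => Subtype.ext (hc _ (h3 y hy) _ (HH_le z.2).1).symm,
    hp.commutator_eq_top ▸ le_top⟩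
  obtain ⟨j, hj⟩ := hf ⟨⟨x, hx⟩, (congrArg ρ (Subtype.ext e)).trans (map_one ρ)⟩
  rw [Subsingleton.elim j 1, map_one] at hj
  exact (congrArg (fun y => (y.1 : X)) hj).symm

theorem HH_eq {u : G} (hu : u ∈ D) {x y : X} (hx : x ∈ HH π u) (hy : y ∈ HH π u) (e : π x = π y) :
    x = y :=
  mul_inv_eq_one.1 (HH_inj hc hs h g hu (mul_mem hx (inv_mem hy))
    (by rw [map_mul, map_inv, e, mul_inv_cancel]))

theorem HH_of_commute {u p : G} (hu : u ∈ D) (hp : p ∈ nb D u) {x : X} (hx : x ∈ HH π u)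
    (e : Commute (π x) p) : x ∈ HH π p :=
  let ⟨_, h1, h2, h3⟩ := exists_HH2 hs h g hu hp
    (mem_KK2.2 ⟨(HH_le hx).1, (mem_KK1.1 (HH_le hx)).2, e⟩)
  HH_eq hc hs h g hu h1 hx h3 ▸ h2

theorem AA_far {p q u u' : G} (hp : p ∈ D) (hq : q ∈ far D p) (hu : u ∈ nb D p) (hu' : u' ∈ nb D p)
    {x x' : X} (hx : x ∈ HH π u) (hx' : x' ∈ HH π u') (e : π x = p * q) (e' : π x' = p * q) :
    AA π (x * x'⁻¹) := by
  obtain ⟨t, rfl⟩ := hs p
  have key : ∀ {u x}, u ∈ nb D (π t) → x ∈ HH π u → π x = π t * q →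
      x ^ 3 = 1 ∧ t * x * t⁻¹ = x⁻¹ := fun {u x} hu hx e => by
    have h1 := cj_HH hx t
    rw [cj_eq_of_commute hu.2.2] at h1
    refine ⟨HH_inj hc hs h g hu.1 (pow_mem hx 3) ?_, HH_eq hc hs h g hu.1 h1 (inv_mem hx) ?_⟩
    · rw [map_pow, e, pow_three', ← mul_assoc, ← mul_assoc, h.fs.braid hp hq.1 hq.2,
        h.fs.cancel_right hq.1, h.fs.cancel_right hp, h.fs.sq hq.1]
    · rw [map_mul, map_mul, map_inv, map_inv, e, h.fs.cancel_left hp, mul_inv_rev, h.fs.inv hq.1]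
  obtain ⟨a1, a2⟩ := key hu hx e
  obtain ⟨b1, b2⟩ := key hu' hx' e'
  have k1 : π (x * x'⁻¹) = 1 := by rw [map_mul, map_inv, e, e', mul_inv_cancel]
  have c := hc _ k1 x' (HH_le hx').1
  obtain ⟨k, rfl⟩ : ∃ k, x = k * x' := ⟨x * x'⁻¹, by group⟩
  rw [mul_inv_cancel_right] at k1 c ⊢
  rw [c.mul_pow, b1, mul_one] at a1
  rw [← conj_mul, b2, c.eq, mul_inv_rev, mul_left_inj] at a2
  refine ⟨k1, a1, fun y hy => ?_⟩
  have h2 : π (t⁻¹ * y) ∈ _root_.commutator G := by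
    rw [map_mul, map_inv, h.fs.inv hp, mul_mem_iff_of_index_two (g.index_comm (T24.sg h g))]
    exact iff_of_false (T24.sg h g _ hp) hy
  rw [← a2, ← cj_eq_of_commute (hc k k1 _ h2).symm]
  conv_lhs => rw [cj_eq_of_commute (hc k k1 _ h2).symm]
  group

theorem MM_indep {p u : G} (hp : p ∈ D) {x : X} (hx : MM D π p x) (hu : u ∈ nb D p)
    (hu' : u ∈ nb D (π x * p * (π x)⁻¹)) :
    ∃ a y s, AA π a ∧ y ∈ HH π u ∧ s ∈ HH π p ∧ x = a * y * s := by
  obtain ⟨v, hv, a, y, s, ha, hy, hs', rfl⟩ := hx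
  rw [map_mul, map_mul, ha.1, one_mul, ← cj_cj, cj_eq_of_commute (mem_KK1.1 (HH_le hs')).2] at hu'
  have hv' := cj_nb g (π y) hv
  rw [cj_eq_of_commute (mem_KK1.1 (HH_le hy)).2] at hv'
  have hq := g.nm (π y) p hp
  rcases trichotomy p hq with e | e | e
  · exact ⟨a, 1, y * s, ha, one_mem _, mul_mem (HH_of_commute hc hs h g hv.1 (nb_symm hp hv) hy
      (commute_of_cj_eq e)) hs', by group⟩
  · obtain ⟨c, hc', ec⟩ := Sit.exists_cj (T24.sit2 h g (T24.sg h g) (fr_two.2 ⟨hp, e⟩))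
      (x := v) (y := u) ((nb_nb D _ _).ge ⟨hv, hv'⟩) ((nb_nb D _ _).ge ⟨hu, hu'⟩)
    obtain ⟨c, c1, c2, rfl⟩ := exists_HH2 hs h g hp e hc'
    have h1 := cj_HH (inv_mem c2) (c * y * c⁻¹)⁻¹
    have h2 : π (c * y * c⁻¹) * p * (π (c * y * c⁻¹))⁻¹ = π y * p * (π y)⁻¹ := by
      rw [map_mul, map_mul, map_inv, ← cj_cj, ← cj_cj,
        cj_eq_of_commute (mem_KK2.1 hc').2.1.inv_left, cj_eq_of_commute (mem_KK2.1 hc').2.2]
    rw [← h2, cj_cj, ← map_mul, inv_mul_cancel, map_one, one_mul, inv_one, mul_one] at h1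
    exact ⟨a, _, _, ha, ec ▸ cj_HH hy c, mul_mem (mul_mem h1 c1) hs', by group⟩
  · have h1 : ∀ {w}, w ∈ nb D p → w ∈ nb D (π y * p * (π y)⁻¹) →
        ∃ z ∈ HH π w, π z = p * (π y * p * (π y)⁻¹) := fun h1 h2 =>
      exists_HH hs h g h1.1 (mem_KK1.2 ⟨g.mul_mem_comm hp hq, h1.2.2.mul_left h2.2.2⟩)
    obtain ⟨z, hz, ez⟩ := h1 hv hv'
    obtain ⟨z', hz', ez'⟩ := h1 hu hu'
    refine ⟨a * (z * z'⁻¹), z', z⁻¹ * y * s, ha.mul hc (AA_far hc hs h g hp e hv hu hz hz' ez ez'),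
      hz', mul_mem (HH_of_commute hc hs h g hv.1 (nb_symm hp hv) (mul_mem (inv_mem hz) hy)
        (commute_of_cj_eq ?_)) hs', by group⟩
    rw [map_mul, map_inv, ← cj_cj, ez]
    generalize π y * p * (π y)⁻¹ = q at hq e
    rw [inv_inv, mul_inv_rev, h.fs.inv hp, h.fs.inv hq, ← mul_assoc, ← h.fs.braid hp hq e.2, h.fs.cancel_right hp, h.fs.cancel_right hq]

omit hs h [Finite X] in
theorem MM.cj {p : G} {y : X} (hy : MM D π p y) (x : X) :
    MM D π (π x * p * (π x)⁻¹) (x * y * x⁻¹) :=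
  let ⟨_, hv, _, _, _, ha, hy, hs', e⟩ := hy
  ⟨_, cj_nb g _ hv, _, _, _, ha.cj hc x, cj_HH hy x, cj_HH hs' x, by rw [e]; group⟩

theorem MM.mul {p : G} (hp : p ∈ D) {x y : X} (hx : MM D π p x) (hy : MM D π p y) :
    MM D π p (x * y) := by
  obtain ⟨u, h1, h2, h3⟩ := three h g hp (g.nm (π x) p hp) (g.nm (π (x * y)) p hp)
  obtain ⟨a, z, s, ha, hz, hs', rfl⟩ := MM_indep hc hs h g hp hx h1 h2
  obtain ⟨a', z', s', ha', hz', hs'', e⟩ := MM_indep hc hs h g (g.nm _ p hp) (hy.cj hc g _) h2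
    (by rwa [cj_cj, ← map_mul, inv_mul_cancel_right])
  have h4 := cj_HH hs'' z⁻¹
  rw [map_mul, map_mul, ha.1, one_mul, ← cj_cj (π z), cj_eq_of_commute (mem_KK1.1 (HH_le hs')).2,
    cj_cj, ← map_mul, inv_mul_cancel, map_one, one_mul, inv_one, mul_one] at h4
  refine ⟨u, h1, a' * a, z' * z, _, ha'.mul hc ha, mul_mem hz' hz, mul_mem h4 hs', ?_⟩
  rw [mul_inv_eq_iff_eq_mul.1 e, mul_assoc a, ← mul_assoc, mul_assoc a', mul_assoc a',
    ← (hc a ha.1 _ (map_mul π z' s' ▸ mul_mem (HH_le hz').1 (HH_le hs'').1)).eq]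
  group

omit hs h [Finite X] in
theorem MM.inv {p : G} {x : X} (hx : MM D π p x) : MM D π p x⁻¹ := by
  obtain ⟨u, hu, a, y, s, ha, hy, hs', rfl⟩ := hx
  have h1 := cj_nb g (π s⁻¹) hu
  rw [cj_eq_of_commute (mem_KK1.1 (HH_le (inv_mem hs'))).2] at h1
  refine ⟨_, h1, a⁻¹, _, _, ha.inv, cj_HH (inv_mem hy) s⁻¹, inv_mem hs', ?_⟩
  rw [mul_assoc a, (hc a ha.1 _ (map_mul π y s ▸ mul_mem (HH_le hy).1 (HH_le hs').1)).eq]
  group

theorem AA_of_mem {k : X} (hk : k ∈ ⁅(_root_.commutator G).comap π, (_root_.commutator G).comap π⁆)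
    (e : π k = 1) : AA π k := by
  obtain ⟨p, hp⟩ := h.ne
  obtain ⟨v, hv⟩ := h.nb_nonempty hp
  let M : Subgroup X := ⟨⟨⟨{x | MM D π p x}, MM.mul hc hs h g hp⟩,
    ⟨v, hv, 1, 1, 1, AA.one, one_mem _, one_mem _, by simp⟩⟩, MM.inv hc g⟩
  have h1 : _root_.commutator G ≤ M.map π := fun c hc' => by
    obtain ⟨u, h1, -, h2⟩ := three h g hp hp (g.nm c p hp)
    obtain ⟨d, hd, ed⟩ := Sit.exists_cj (T24.sit1 h g h1.1) (x := p) (nb_symm hp h1)
      (nb_symm (g.nm c p hp) h2)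
    obtain ⟨y, hy, rfl⟩ := exists_HH hs h g h1.1 hd
    obtain ⟨s, hs', es⟩ := exists_HH hs h g hp (c := (π y)⁻¹ * c) (mem_KK1.2
      ⟨mul_mem (inv_mem hd.1) hc', commute_of_cj_eq (by rw [← cj_cj, ← ed]; group)⟩)
    exact ⟨y * s, ⟨u, h1, 1, y, s, AA.one, hy, hs', by simp⟩, by rw [map_mul, es]; group⟩
  obtain ⟨u, hu, a, y, s, ha, hy, hs', rfl⟩ := commutator_le_self _ (comm_le hc le_rfl h1 hk)
  rw [mul_assoc, map_mul, ha.1, one_mul] at e
  have h2 : y ∈ HH π p := HH_of_commute hc hs h g hu.1 (nb_symm hp hu) hy (by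
    rw [map_mul, mul_eq_one_iff_eq_inv] at e
    exact e ▸ (mem_KK1.1 (HH_le hs')).2.inv_left)
  rwa [mul_assoc, HH_inj hc hs h g hp (mul_mem h2 hs') e, mul_one]

theorem commute_HH {t y : X} (ht : π t ∈ D) (hy : y ∈ HH π (π t)) : Commute t y := by
  have h1 := cj_HH hy t
  rw [mul_inv_cancel_right] at h1
  exact commute_of_cj_eq (HH_eq hc hs h g ht h1 hy (by
    rw [map_mul, map_mul, map_inv, cj_eq_of_commute (mem_KK1.1 (HH_le hy)).2.symm]))

end ext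

theorem HH_le_comm {u : G} :
    HH π u ≤ ⁅(_root_.commutator G).comap π, (_root_.commutator G).comap π⁆ :=
  commutator_mono (comap_mono inf_le_left) (comap_mono inf_le_left)

theorem nb_letters {a b : ℕ} (h : (Nat.blt a 12 && Nat.blt b 12 && !Nat.beq a b &&
    amongRel id R24 [a, b, a, b]) = true) : CL.Fi24.g b ∈ nb CL.Fi24.D (CL.Fi24.g a) := by
  simp only [Bool.and_eq_true, Nat.blt_eq, Bool.not_eq_true'] at h
  obtain ⟨⟨⟨ha, hb⟩, hab⟩, h⟩ := h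
  refine ⟨CL.Fi24.letter_mem hb, fun e => ?_, ?_⟩
  · obtain ⟨M, p, R, hp⟩ := D24.exists_model
    have k : ∀ a < 12, D24.pt ([8, 9, 0, 1, 2, 3, 4, 5, 6, 12, 15, 14].getD a 0) < 306936 ∧
        p (D24.pt ([8, 9, 0, 1, 2, 3, 4, 5, 6, 12, 15, 14].getD a 0)) = CL.Fi24.g a := fun a ha => by
      refine ⟨M.pt_lt _ (by interval_cases a <;> decide), ?_⟩
      interval_cases a
      exacts [hp .a, hp .b, hp .c, hp .d, hp .e, hp .f, hp .g, hp .h, hp .i, hp .j, hp .k, hp .l]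
    have := R.bij.injOn (k b hb).1 (k a ha).1 ((k b hb).2.trans (e.trans (k a ha).2.symm))
    exact (by decide : ∀ a < 12, ∀ b < 12, Nat.beq a b = false →
      D24.pt ([8, 9, 0, 1, 2, 3, 4, 5, 6, 12, 15, 14].getD b 0) ≠
        D24.pt ([8, 9, 0, 1, 2, 3, 4, 5, 6, 12, 15, 14].getD a 0)) a ha b hb hab this
  · have := CL.Fi24.pres.eq_one h
    simp only [ev_cons, ev_nil, mul_one] at this
    rw [← mul_assoc, mul_eq_one_iff_eq_inv, mul_inv_rev, ← CL.Fi24.pres.inv,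
      ← CL.Fi24.pres.inv] at this
    exact this

theorem exists_lifts [Finite X] {π : X →* Spor.Fi24}
    (hc : ∀ k, π k = 1 → ∀ x, π x ∈ _root_.commutator Spor.Fi24 → Commute k x)
    (hs : Function.Surjective π) {τ : X} (hτ : π τ = CL.Fi24.g 11) (τ2 : τ * τ = 1) :
    ∃ x : ℕ → X, (∀ a < 12, π (x a) = CL.Fi24.g a) ∧ Pres x id (R24.take 79) ∧
      ∀ a < 12, ∀ b < 12, ∃ u ∈ CL.Fi24.D, x a * x b ∈ HH π u := by
  have h := D24.is24
  have g := gp24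
  have mem := @CL.Fi24.letter_mem
  have h1 : ∀ a b : ℕ, CL.Fi24.g b ∈ nb CL.Fi24.D (CL.Fi24.g a) → a < 12 →
      ∃ y ∈ HH π (CL.Fi24.g a), π y = CL.Fi24.g a * CL.Fi24.g b := fun a b e ha =>
    exists_HH hs h g (mem ha) (mem_KK1.2 ⟨g.mul_mem_comm (mem ha) e.1,
      (Commute.refl _).mul_left e.2.2.symm⟩)
  have h2 : ∀ a, ∃ y ∈ HH π (CL.Fi24.g 11), a < 12 → a ≠ 10 →
      π y = CL.Fi24.g 11 * CL.Fi24.g a := fun a => by
    by_cases ha : a < 10
    · obtain ⟨y, hy, e⟩ := h1 11 a (nb_letters (by revert a; decide +kernel)) (by simp)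
      exact ⟨y, hy, fun _ _ => e⟩
    · exact ⟨1, one_mem _, fun _ _ => by rw [show a = 11 by omega, CL.Fi24.sq, map_one]⟩
  choose y hy ey using h2
  obtain ⟨y', hy', ey'⟩ := h1 2 10 (nb_letters (by decide +kernel)) (by simp)
  have cτ : ∀ a, Commute τ (y a) := fun a => commute_HH hc hs h g (hτ ▸ mem (by simp)) (hτ ▸ hy a)
  obtain ⟨x, x0, x1, x2⟩ : ∃ x : ℕ → X, (∀ a < 12, a ≠ 10 → x a = τ * y a) ∧
      x 10 = τ * y 2 * y' ∧ ∀ a, 12 ≤ a → x a = 1 :=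
    ⟨fun a => if a < 12 then if a = 10 then τ * y 2 * y' else τ * y a else 1,
      fun a h1 h2 => by simp [h1, h2], by simp, fun a h1 => if_neg (not_lt.2 h1)⟩
  have p0 : ∀ a < 12, a ≠ 10 → π (x a) = CL.Fi24.g a := fun a h1 h2 => by
    rw [x0 a h1 h2, map_mul, hτ, ey a h1 h2, ← mul_assoc, CL.Fi24.sq, one_mul]
  rw [← x0 2 (by simp) (by simp)] at x1
  have px : ∀ a < 12, π (x a) = CL.Fi24.g a := fun a h1 => by
    by_cases h2 : a = 10
    · rw [h2, x1, map_mul, p0 2 (by simp) (by simp), ey', ← mul_assoc, CL.Fi24.sq, one_mul]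
    · exact p0 a h1 h2
  have w0 : ∀ w : List ℕ, (∀ a ∈ w, a < 12 ∧ a ≠ 10) → w.length % 2 = 0 →
      ev x w ∈ HH π (CL.Fi24.g 11) := fun w hw e => by
    rw [(ev_congr fun a ha => x0 a (hw a ha).1 (hw a ha).2).trans (ev_twist fun a _ => cτ a),
      pow_eq_pow_mod (n := 2) _ (by rw [pow_two, τ2]), e, pow_zero, one_mul]
    exact list_prod_mem fun _ hz => let ⟨a, _, e⟩ := List.mem_map.1 hz; e ▸ hy a
  have q0 : ∀ a < 12, a ≠ 10 → ∀ b < 12, b ≠ 10 → x a * x b ∈ HH π (CL.Fi24.g 11) :=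
    fun a a1 a2 b b1 b2 => by simpa [ev_cons, ev_nil] using w0 [a, b] (by simp [*]) (by simp)
  have s0 : ∀ a < 12, a ≠ 10 → x a * x a = 1 := fun a a1 a2 => HH_inj hc hs h g (mem (by simp))
    (q0 a a1 a2 a a1 a2) (by rw [map_mul, px a a1, CL.Fi24.sq])
  have s1 : x 10 * x 10 = 1 := by
    rw [x1, (commute_HH hc hs h g (px 2 (by simp) ▸ mem (by simp))
      (px 2 (by simp) ▸ hy')).symm.mul_mul_mul_comm, s0 2 (by simp) (by simp), one_mul]
    refine HH_inj hc hs h g (mem (by simp)) (mul_mem hy' hy') ?_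
    rw [map_mul, ey', (nb_letters (a := 10) (b := 2) (by decide +kernel)).2.2.mul_mul_mul_comm,
      CL.Fi24.sq, CL.Fi24.sq, one_mul]
  have sx : ∀ a, x a * x a = 1 := fun a => by
    by_cases a1 : a < 12
    · by_cases a2 : a = 10
      exacts [a2 ▸ s1, s0 a a1 a2]
    · rw [x2 a (not_lt.1 a1), one_mul]
  have q1 : ∀ a b c, a < 12 ∧ b < 12 → CL.Fi24.g c ∈ CL.Fi24.D → x a * x b ∈ HH π (CL.Fi24.g c) →
      CL.Fi24.g a ∈ nb CL.Fi24.D (CL.Fi24.g c) → a = b ∨ CL.Fi24.g b ∈ nb CL.Fi24.D (CL.Fi24.g a) →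
      x a * x b ∈ HH π (CL.Fi24.g a) := fun a b c h1 h2 h3 h4 h5 =>
    HH_of_commute hc hs h g h2 h4 h3 (by
      rw [map_mul, px a h1.1, px b h1.2]
      exact (Commute.refl _).mul_left (h5.elim (fun e => e ▸ Commute.refl _) fun e => e.2.2.symm))
  have inv : ∀ {a b u}, x a * x b ∈ HH π u → x b * x a ∈ HH π u := fun {a b u} e => by
    simpa [inv_eq_of_mul_eq_one_right (sx _)] using inv_mem e
  have tr : ∀ {a b c u}, x a * x b ∈ HH π u → x b * x c ∈ HH π u → x a * x c ∈ HH π u :=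
    fun {a b c u} e e' => by
      have := mul_mem e e'
      rwa [mul_assoc, ← mul_assoc (x b), sx, one_mul] at this
  have q2 : x 2 * x 10 ∈ HH π (CL.Fi24.g 2) := by rwa [x1, ← mul_assoc, sx, one_mul]
  have q3 : ∀ b < 12, b ≠ 10 → b ≠ 1 → b ≠ 3 → x 10 * x b ∈ HH π (CL.Fi24.g 2) :=
    fun b b1 b2 b3 b4 => tr (inv q2) (q1 2 b 11 ⟨by simp, b1⟩ (mem (by simp))
      (q0 2 (by simp) (by simp) b b1 b2) (nb_letters (by decide +kernel))
      (or_iff_not_imp_left.2 fun e => nb_letters (by revert b; decide +kernel)))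
  have q4 := q1 6 10 2 (by simp) (mem (by simp)) (inv (q3 6 (by simp) (by simp) (by simp) (by simp)))
    (nb_letters (by decide +kernel)) (Or.inr (nb_letters (by decide +kernel)))
  have q5 : ∀ b < 12, ∃ u ∈ CL.Fi24.D, x 10 * x b ∈ HH π u := fun b b1 => by
    by_cases b2 : b = 10
    · exact ⟨_, mem b1, by rw [b2, sx]; exact one_mem _⟩
    by_cases b3 : b = 1 ∨ b = 3
    · exact ⟨_, mem (by simp), tr (inv q4) (q1 6 b 11 ⟨by simp, b1⟩ (mem (by simp))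
        (q0 6 (by simp) (by simp) b b1 b2) (nb_letters (by decide +kernel))
        (Or.inr (nb_letters (by rcases b3 with rfl | rfl <;> decide +kernel))))⟩
    · exact ⟨_, mem (by simp), q3 b b1 b2 (not_or.1 b3).1 (not_or.1 b3).2⟩
  have q6 : ∀ a < 12, ∀ b < 12, ∃ u ∈ CL.Fi24.D, x a * x b ∈ HH π u := fun a a1 b b1 => by
    by_cases a2 : a = 10
    · exact a2 ▸ q5 b b1
    by_cases b2 : b = 10
    · exact let ⟨u, hu, e⟩ := q5 a a1; ⟨u, hu, b2 ▸ inv e⟩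
    · exact ⟨_, mem (by simp), q0 a a1 a2 b b1 b2⟩
  refine ⟨x, px, ⟨fun a => eq_inv_of_mul_eq_one_left (sx a), fun w hw => ?_⟩, q6⟩
  have h3 : ∀ w ∈ R24.take 79, (∀ a ∈ w, a < 12) ∧ (((∀ a ∈ w, a < 12 ∧ a ≠ 10) ∧ w.length % 2 = 0) ∨
      ∃ a < 12, ∃ b < 12, ∃ m < 4, w = wpow [a, b] m) := by decide +kernel
  have h4 : π (ev x w) = 1 := by
    rw [map_ev, ev_congr fun a ha => px a ((h3 w hw).1 a ha)]
    exact CL.Fi24.pres.rel w (List.mem_of_mem_take hw)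
  rcases (h3 w hw).2 with e | ⟨a, a1, b, b1, m, -, rfl⟩
  · exact HH_inj hc hs h g (mem (by simp)) (w0 w e.1 e.2) h4
  · obtain ⟨u, hu, e⟩ := q6 a a1 b b1
    refine HH_inj hc hs h g hu ?_ h4
    rw [ev_wpow]
    exact pow_mem (by simpa [ev_cons, ev_nil] using e) m

theorem upper24 : SchurC.Upper Spor.Fi24' (Multiplicative (ZMod 3)) := by
  intro Γ _ _ σ hσ
  have hl := CL.Fi24.letter_mem (a := 11) (by simp)
  obtain ⟨X, _, _, π, W, _, ι, ρ, τ, k1, k2, k3, k4, hc, k6, k7⟩ :=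
    exists_ext (sg24 _ hl) (CL.Fi24.sq 11) hσ.1 hσ.2.1
  have hs : Function.Surjective π := fun y => by
    have : ∀ y ∈ _root_.commutator Spor.Fi24, y ∈ π.range := fun y hy => by
      obtain ⟨w, e⟩ := (hσ.1.comp k2) ⟨y, hy⟩
      exact ⟨ι w, (k3 w).trans (congrArg Subtype.val e)⟩
    rcases gp24.mem_or hl y with e | e
    · exact this y e
    · exact (mul_mem_cancel_right (show _ ∈ π.range from ⟨τ, k6⟩)).1 (this _ e)
  obtain ⟨x, x1, x2, x3⟩ := exists_lifts hc hs k6 k7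
  have x4 : ∀ a b, a < 12 ∧ b < 12 → x a * x b ∈ ⁅(_root_.commutator Spor.Fi24).comap π,
      (_root_.commutator Spor.Fi24).comap π⁆ := fun a b e =>
    let ⟨_, _, e⟩ := x3 a e.1 b e.2; HH_le_comm e
  have hP : Pres CL.Fi24.g id [wpow [3, 2, 1, 0, 10, 11, 3, 4, 5, 6, 9, 3, 7, 8] 17] :=
    CL.Fi24.pres.mono (by decide +kernel)
  have hz : AA π (ev x (wpow [3, 2, 1, 0, 10, 11, 3, 4, 5, 6, 9, 3, 7, 8] 17)) := by
    refine AA_of_mem hc hs D24.is24 gp24 ?_ ?_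
    · rw [ev_wpow, show ev x [3, 2, 1, 0, 10, 11, 3, 4, 5, 6, 9, 3, 7, 8] = x 3 * x 2 * (x 1 * x 0) *
        (x 10 * x 11) * (x 3 * x 4) * (x 5 * x 6) * (x 9 * x 3) * (x 7 * x 8) by
          simp [ev_cons, ev_nil, mul_assoc]]
      refine pow_mem ?_ _
      iterate 6 refine mul_mem ?_ (x4 _ _ (by simp))
      exact x4 _ _ (by simp)
    · rw [map_ev, ev_congr fun a ha => x1 a (by revert a; decide +kernel)]
      exact hP.rel _ List.mem_cons_self
  have hg : ∀ a, π (x (CL.Fi24.code a)) = PresentedGroup.of a := fun a => by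
    cases a <;> exact x1 _ (by decide)
  generalize ez : ev x (wpow [3, 2, 1, 0, 10, 11, 3, 4, 5, 6, 9, 3, 7, 8] 17) = z at hz
  have hn : (zpowers z).Normal := ⟨by
    rintro _ ⟨k, rfl⟩ y
    rw [← conj_zpow]
    refine zpow_mem ?_ k
    by_cases e : π y ∈ _root_.commutator Spor.Fi24
    · rw [cj_eq_of_commute (hc z hz.1 y e).symm]; exact mem_zpowers z
    · rw [hz.2.2 y e]; exact inv_mem (mem_zpowers z)⟩
  obtain ⟨w, rfl⟩ := k4 z (hz.1 ▸ one_mem _)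
  refine exists_surj (y := ρ w) (Subtype.ext ((k3 w).symm.trans hz.1))
    (by rw [← map_pow, k1 ((map_pow ι w 3).trans (hz.2.1.trans (map_one ι).symm)), map_one])
    fun y hy => ?_
  have h1 := hσ.2.2 hy
  rw [_root_.commutator, ← MonoidHom.range_eq_top.2 k2, ← map_commutator_eq] at h1
  obtain ⟨v, hv, rfl⟩ := h1
  have h2 : ι.range ≤ (_root_.commutator Spor.Fi24).comap π := by
    rintro _ ⟨v, rfl⟩
    exact mem_comap.2 (k3 v ▸ (σ (ρ v)).2)
  obtain ⟨k, e⟩ := mem_of_pres CL.Fi24.code hg _ (Pres.quot x2 (zpowers (ι w))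
    (R₂ := [wpow [3, 2, 1, 0, 10, 11, 3, 4, 5, 6, 9, 3, 7, 8] 17]) (by simp [ez]))
    (by decide +kernel) (commutator_le_self _ (comm_le hc le_rfl
      (fun y _ => map_closure_gens CL.Fi24.code hg y) (commutator_mono h2 h2
        ((map_commutator_eq W ι).le (mem_map_of_mem ι hv))))) ((k3 v).trans (congrArg _ hy))
  exact ⟨k, by rw [← k1 ((map_zpow ι w k).trans e), map_zpow]⟩

end CL.FiS
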