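import Cfsg.Agent.SPOR.FT20
import Cfsg.Agent.SPOR.FiE8
import Cfsg.Agent.SPOR.FiA10
import Cfsg.Agent.SPOR.AutTree
import Cfsg.Agent.CLAS.OutOrth3
import Cfsg.Agent.CLAS.OrthIso6
import Cfsg.Agent.S0245
import Cfsg.Agent.S0247
import Cfsg.Agent.S0254
import Cfsg.Agent.S0270
import Cfsg.Agent.S2119
import Cfsg.Agent.S2601
import Cfsg.Agent.S2602

/-!
Outer automorphisms of order three of the commutator subgroups of the Fischer groups.
-/

set_option linter.unusedSectionVars false

namespace CL.FT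

open Cfsg CL.TT CL.TTU Module Equiv CL.Orth CL.OrthE CL.RC CL.FiC CL.AutT CL.OutOrth QuadraticMap

variable {G : Type*} [Group G] {E : Set G}

theorem le_ker_out (N : Subgroup G) [N.Normal] :
    N ≤ ((QuotientGroup.mk' (Inn N)).comp (MulAut.conjNormal : G →* MulAut N)).ker :=
  fun x hx => (QuotientGroup.eq_one_iff _).2 ⟨⟨x, hx⟩, by ext; simp⟩

theorem index_dvd_out (N : Subgroup G) [N.Normal] (h : Subgroup.centralizer (N : Set G) ≤ N) :
    N.index ∣ Nat.card (Out N) := by
  have : ((QuotientGroup.mk' (Inn N)).comp (MulAut.conjNormal : G →* MulAut N)).ker = N :=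
    le_antisymm (fun x hx => by
      obtain ⟨l, hl⟩ := (QuotientGroup.eq_one_iff _).1 hx
      refine (mul_mem_cancel_left (inv_mem l.2)).1 (h fun y hy => ?_)
      have : (l : G) * y * (l : G)⁻¹ = x * y * x⁻¹ := congrArg (fun a : MulAut N => (a ⟨y, hy⟩ : G)) hl
      calc y * ((l : G)⁻¹ * x) = (l : G)⁻¹ * (l * y * (l : G)⁻¹) * x := by group
        _ = _ := by rw [this]; group) (le_ker_out N)
  rw [← this, Subgroup.index_ker, this]
  exact Subgroup.card_subgroup_dvd_card _

theorem card_of_ker {X Y : Type*} [Group X] [Group Y] {φ : X →* Y} (h : Function.Surjective φ) :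
    Nat.card X = Nat.card φ.ker * Nat.card Y := by
  rw [← φ.ker.card_mul_index, Subgroup.index_ker, MonoidHom.range_eq_top.2 h, Subgroup.card_top]

theorem out_alt {n : ℕ} (hn : 5 ≤ n) : Nat.card (Out (commutator (Perm (Fin n)))) ∣ 8 := by
  rw [card_out_congr (MulEquiv.subgroupCongr (alternatingGroup.commutator_perm_eq (by simpa)))]
  by_cases h6 : n = 6
  · subst h6
    have := Fintype.ofFinite (GaloisField 3 2)
    have h9 : Fintype.card (GaloisField 3 2) = 3 ^ 2 := by
      rw [← Nat.card_eq_fintype_card, GaloisField.card 3 2 two_ne_zero]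
    obtain ⟨e⟩ := Cfsg.Agent.S0254.result h9
    obtain ⟨φ, h1, -, h2⟩ := Cfsg.Agent.S2602.result (by norm_num) h9 (by norm_num)
    rw [← card_out_congr e, card_of_ker h1, h2]
    simp
  · have h := (QuotientGroup.mk'_surjective (Inn _)).comp (Cfsg.Agent.S2119.result n (by omega) h6).2
    have : Nontrivial (Fin n) := Fin.nontrivial_iff_two_le.2 (by omega)
    have := Subgroup.index_dvd_of_le (le_ker_out (alternatingGroup (Fin n)))
    rw [Subgroup.index_ker, MonoidHom.range_eq_top.2 h, Subgroup.card_top,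
      alternatingGroup.index_eq_two] at this
    exact this.trans (by norm_num)

theorem out_plus {p : ℕ} [Fact p.Prime] (hp : p = 2 ∨ p = 3) {m : ℕ} (hm : 3 ≤ m) :
    Nat.card (Out (POmega (ZMod p) (quadFormPlus m (ZMod p)))) ∣ if m = 4 then 24 else 8 := by
  have hF : Fintype.card (ZMod p) = p ^ 1 := by simp
  rcases hm.eq_or_lt with rfl | hm
  · obtain ⟨e⟩ := nonempty_pOm_QPlus_three (F := ZMod p)
    obtain ⟨φ, h1, -, h2⟩ := Cfsg.Agent.S2601.result (n := 4) le_rfl hF (by norm_num)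
    refine (card_out_congr ((pOmegaEquiv (QPlus 3 (ZMod p))).trans e)).dvd.trans ?_
    rw [card_of_ker h1, h2]
    rcases hp with rfl | rfl <;> simp
  rcases hp with rfl | rfl
  · have := out_QPlus_two hF hm
    split_ifs at this ⊢ <;> obtain ⟨e⟩ := this <;> rw [Nat.card_congr e.toEquiv] <;>
      simp [Fintype.card_perm, Nat.factorial]
  · have := out_QPlus_odd hF (by norm_num) hm
    split_ifs at this ⊢ <;> obtain ⟨e⟩ := this <;> rw [Nat.card_congr e.toEquiv] <;>
      simp [Fintype.card_perm, Nat.factorial, DihedralGroup.card]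

theorem out_pOm {p : ℕ} [Fact p.Prime] (hp : p = 2 ∨ p = 3) {n : ℕ} (h5 : 5 ≤ n)
    {Q : QuadraticForm (ZMod p) (Fin n → ZMod p)} (hQ : (polarBilin Q).Nondegenerate) :
    Nat.card (Out (pOm (O Q))) ∣ 8 ∨ Nat.card (Out (pOm (O Q))) ∣ 24 ∧
      Nonempty (pOm (O Q) ≃* POmega (ZMod p) (quadFormPlus 4 (ZMod p))) := by
  have hF : Fintype.card (ZMod p) = p ^ 1 := by simp
  rcases Nat.even_or_odd' n with ⟨m, hm | hm⟩
  · obtain ⟨a, hab⟩ : ∃ a : ZMod p, ∀ z₁ z₂ : ZMod p, z₁ ^ 2 + a * z₁ * z₂ + 1 * z₂ ^ 2 = 0 →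
        z₁ = 0 ∧ z₂ = 0 := by
      rcases hp with rfl | rfl
      exacts [⟨1, by clear hQ Q hF; decide +revert⟩, ⟨0, aniso3⟩]
    rcases even_classification hQ (m := m - 1) (by simp; omega) hab with ⟨e, he⟩ | ⟨e, he⟩
    · have e' := (pOmegaEquivOfIsom _ _ e he).symm
      have := (card_out_congr e').dvd.trans (out_plus hp (by omega))
      split_ifs at this with h
      exacts [.inr ⟨this, ⟨h ▸ e'⟩⟩, .inl this]
    · refine .inl ((card_out_congr (pOmegaEquivOfIsom _ _ e he).symm).dvd.trans ?_)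
      rcases hp with rfl | rfl
      · exact (out_QMinus_two hF (by omega) hab).2.dvd.trans (by norm_num)
      · have := out_QMinus_odd hF (by norm_num) (m := m - 1) (by omega) hab
        split_ifs at this <;> obtain ⟨e⟩ := this <;> exact (Nat.card_congr e.toEquiv).dvd.trans
          (by simp [DihedralGroup.card])
  · obtain ⟨b⟩ := nonempty_O_QOdd hQ (m := m) (by simpa using hm)
    obtain ⟨e⟩ := out_QOdd hF (m := m) (by
      rintro rfl; exact two_ne_zero_of_odd hQ ⟨m, by simpa using hm⟩ rfl) (by omega)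
    exact .inl ((card_out_congr ((pOmCongr b).trans (pOmegaEquiv _).symm)).dvd.trans
      ((Nat.card_congr e.toEquiv).dvd.trans (by simp)))

theorem out_cases [Finite G] (P : Prim E) (hZ : Subgroup.center G = ⊥)
    (hs : commutator G ≠ ⊤) : Nat.card (Out (commutator G)) ∣ 8 ∨
      Nat.card (Out (commutator G)) ∣ 24 ∧
        (Nonempty (commutator G ≃* Omega (ZMod 2) (quadFormPlus 4 (ZMod 2))) ∨
          Nonempty (commutator G ≃* POmega (ZMod 3) (quadFormPlus 4 (ZMod 3)))) := by
  have hL := P.isQuasisimple_commutator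
  have hS := P.isSimpleGroup_commutator hZ
  have hc : ¬ ∀ x y : commutator G, x * y = y * x := fun h => by
    have := hL.1
    have := IsMulCommutative.mk ⟨h⟩
    exact Group.IsPerfect.not_isSolvable (commutator G) inferInstance
  have ns : ¬ IsSimpleGroup G := fun h => hs ((Subgroup.Normal.eq_bot_or_eq_top inferInstance).resolve_left
    ((Subgroup.nontrivial_iff_ne_bot _).1 hS.toNontrivial))
  have hZ' : Subgroup.center (commutator G) = ⊥ :=
    (Subgroup.Normal.eq_bot_or_eq_top inferInstance).resolve_right fun h =>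
      hc fun x y => Subgroup.mem_center_iff.1 (h ▸ Subgroup.mem_top y) x
  have R := pr_of_prim P
  obtain ⟨d, hd, -⟩ := R.two
  have sy : ∀ {n}, 5 ≤ n → (G ≃* Perm (Fin n)) → Nat.card (Out (commutator G)) ∣ 8 := fun hn e =>
    (card_out_congr (commutatorCongr e)).dvd.trans (out_alt hn)
  rcases R.ty with ⟨n, hn, k⟩ | k | k | ⟨n, hn, k, -⟩ | k | k | k | k
  · exact .inl (sy hn (k.equiv hn P.grp hZ).choose)
  · obtain ⟨m, e, -⟩ := k.equiv P.grp ⟨d, hd⟩ hZ
    rcases lt_trichotomy m 2 with hm | rfl | hm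
    · have h1 := (Nat.card_congr e.toEquiv).trans (Cfsg.Agent.S0245.result (ZMod.card 2) m)
      have h2 := (commutator G).card_mul_index
      have h3 := index_commutator_le_two P.cls
      have h4 : (commutator G).index ≠ 1 := fun e => hs (Subgroup.index_eq_one.1 e)
      have h5 := (commutator G).index_ne_zero_of_finite
      rw [h1, show (commutator G).index = 2 by omega] at h2
      have : Fact (Nat.Prime 3) := ⟨Nat.prime_three⟩
      have : IsCyclic (commutator G) := isCyclic_of_prime_card (p := 3) (by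
        interval_cases m <;> simp at h2; omega)
      exact absurd (mul_comm' ·) hc
    · exact .inl (sy (by norm_num) (e.trans (Cfsg.Agent.S0247.result (ZMod.card 2)).some))
    · have := Cfsg.Agent.S0270.result (F := ZMod 2) m hm.le (by omega)
      exact absurd ((quotCenterEquiv hZ).symm.trans (centerQuotCongr e)).isSimpleGroup ns
  · obtain ⟨n, hn, Q, hQ, k⟩ := k.rm
    obtain ⟨e, -⟩ := k.equiv2 hQ (by simp; omega) P.grp hZ
    have e' := (quotCenterEquiv hZ').symm.trans (pOmCongr (e.trans (toO Q)))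
    exact (out_pOm (.inl rfl) (by omega) hQ).imp (card_out_congr e').dvd.trans
      fun ⟨h, ⟨a⟩⟩ => ⟨(card_out_congr e').dvd.trans h, .inl ⟨(e'.trans a).trans ((pOmegaEquiv (QPlus 4 _)).trans
        ((quotCenterEquiv (Subgroup.card_eq_one.1 (card_center_commutator_eq_one (QPlus_nondeg _ _)
          (by simp) (.inl rfl)))).trans (commutatorCongr (toO _)).symm))⟩⟩
  · obtain ⟨e, -⟩ := k.equiv hn P.grp R hZ
    have := CL.Uni.isSimpleGroup_PSU U6.card_F4 (n := n) (by omega) (by omega)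
    exact absurd e.isSimpleGroup ns
  · obtain ⟨n, hn, Q, hQ, φ, i⟩ := k.rm
    obtain ⟨e, -⟩ := equiv_quot i P.grp (fs_Rset sq_zmod3 hQ one_ne_zero) hZ
    obtain ⟨a⟩ := FiL.nonempty_comm_quot hQ (by simpa using hn) (one_ne_zero (α := ZMod 3))
    have e' := (commutatorCongr e).trans a
    exact (out_pOm (.inr rfl) hn hQ).imp (card_out_congr e').dvd.trans
      fun ⟨h, ⟨a⟩⟩ => ⟨(card_out_congr e').dvd.trans h, .inr ⟨e'.trans a⟩⟩
  · exact absurd (FiA.T22.simple' k (FiL.gp_of_fi (k := 1) ⟨k, P.grp.2.2, hZ⟩)) ns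
  · exact absurd (FiA.T23.simple' k (FiL.gp_of_fi (k := 2) ⟨k, P.grp.2.2, hZ⟩)) ns
  · have g := FiL.gp_of_fi (k := 3) ⟨k, P.grp.2.2, hZ⟩
    exact .inl ((FiA.T24.card_out_comm k g (FiA.T24.sg k g)).dvd.trans (by norm_num))

theorem triality [Finite G] (hD : IsThreeTranspositionClass E)
    {L : Subgroup G} [L.Normal] (hL : IsComponent L) (hC : Subgroup.centralizer (L : Set G) = ⊥)
    (hi : ¬ L.index ≤ 2) : Nonempty (G ⧸ L ≃* Perm (Fin 3)) ∧
      (Nonempty (L ≃* Omega (ZMod 2) (quadFormPlus 4 (ZMod 2))) ∨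
        Nonempty (L ≃* POmega (ZMod 3) (quadFormPlus 4 (ZMod 3)))) := by
  have hG := isGroup_of_isClass hD
  obtain ⟨d, hd, -⟩ := id hD.2.1
  have nd : ∀ x ∈ E, x ∉ L := fun x hx m => hi (index_le_two_of_forall hG hx fun y hy => by
    obtain ⟨g, rfl⟩ := exists_conj_of_isClass hD hx hy
    exact mul_mem (inv_mem m) (Subgroup.Normal.conj_mem inferInstance _ m g))
  let H := Subgroup.closure (orb L d)
  have cj : ∀ y ∈ orb L d, d⁻¹ * y ∈ L := by
    rintro _ ⟨l, hl, rfl⟩
    simpa [mul_assoc] using mul_mem (Subgroup.Normal.conj_mem' inferInstance _ hl d) (inv_mem hl)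
  have hLH : L ≤ H := by
    have hn : (H.subgroupOf L).Normal := ⟨fun a ha g => Subgroup.closure_induction
      (p := fun x _ => g * x * (g : G)⁻¹ ∈ H) (fun x hx => Subgroup.subset_closure (conj_mem_orb hx g.2))
      (by simp) (fun x y _ _ a b => by simpa [mul_assoc] using mul_mem a b)
      (fun x _ a => by simpa [mul_assoc] using inv_mem a) ha⟩
    refine Subgroup.subgroupOf_eq_top.1 (((Comp.isQuasisimple_iff.1 hL.2).2.2 _ hn).resolve_right
      fun k => not_commute_of_normal_component hD hL hd fun l hl => commute_of_cj_eq ?_)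
    have m : (⟨_, cj _ ⟨l, hl, rfl⟩⟩ : L) ∈ H.subgroupOf L := H.mul_mem
      (H.inv_mem (Subgroup.subset_closure (self_mem_orb L d))) (Subgroup.subset_closure ⟨l, hl, rfl⟩)
    have : d⁻¹ * (l * d * l⁻¹) ∈ Subgroup.centralizer (L : Set G) := fun y hy =>
      congrArg Subtype.val (Subgroup.mem_center_iff.1 (k m) ⟨y, hy⟩)
    rw [hC, Subgroup.mem_bot, inv_mul_eq_one] at this
    exact this.symm
  have hO := orb_subset hG.2.1 L hd
  have hH : IsThreeTranspositionClass {g : H | (g : G) ∈ orb L d} :=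
    isClass_closure ⟨fun a ha => hD.1.1 a (hO ha), fun a ha b hb => hD.1.2 a (hO ha) b (hO hb)⟩
      ⟨d, self_mem_orb L d⟩ (fun g hg y hy =>
        ((fs_of_group hG).subset hO fun a ha b hb => by
          obtain ⟨l, hl, rfl⟩ := ha
          obtain ⟨k, hk, rfl⟩ := hb
          refine ⟨l * d * l⁻¹ * k * d⁻¹, by simpa [mul_assoc] using
            (mul_mem hl (Subgroup.Normal.conj_mem inferInstance _ (mul_mem (inv_mem hl) hk) d)), ?_⟩
          simp [mul_assoc, inv_eq hD.1 hd, (fs_of_group hG).cancel_left hd]).cj_mem subset_rfl hg hy)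
      fun a ha b hb => let ⟨g, hg, e⟩ := orb_trans (orb_symm ha) hb; ⟨g, hLH hg, e⟩
  have hL' : IsComponent (L.subgroupOf H) := Comp.isComponent_of_normal
    (isQuasisimple_congr (Subgroup.subgroupOfEquivOfLe hLH) hL.2)
  have P := prim_of_component hH hL' (index_le_two_of_forall (isGroup_of_isClass hH)
    (d := ⟨d, Subgroup.subset_closure (self_mem_orb L d)⟩) (self_mem_orb L d) fun x hx => cj _ hx)
  have e : commutator H ≃* L :=
    (MulEquiv.subgroupCongr (P.commutator_eq hL')).trans (Subgroup.subgroupOfEquivOfLe hLH)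
  have k := out_cases P (eq_bot_iff.2 fun x hx => Subtype.ext (Subgroup.mem_bot.1 (hC ▸ fun y hy =>
    congrArg Subtype.val (Subgroup.mem_center_iff.1 hx ⟨y, hLH hy⟩)))) fun h => nd d hd (by
      rw [P.commutator_eq hL', Subgroup.subgroupOf_eq_top] at h
      exact h (Subgroup.subset_closure (self_mem_orb L d)))
  rw [card_out_congr e] at k
  have h1 := index_dvd_out L (hC ▸ bot_le)
  have hE := fs_of_group hG
  obtain ⟨c, hc, n⟩ : ∃ c ∈ E, d⁻¹ * c ∉ L := by
    by_contra h
    push Not at h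
    exact hi (index_le_two_of_forall hG hd h)
  have hQ : FS (QuotientGroup.mk' L '' E) := fs_of
    (by rintro _ ⟨x, hx, rfl⟩ r; exact nd x hx ((QuotientGroup.eq_one_iff _).1 r))
    (by rintro _ ⟨x, hx, rfl⟩; rw [← map_mul, hE.sq hx, map_one])
    (by
      rintro _ ⟨x, hx, rfl⟩ _ ⟨y, hy, rfl⟩
      exact (em (Commute x y)).imp (·.map _) fun r => by simp only [← map_mul, hE.braid hx hy r])
    (by rintro _ ⟨x, hx, rfl⟩ _ ⟨y, hy, rfl⟩; exact ⟨_, hE.conj x hx y hy, by simp⟩)
  obtain ⟨s⟩ := nonempty_closure_pair_equiv hQ.tt ⟨d, hd, rfl⟩ ⟨c, hc, rfl⟩ fun r =>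
    n (inv_mul_mem_component hD hL hd hc ((QuotientGroup.eq_one_iff _).1
      (show QuotientGroup.mk' L _ = 1 by simp only [map_mul, map_inv, r.eq]; group)))
  have h6 := (Nat.card_congr s.toEquiv).trans (show _ = 6 by simp [Fintype.card_perm, Nat.factorial])
  have h2 := h6 ▸ Subgroup.card_subgroup_dvd_card _
  rw [← Subgroup.index_eq_card] at h2
  replace k := k.resolve_left fun r => absurd (h2.trans (h1.trans r)) (by norm_num)
  refine ⟨⟨((MulEquiv.subgroupCongr (Subgroup.eq_top_of_card_eq _ (h6.trans ?_))).trans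
    Subgroup.topEquiv).symm.trans s⟩, k.2.imp (fun ⟨a⟩ => ⟨e.symm.trans a⟩) fun ⟨a⟩ => ⟨e.symm.trans a⟩⟩
  have : Fact (Nat.Prime 3) := ⟨Nat.prime_three⟩
  obtain ⟨j, hj⟩ := (isPGroup_pCore 3 (G ⧸ L)).exists_card_eq
  have h3 := (pCore 3 (G ⧸ L)).card_mul_index
  have h4 := Nat.le_of_dvd (Nat.pos_of_ne_zero Subgroup.index_ne_zero_of_finite)
    (Subgroup.index_dvd_of_le (commutator_le_comap_pCore hD hL))
  rw [Subgroup.index_comap_of_surjective _ (QuotientGroup.mk'_surjective L)] at h4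
  have h5 := h4.trans (index_commutator_le_two hD)
  have h7 := h1.trans k.1
  rw [← Subgroup.index_eq_card, hj] at h3
  rw [← Subgroup.index_eq_card]
  have : j ≤ 1 := by
    by_contra r
    exact absurd ((pow_dvd_pow 3 (not_le.1 r)).trans ((Dvd.intro _ h3).trans h7)) (by norm_num)
  generalize (pCore 3 (G ⧸ L)).index = i at h3 h5
  interval_cases j <;> omega

end CL.FT
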