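/-
SPOR library: the centralizer `2^{1+2n} : GL_n(2)` of a transvection.
-/
import Cfsg.Agent.SPOR.LX
import Cfsg.Agent.SOLV.Core

set_option autoImplicit false

namespace CL.LXHol

open Matrix CL.LX

/-- the matrices `[[1, c, a], [0, 1, 0], [0, b, A]]` -/
@[ext] structure H (n : ℕ) where
  a : Fin n → ZMod 2
  b : Fin n → ZMod 2
  c : ZMod 2
  A : GL (Fin n) (ZMod 2)

variable {n : ℕ}

instance : Mul (H n) := ⟨fun x y => ⟨y.a + x.a ᵥ* y.A.1, x.b + x.A.1 *ᵥ y.b, x.c + y.c + x.a ⬝ᵥ y.b, x.A * y.A⟩⟩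
instance : One (H n) := ⟨⟨0, 0, 0, 1⟩⟩
instance : Inv (H n) := ⟨fun x => ⟨-(x.a ᵥ* x.A⁻¹.1), -(x.A⁻¹.1 *ᵥ x.b), -x.c + x.a ᵥ* x.A⁻¹.1 ⬝ᵥ x.b, x.A⁻¹⟩⟩

theorem mul_def (x y : H n) :
    x * y = ⟨y.a + x.a ᵥ* y.A.1, x.b + x.A.1 *ᵥ y.b, x.c + y.c + x.a ⬝ᵥ y.b, x.A * y.A⟩ := rfl
theorem one_def : (1 : H n) = ⟨0, 0, 0, 1⟩ := rfl
theorem inv_def (x : H n) :
    x⁻¹ = ⟨-(x.a ᵥ* x.A⁻¹.1), -(x.A⁻¹.1 *ᵥ x.b), -x.c + x.a ᵥ* x.A⁻¹.1 ⬝ᵥ x.b, x.A⁻¹⟩ := rfl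

instance : Group (H n) := Group.ofLeftAxioms
  (fun x y w => by
    simp only [mul_def, H.mk.injEq, add_vecMul, vecMul_vecMul, mulVec_add, mulVec_mulVec, Units.val_mul, add_assoc,
      mul_assoc, add_dotProduct, dotProduct_add, dotProduct_mulVec, true_and, and_true]
    ring)
  (fun x => by simp [mul_def, one_def])
  fun x => by
    simp only [mul_def, inv_def, one_def, neg_vecMul, vecMul_vecMul, Units.inv_mul, vecMul_one, neg_dotProduct, H.mk.injEq]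
    refine ⟨by simp, by simp, by ring, by simp⟩

/-- the central involution -/
def z0 (n : ℕ) : H n := ⟨0, 0, 1, 1⟩

def pr (n : ℕ) : H n →* GL (Fin n) (ZMod 2) := MonoidHom.mk' H.A fun _ _ => rfl

def inc (n : ℕ) : GL (Fin n) (ZMod 2) →* H n := MonoidHom.mk' (⟨0, 0, 0, ·⟩) fun _ _ => by simp [mul_def]

def tr (n : ℕ) : Multiplicative (ZMod 2 × (Fin n → ZMod 2)) →* H n :=
  MonoidHom.mk' (fun v => ⟨0, v.toAdd.2, v.toAdd.1, 1⟩) fun _ _ => by simp [mul_def]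

theorem add_self (v : Fin n → ZMod 2) : v + v = 0 := funext fun _ => CharTwo.add_self_eq_zero _

theorem eq_one_of_normal {N : Subgroup (GL (Fin n) (ZMod 2))} [hN : N.Normal] (h : IsPGroup 2 N) {A : GL _ _}
    (hA : A ∈ N) : A = 1 := by
  rcases n with _ | n
  · exact Subsingleton.elim _ _
  obtain ⟨v, hv, h0⟩ := h.exists_fixed_point_of_prime_dvd_card_of_fixed_point (Fin (n + 1) → ZMod 2)
    (by simp [pow_succ]) (a := 0) fun g => smul_zero g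
  obtain ⟨j, hj⟩ := Function.ne_iff.1 h0
  replace hj : v j = 1 := (by decide : ∀ x : ZMod 2, 0 ≠ x → x = 1) _ hj
  have h1 : ∀ B ∈ N, B.1 *ᵥ v = v := fun B hB => hv ⟨B, hB⟩
  have h2 : ∀ w : Fin (n + 1) → ZMod 2, w j = 0 → A.1 *ᵥ w = w := fun w hw => by
    have e : (1 + vecMulVec w (Pi.single j 1)) * (1 + vecMulVec w (Pi.single j 1)) = 1 := by
      simp [mul_add, add_mul, vecMulVec_mul_vecMulVec, hw, add_assoc, CharTwo.add_self_eq_zero]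
    have := congrArg ((1 + vecMulVec w (Pi.single j 1)) *ᵥ ·) (h1 _ (hN.conj_mem' A hA ⟨_, _, e, e⟩))
    simp only [Units.val_mul, Units.inv_mk, mulVec_mulVec, ← mul_assoc, e, one_mul] at this
    simpa [← mulVec_mulVec, add_mulVec, vecMulVec_mulVec, hj, mulVec_add, h1 A hA] using this
  refine Units.ext (ext_iff_mulVec.2 fun u => ?_)
  have := h2 (u - u j • v) (by simp [hj])
  simpa [mulVec_sub, mulVec_smul, h1 A hA] using this

theorem es (hn : 1 ≤ n) : LX (pr n).ker (z0 n) := by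
  have z2 : ∀ c : ZMod 2, c = 0 ∨ c = 1 := by decide
  have k : ∀ x : H n, (∀ y ∈ (pr n).ker, x * y = y * x) → x = 1 ∨ x = z0 n := fun x h => by
    have h1 := fun b => h ⟨0, b, 0, 1⟩ rfl
    have h2 := fun a => h ⟨a, 0, 0, 1⟩ rfl
    simp only [mul_def, H.mk.injEq] at h1 h2
    have hA : x.A = 1 := Units.ext (ext_iff_mulVec.2 fun u => by simpa [add_comm u] using (h1 u).2.1)
    have ha : x.a = 0 := dotProduct_eq_zero _ fun u => by simpa using (h1 u).2.2.1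
    have hb : x.b = 0 := dotProduct_eq_zero _ fun u => by simpa [dotProduct_comm] using (h2 u).2.2.1
    exact (z2 x.c).imp (H.ext ha hb · hA) (H.ext ha hb · hA)
  refine ⟨⟨rfl, by simp [z0, one_def], by simp [z0, mul_def, one_def, CharTwo.add_self_eq_zero],
    fun x _ => by simp [z0, mul_def, add_comm], fun x _ => k x, fun x (hx : x.A = 1) y (hy : y.A = 1) => ?_,
    fun x (hx : x.A = 1) => ?_, ⟨Pi.single ⟨0, hn⟩ 1, 0, 0, 1⟩, rfl, ⟨0, Pi.single ⟨0, hn⟩ 1, 0, 1⟩, rfl,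
    by simp [mul_def]⟩, k, fun c _ y hy => (pr n).normal_ker.conj_mem y hy c⟩
  · simp only [mul_def, z0, hx, hy, H.mk.injEq]
    rcases z2 (x.a ⬝ᵥ y.b) with a | a <;> rcases z2 (y.a ⬝ᵥ x.b) with b | b <;>
      simp [a, b, add_comm, add_left_comm, CharTwo.add_self_eq_zero]
  · simpa [mul_def, one_def, z0, hx, CharTwo.add_self_eq_zero, add_self] using z2 _

theorem main {G : Type*} [Group G] [Finite G] (hn : 1 ≤ n) (ψ : H n →* G) (hψ : Function.Injective ψ) {C : Subgroup G}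
    (hC : C = Subgroup.centralizer {ψ (z0 n)}) (hr : C ≤ ψ.range) {Q : Subgroup G}
    (hQ : Q = (Cfsg.pCore 2 C).map C.subtype) : LX Q (ψ (z0 n)) ∧ (∀ v, ψ (tr n v) ∈ Q) ∧ Nat.card Q = 2 ^ (2 * n + 1) ∧
      (∃ E : Subgroup G, E ≤ Q ∧ Cfsg.IsElementaryAbelian 2 E ∧ Nat.card E = 2 ^ (n + 1)) ∧
      ∃ K : Subgroup G, K ≤ C ∧ Q ⊓ K = ⊥ ∧ Q ⊔ K = C ∧ Nonempty (K ≃* GL (Fin n) (ZMod 2)) := by
  have h := es hn
  have hm : ∀ x, ψ x ∈ C := fun x => hC ▸ Subgroup.mem_centralizer_singleton_iff.2 (by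
    rw [← map_mul, ← map_mul]; simp [z0, mul_def, add_comm])
  have hc : ∀ c, c * ψ (z0 n) = ψ (z0 n) * c → ∃ x, ψ x = c := fun c hc =>
    hr (hC ▸ Subgroup.mem_centralizer_singleton_iff.2 hc)
  let e := MulEquiv.ofBijective (ψ.codRestrict C hm) ⟨fun _ _ h => hψ (congrArg Subtype.val h), fun c => by
    obtain ⟨x, hx⟩ := hr c.2; exact ⟨x, Subtype.ext hx⟩⟩
  have e1 : Q = (pr n).ker.map ψ := by
    refine hQ.trans (le_antisymm ?_ ?_)
    · rintro _ ⟨c, hc, rfl⟩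
      obtain ⟨x, rfl⟩ := e.surjective c
      have := (inferInstance : (Cfsg.pCore 2 C).Normal).map ((pr n).comp e.symm.toMonoidHom)
        fun A => ⟨e (inc n A), congrArg (pr n) (e.symm_apply_apply _)⟩
      exact ⟨x, eq_one_of_normal (hN := this) ((CL.isPGroup_of_le_pCore le_rfl).map _)
        ⟨_, hc, congrArg (pr n) (e.symm_apply_apply x)⟩, rfl⟩
    · rintro _ ⟨x, hx, rfl⟩
      have := (pr n).normal_ker.map e.toMonoidHom e.surjective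
      exact ⟨e x, CL.le_pCore (h.isPGroup.map e.toMonoidHom) ⟨x, hx, rfl⟩, rfl⟩
  have ti : Function.Injective (tr n) := fun v w h => by
    simp only [tr, MonoidHom.mk'_apply, H.mk.injEq] at h
    exact Prod.ext h.2.2.1 h.2.1
  have ii : Function.Injective (inc n) := fun _ _ h => congrArg H.A h
  subst e1
  refine ⟨⟨h.toES.map ψ fun x _ => (injective_iff_map_eq_one ψ).1 hψ x, fun c hc' => ?_, fun c hc' => ?_⟩,
    fun v => ⟨_, rfl, rfl⟩, ?_, ⟨(ψ.comp (tr n)).range, ?_, ⟨inferInstance, ?_⟩, ?_⟩, (ψ.comp (inc n)).range, ?_, ?_, ?_,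
    ⟨(MonoidHom.ofInjective (f := ψ.comp (inc n)) (hψ.comp ii)).symm⟩⟩
  · obtain ⟨x, rfl⟩ := hc c (hc' _ ⟨_, rfl, rfl⟩)
    refine (h.self_cent x fun y hy => hψ ?_).imp (fun e => by rw [e, map_one]) (congrArg ψ)
    simpa using hc' _ ⟨y, hy, rfl⟩
  · obtain ⟨x, rfl⟩ := hc c hc'
    rintro _ ⟨y, hy, rfl⟩
    exact ⟨_, (pr n).normal_ker.conj_mem y hy x, by simp⟩
  · rw [Subgroup.card_map_of_injective hψ, Nat.card_congr (β := (Fin n → ZMod 2) × (Fin n → ZMod 2) × ZMod 2)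
      ⟨fun x => (x.1.a, x.1.b, x.1.c), fun v => ⟨⟨v.1, v.2.1, v.2.2, 1⟩, rfl⟩,
        fun x => Subtype.ext (H.ext rfl rfl rfl x.2.symm), fun _ => rfl⟩]
    simp [two_mul, pow_add, mul_assoc]
  · rintro _ ⟨v, rfl⟩; exact ⟨_, rfl, rfl⟩
  · rintro _ ⟨v, rfl⟩
    rw [← map_pow, show v ^ 2 = 1 from congrArg Multiplicative.ofAdd
      ((two_nsmul _).trans (Prod.ext (CharTwo.add_self_eq_zero _) (add_self v.toAdd.2))), map_one]
  · rw [← Nat.card_congr (MonoidHom.ofInjective (f := ψ.comp (tr n)) (hψ.comp ti)).toEquiv]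
    simp [pow_succ']
  · rintro _ ⟨v, rfl⟩; exact hm _
  · rw [eq_bot_iff]
    rintro _ ⟨⟨x, hx, rfl⟩, A, hA⟩
    rw [← hψ hA] at hx ⊢
    obtain rfl : A = 1 := hx
    simp
  · refine le_antisymm (sup_le ?_ ?_) fun c hc => ?_
    · rintro _ ⟨v, -, rfl⟩; exact hm _
    · rintro _ ⟨v, rfl⟩; exact hm _
    · obtain ⟨x, rfl⟩ := hr hc
      rw [show x = ⟨x.a ᵥ* x.A⁻¹.1, x.b, x.c, 1⟩ * inc n x.A by
        simp only [inc, mul_def, MonoidHom.mk'_apply, vecMul_vecMul, Units.inv_mul]; simp, map_mul]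
      exact Subgroup.mul_mem_sup ⟨_, rfl, rfl⟩ ⟨_, rfl⟩

end CL.LXHol
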