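import Cfsg.Agent.SPOR.FiP4
import Cfsg.Agent.SPOR.FiA4

/-!
Automorphisms of a group of type `M(22)` preserve the transpositions.
-/

namespace CL.FiP

open Cfsg CL.TT CL.TTU CL.FiA

variable {G : Type*} [Group G]

theorem Amb.aut_mem [Finite G] {D : Set G} (h : Amb D) (hg : Subgroup.closure D = ⊤)
    (φ : MulAut G) {d : G} (hd : d ∈ D) : φ d ∈ D := by
  have tt : ∀ g g' : G, ((g * φ d * g⁻¹) * (g' * φ d * g'⁻¹)) ^ 2 = 1 ∨
      ((g * φ d * g⁻¹) * (g' * φ d * g'⁻¹)) ^ 3 = 1 := by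
    intro g g'
    obtain ⟨g, rfl⟩ := φ.surjective g
    obtain ⟨g', rfl⟩ := φ.surjective g'
    simp only [← map_inv, ← map_mul, ← map_pow, φ.map_eq_one_iff]
    exact h.fs.tt.2 _ (h.norm g d hd) _ (h.norm g' d hd)
  obtain ⟨l₀, h₀, hl, e⟩ := T22.iv h.is22 (φ d) (hg ▸ Subgroup.mem_top _)
    (by rw [← map_mul, h.fs.sq hd, map_one]; exact Eqv.refl _ _)
  have e' := e.eq hg h.center_eq
  obtain ⟨l, l', k, k', n, n', q2, q3⟩ := T21.exists_five (h.is22.loc d hd)
  have key : ∀ m m' : List G, Fr D m → Fr D m' → m.length = l₀.length → m'.length = l₀.length →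
      TF D l₀.length → m.prod * m'.prod = l.prod * l'.prod → False := by
    intro m m' p p' r r' t s
    obtain ⟨g, -, a⟩ := t l₀ m h₀ p rfl r
    obtain ⟨g', -, a'⟩ := t l₀ m' h₀ p' rfl r'
    have := tt g g'
    rw [e', ← prod_map_cj, ← prod_map_cj, a, a', s] at this
    rcases this with k | k
    · exact q2 (k ▸ Eqv.refl _ _)
    · exact q3 (k ▸ Eqv.refl _ _)
  match l₀, h₀, hl, e', key with
  | [], _, _, e', _ =>
    exact (h.fs.ne_one hd (φ.injective (by rw [e', map_one]; rfl))).elim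
  | [x], h₀, _, e', _ => rw [e']; simpa using fr_one.1 h₀
  | [x, y], _, _, _, key =>
    exact (key l l' (k.mono (nb_subset _ _)) (k'.mono (nb_subset _ _)) n n' (T22.tf2 h.is22) rfl).elim
  | [x, y, z], _, _, _, key =>
    refine (key (d :: l) (d :: l') (fr_cons.2 ⟨hd, k⟩) (fr_cons.2 ⟨hd, k'⟩) (by simp [n])
      (by simp [n']) (T22.tf3 h.is22) ?_).elim
    rw [List.prod_cons, List.prod_cons, ← mul_assoc,
      h.fs.op_eq_of_commute hd k.commute_prod_nb.symm]
  | _ :: _ :: _ :: _ :: _, _, hl, _, _ => simp at hl; omega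

end CL.FiP
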