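/-
Conjugacy classes of subgroups of order three: a counting framework.
-/
import Mathlib
import Cfsg.Prelude.Def_KGroupFacts

set_option autoImplicit false

namespace CL.FiT

section Classes

variable {G : Type*} [Group G]

/-- The subgroups of order three. -/
@[ext] structure Sub3 (G : Type*) [Group G] where
  val : Subgroup G
  card : Nat.card val = 3

instance : MulAction (MulAut G) (Sub3 G) where
  smul a Y := ⟨Y.1.map a.toMonoidHom,
    (Nat.card_congr (a.subgroupMap Y.1).toEquiv).symm.trans Y.2⟩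
  one_smul Y := Sub3.ext (Subgroup.map_id _)
  mul_smul a b Y := Sub3.ext (Subgroup.map_map Y.1 a.toMonoidHom b.toMonoidHom).symm

theorem coe_smul (a : MulAut G) (Y : Sub3 G) : (a • Y).1 = Y.1.map a.toMonoidHom := rfl

theorem conj_mul_aut (a : MulAut G) (g : G) : MulAut.conj (a g) * a = a * MulAut.conj g := by
  ext x; simp

/-- Conjugacy of subgroups of order three. -/
def cls (G : Type*) [Group G] : Setoid (Sub3 G) where
  r Y Y' := ∃ g : G, MulAut.conj g • Y = Y'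
  iseqv := ⟨fun Y => ⟨1, by rw [map_one, one_smul]⟩,
    fun ⟨g, h⟩ => ⟨g⁻¹, by rw [← h, map_inv, inv_smul_smul]⟩,
    fun ⟨g, h⟩ ⟨g', h'⟩ => ⟨g' * g, by rw [map_mul, mul_smul, h, h']⟩⟩

/-- The conjugacy classes of subgroups of order three. -/
def Cl (G : Type*) [Group G] : Type _ := Quotient (cls G)

/-- The class of a subgroup. -/
def mkc (Y : Sub3 G) : Cl G := Quotient.mk (cls G) Y

theorem mk_eq {Y Y' : Sub3 G} : mkc Y = mkc Y' ↔ ∃ g : G, MulAut.conj g • Y = Y' := Quotient.eq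

theorem mk_surj (c : Cl G) : ∃ Y, mkc Y = c := Quotient.exists_rep c

instance : MulAction (MulAut G) (Cl G) where
  smul a := Quotient.map (a • ·) fun Y Y' ⟨g, h⟩ =>
    ⟨a g, by rw [← mul_smul, conj_mul_aut, mul_smul, h]⟩
  one_smul c := by
    obtain ⟨Y, rfl⟩ := mk_surj c
    exact congrArg mkc (one_smul _ Y)
  mul_smul a b c := by
    obtain ⟨Y, rfl⟩ := mk_surj c
    exact congrArg mkc (mul_smul a b Y)

theorem smul_mk (a : MulAut G) (Y : Sub3 G) : a • mkc Y = mkc (a • Y) := rfl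

theorem conj_smul_cl (g : G) (c : Cl G) : MulAut.conj g • c = c := by
  obtain ⟨Y, rfl⟩ := mk_surj c
  exact (mk_eq.2 ⟨g, rfl⟩).symm

/-- The action of the outer automorphism group on the classes. -/
def outAct (G : Type*) [Group G] : Cfsg.Out G →* Equiv.Perm (Cl G) :=
  QuotientGroup.lift _ (MulAction.toPermHom (MulAut G) (Cl G)) (by
    rintro _ ⟨g, rfl⟩
    exact Equiv.ext fun c => conj_smul_cl g c)

theorem outAct_mk (a : MulAut G) (c : Cl G) : outAct G (QuotientGroup.mk a) c = a • c := rfl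

theorem reps {X : Type*} (r : Setoid X) {n : ℕ} (h : Nat.card (Quotient r) = n) (hn : n ≠ 0) :
    ∃ y : Fin n → X, (∀ i j, r (y i) (y j) → i = j) ∧ ∀ x, ∃ i, r x (y i) := by
  have : Finite (Quotient r) := Nat.finite_of_card_ne_zero (h ▸ hn)
  let e : Quotient r ≃ Fin n := Finite.equivFinOfCardEq h
  refine ⟨fun i => (e.symm i).out, fun i j hij => e.symm.injective ?_, fun x => ⟨e (Quotient.mk r x), ?_⟩⟩
  · rw [← (e.symm i).out_eq, ← (e.symm j).out_eq]
    exact Quotient.sound hij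
  · simp only [e.symm_apply_apply]
    exact Quotient.exact (Quotient.out_eq _).symm

theorem exists_reps {n : ℕ} (h : Nat.card (Cl G) = n) (hn : n ≠ 0) :
    ∃ Y : Fin n → Subgroup G, (∀ i, Nat.card (Y i) = 3) ∧
      (∀ i j, (∃ g : G, (Y i).map (MulAut.conj g).toMonoidHom = Y j) → i = j) ∧
      ∀ X : Subgroup G, Nat.card X = 3 →
        ∃ i, ∃ g : G, X.map (MulAut.conj g).toMonoidHom = Y i := by
  obtain ⟨y, h1, h2⟩ := reps (cls G) h hn
  refine ⟨fun i => (y i).1, fun i => (y i).2, fun i j ⟨g, hg⟩ => h1 i j ⟨g, Sub3.ext hg⟩,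
    fun X hX => ?_⟩
  obtain ⟨i, g, hg⟩ := h2 ⟨X, hX⟩
  exact ⟨i, g, congrArg Sub3.val hg⟩

theorem exists_reps' {P : Type*} [Group P] (j : P →* G) (hj : Function.Injective j)
    (β : G →* MulAut P) (hβ : ∀ g p, j (β g p) = g * j p * g⁻¹) (r : Setoid (Cl P))
    (hr : ∀ c c', r c c' ↔ ∃ g, β g • c = c') {n : ℕ} (h : Nat.card (Quotient r) = n)
    (hn : n ≠ 0) : ∃ Y : Fin n → Subgroup G, (∀ i, Y i ≤ j.range ∧ Nat.card (Y i) = 3) ∧
      (∀ i j, (∃ g : G, (Y i).map (MulAut.conj g).toMonoidHom = Y j) → i = j) ∧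
      ∀ X : Subgroup G, X ≤ j.range → Nat.card X = 3 →
        ∃ i, ∃ g : G, X.map (MulAut.conj g).toMonoidHom = Y i := by
  obtain ⟨y, h1, h2⟩ := reps r h hn
  choose Y hY using fun i => mk_surj (y i)
  have key : ∀ (g : G) (Z : Sub3 P),
      (β g • Z).1.map j = (Z.1.map j).map (MulAut.conj g).toMonoidHom := fun g Z => by
    rw [coe_smul, Subgroup.map_map, Subgroup.map_map]
    congr 1
    ext p
    exact hβ g p
  have hc : ∀ p, β (j p) = MulAut.conj p := fun p => MulEquiv.ext fun q => hj (by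
    rw [hβ]; simp)
  refine ⟨fun i => (Y i).1.map j, fun i => ⟨Subgroup.map_le_range _ _, ?_⟩, fun i k ⟨g, hg⟩ => ?_,
    fun X hX h3 => ?_⟩
  · rw [Subgroup.card_map_of_injective hj]; exact (Y i).2
  · refine h1 i k ((hr _ _).2 ⟨g, ?_⟩)
    rw [← hY, ← hY, smul_mk]
    exact congrArg mkc (Sub3.ext (Subgroup.map_injective hj ((key g _).trans hg)))
  · have e : (X.comap j).map j = X := Subgroup.map_comap_eq_self hX
    have h4 : Nat.card (X.comap j) = 3 := by
      rw [← Subgroup.card_map_of_injective hj, e, h3]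
    obtain ⟨i, hi⟩ := h2 (mkc ⟨_, h4⟩)
    obtain ⟨g, hg⟩ := (hr _ _).1 hi
    rw [← hY, smul_mk, mk_eq] at hg
    obtain ⟨p, hp⟩ := hg
    refine ⟨i, j p * g, ?_⟩
    rw [← hc, ← mul_smul, ← map_mul] at hp
    change _ = (Y i).1.map j
    rw [← hp, key, e]

end Classes

section Count

variable {E L A : Type*} [Group E] [Group L] [CommGroup A]

/-- A normal subgroup `N` of `E` with elementary abelian quotient `A`, and a quotient `L` of `N`
by a central elementary abelian `2`-group. -/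
structure Cover (φ : E →* A) (N : Subgroup E) (π : N →* L) (α : E →* MulAut L) : Prop where
  sq : ∀ a : A, a * a = 1
  surj : Function.Surjective φ
  mem : ∀ g, g ∈ N ↔ φ g = 1
  onto : Function.Surjective π
  ker : ∀ s, π s = 1 → s * s = 1 ∧ ∀ t, t * s = s * t
  act : ∀ g (s t : N), (t : E) = g * s * g⁻¹ → α g (π s) = π t

variable {φ : E →* A} {N : Subgroup E} {π : N →* L} {α : E →* MulAut L} (h : Cover φ N π α)
include h

theorem Cover.mem_of {x : E} (hx : orderOf x = 3) : x ∈ N := by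
  have h1 : φ x ^ 3 = 1 := by rw [← map_pow, ← hx, pow_orderOf_eq_one, map_one]
  rw [pow_three, h.sq, mul_one] at h1
  exact (h.mem x).2 h1

theorem Cover.eq_of {s t : N} (hs : s ^ 3 = 1) (ht : t ^ 3 = 1) (e : π s = π t) : s = t := by
  obtain ⟨h1, h2⟩ := h.ker (s * t⁻¹) (by rw [map_mul, map_inv, e, mul_inv_cancel])
  have h3 : (s * t⁻¹ * t) ^ 3 = (s * t⁻¹) ^ 3 * t ^ 3 := Commute.mul_pow (h2 t).symm 3
  rw [inv_mul_cancel_right, hs, ht, mul_one, pow_three, h1, mul_one] at h3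
  exact mul_inv_eq_one.1 h3.symm

theorem Cover.pow_eq {x : E} (hx : orderOf x = 3) : (⟨x, h.mem_of hx⟩ : N) ^ 3 = 1 :=
  Subtype.ext (by rw [← hx]; exact pow_orderOf_eq_one x)

theorem Cover.orderOf_π {x : E} (hx : orderOf x = 3) : orderOf (π ⟨x, h.mem_of hx⟩) = 3 := by
  have : Fact (Nat.Prime 3) := ⟨by norm_num⟩
  refine orderOf_eq_prime (by rw [← map_pow, h.pow_eq hx, map_one]) fun e => ?_
  have := h.eq_of (h.pow_eq hx) (one_pow 3) (e.trans (map_one π).symm)
  rw [show x = 1 from congrArg Subtype.val this, orderOf_one] at hx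
  omega

/-- The subgroup generated by the image of an element of order three. -/
def Cover.gen {x : E} (hx : orderOf x = 3) : Sub3 L :=
  ⟨Subgroup.zpowers (π ⟨x, h.mem_of hx⟩), by rw [Nat.card_zpowers, h.orderOf_π hx]⟩

theorem Cover.exists_gen (Y : Sub3 L) : ∃ (x : E) (hx : orderOf x = 3), h.gen hx = Y := by
  have : Fact (Nat.Prime 3) := ⟨by norm_num⟩
  have : Finite Y.1 := Nat.finite_of_card_ne_zero (by rw [Y.2]; omega)
  obtain ⟨l, hl⟩ := exists_prime_orderOf_dvd_card' (G := Y.1) 3 (by rw [Y.2])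
  have hl' : orderOf (l : L) = 3 := by rw [Subgroup.orderOf_coe, hl]
  have hY : Subgroup.zpowers (l : L) = Y.1 := by
    have : Finite (Subgroup.zpowers (l : L)) :=
      Nat.finite_of_card_ne_zero (by rw [Nat.card_zpowers, hl']; omega)
    exact Subgroup.eq_of_le_of_card_ge (Subgroup.zpowers_le.2 l.2)
      (by rw [Y.2, Nat.card_zpowers, hl'])
  obtain ⟨s, hs⟩ := h.onto l
  have l3 : (l : L) ^ 3 = 1 := by have := pow_orderOf_eq_one (l : L); rwa [hl'] at this
  have h1 := (h.ker (s ^ 3) (by rw [map_pow, hs, l3])).1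
  have h2 : π (s ^ 4) = l := by rw [map_pow, hs, pow_succ, l3, one_mul]
  have h3 : orderOf ((s ^ 4 : N) : E) = 3 := by
    rw [Subgroup.orderOf_coe]
    refine orderOf_eq_prime ?_ fun e => ?_
    · rw [← pow_mul, show 4 * 3 = 3 + 3 + (3 + 3) from rfl, pow_add, pow_add, h1, one_mul]
    · rw [e, map_one] at h2
      rw [← h2, orderOf_one] at hl'
      omega
  exact ⟨_, h3, Sub3.ext ((congrArg Subgroup.zpowers h2).trans hY)⟩

theorem Cover.smul_gen {x y : E} (hx : orderOf x = 3) (hy : orderOf y = 3) (g : E) :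
    α g • h.gen hx = h.gen hy ↔ g * x * g⁻¹ = y ∨ g * x * g⁻¹ = y⁻¹ := by
  have hz : orderOf (g * x * g⁻¹) = 3 := by
    rw [← hx]; exact (MulAut.conj g).orderOf_eq x
  have e1 : α g • h.gen hx = h.gen hz := Sub3.ext (by
    rw [coe_smul]
    change Subgroup.map _ (Subgroup.zpowers _) = Subgroup.zpowers _
    rw [MonoidHom.map_zpowers]
    exact congrArg _ (h.act g _ _ rfl))
  rw [e1]
  constructor
  · intro e
    classical
    have h0 : Subgroup.zpowers (π ⟨_, h.mem_of hz⟩) = Subgroup.zpowers (π ⟨y, h.mem_of hy⟩) :=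
      congrArg Sub3.val e
    have h1 : π ⟨_, h.mem_of hz⟩ ∈ Subgroup.zpowers (π ⟨y, h.mem_of hy⟩) :=
      h0 ▸ Subgroup.mem_zpowers _
    have hf : IsOfFinOrder (π ⟨y, h.mem_of hy⟩) := by
      rw [← orderOf_pos_iff, h.orderOf_π hy]; omega
    rw [← hf.mem_powers_iff_mem_zpowers, hf.mem_powers_iff_mem_range_orderOf, h.orderOf_π hy,
      Finset.mem_image] at h1
    obtain ⟨k, hk, h1⟩ := h1
    rw [← map_pow] at h1
    have h2 := congrArg Subtype.val (h.eq_of (by
      rw [← pow_mul, mul_comm, pow_mul, h.pow_eq hy, one_pow]) (h.pow_eq hz) h1)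
    change y ^ k = g * x * g⁻¹ at h2
    have y3 : y ^ 3 = 1 := by rw [← hy]; exact pow_orderOf_eq_one y
    rw [Finset.mem_range] at hk
    interval_cases k
    · rw [← h2, pow_zero, orderOf_one] at hz; omega
    · exact Or.inl (by rw [← h2, pow_one])
    · exact Or.inr (by rw [← h2, eq_inv_iff_mul_eq_one, ← pow_succ, y3])
  · rintro (e | e)
    · exact Sub3.ext (by simp only [Cover.gen, e])
    · refine Sub3.ext ?_
      change Subgroup.zpowers _ = Subgroup.zpowers _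
      rw [← Subgroup.zpowers_inv, ← map_inv]
      congr 2
      exact Subtype.ext (by simp [e])

theorem Cover.act_mem (s : N) : α s = MulAut.conj (π s) := MulEquiv.ext fun l => by
  obtain ⟨t, rfl⟩ := h.onto l
  rw [h.act s t (s * t * s⁻¹) rfl]
  simp

theorem Cover.mk_smul_eq {Y Y' : Sub3 L} (g g' : E) :
    mkc (α g • Y) = mkc (α g' • Y') ↔ ∃ k, φ k = (φ g')⁻¹ * φ g ∧ α k • Y = Y' := by
  rw [mk_eq]
  constructor
  · rintro ⟨l, hl⟩
    obtain ⟨s, rfl⟩ := h.onto l
    refine ⟨g'⁻¹ * s * g, ?_, ?_⟩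
    · rw [map_mul, map_mul, (h.mem _).1 s.2, mul_one, map_inv]
    · rw [map_mul, map_mul, h.act_mem, mul_smul, mul_smul, hl, map_inv, inv_smul_smul]
  · rintro ⟨k, h1, rfl⟩
    refine ⟨π ⟨g' * k * g⁻¹, (h.mem _).2 (by simp [h1])⟩, ?_⟩
    rw [← h.act_mem, ← mul_smul, ← mul_smul, ← map_mul α, ← map_mul α, inv_mul_cancel_right]

/-- The number of classes fixed by an element of `E`. -/
theorem Cover.card_fix [Finite A] {D : Type*} [Fintype D] (x : D → E)
    (hx : ∀ d, orderOf (x d) = 3) (h1 : ∀ y, orderOf y = 3 → ∃ d, IsConj y (x d))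
    (h2 : ∀ d d', IsConj (x d) (x d') ∨ IsConj (x d) (x d')⁻¹ → d = d') (S : D → Subgroup A)
    (h3 : ∀ d a, a ∈ S d ↔ ∃ g, φ g = a ∧ (g * x d * g⁻¹ = x d ∨ g * x d * g⁻¹ = (x d)⁻¹))
    (P : A → Prop) (T : D → Prop) [DecidablePred T] (hT : ∀ d, T d ↔ ∀ a, P a → a ∈ S d) :
    Nat.card {c : Cl L // ∀ g, P (φ g) → α g • c = c} =
      ∑ d, if T d then (S d).index else 0 := by
  classical
  choose σ hσ using h.surj
  have key : ∀ d d' g g', mkc (α g • h.gen (hx d)) = mkc (α g' • h.gen (hx d')) ↔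
      d = d' ∧ (φ g')⁻¹ * φ g ∈ S d := fun d d' g g' => by
    rw [h.mk_smul_eq]
    constructor
    · rintro ⟨k, e1, e2⟩
      rw [h.smul_gen] at e2
      obtain rfl : d = d' := h2 d d' (e2.imp (fun e => isConj_iff.2 ⟨k, e⟩)
        fun e => isConj_iff.2 ⟨k, e⟩)
      exact ⟨rfl, (h3 _ _).2 ⟨k, e1, e2⟩⟩
    · rintro ⟨rfl, e⟩
      obtain ⟨k, e1, e2⟩ := (h3 _ _).1 e
      exact ⟨k, e1, (h.smul_gen _ _ _).2 e2⟩
  have fix : ∀ d g k, α k • mkc (α g • h.gen (hx d)) = mkc (α g • h.gen (hx d)) ↔ φ k ∈ S d :=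
    fun d g k => by
      rw [smul_mk, ← mul_smul, ← map_mul, key, map_mul, mul_comm (φ k), inv_mul_cancel_left]
      simp
  let f : (Σ d : {d // T d}, A ⧸ S d) → {c : Cl L // ∀ g, P (φ g) → α g • c = c} := fun p =>
    ⟨mkc (α (σ p.2.out) • h.gen (hx p.1)), fun g hg => (fix _ _ _).2 ((hT _).1 p.1.2 _ hg)⟩
  have hf : Function.Bijective f := by
    constructor
    · rintro ⟨⟨d, hd⟩, q⟩ ⟨⟨d', hd'⟩, q'⟩ e
      obtain ⟨rfl, e2⟩ := (key _ _ _ _).1 (congrArg Subtype.val e)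
      rw [hσ, hσ, ← QuotientGroup.eq, QuotientGroup.out_eq', QuotientGroup.out_eq'] at e2
      exact congrArg (Sigma.mk _) e2.symm
    · rintro ⟨c, hc⟩
      obtain ⟨Y, rfl⟩ := mk_surj c
      obtain ⟨y, hy, rfl⟩ := h.exists_gen Y
      obtain ⟨d, hd⟩ := h1 y hy
      obtain ⟨g, hg⟩ := isConj_iff.1 hd.symm
      rw [← (h.smul_gen (hx d) hy g).2 (Or.inl hg)] at hc
      have hd : T d := (hT d).2 fun a ha => by
        rw [← hσ a]
        exact (fix d g _).1 (hc _ (by rwa [hσ]))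
      refine ⟨⟨⟨d, hd⟩, QuotientGroup.mk (φ g)⟩, Subtype.ext ?_⟩
      change mkc _ = mkc _
      rw [← (h.smul_gen (hx d) hy g).2 (Or.inl hg), key, hσ, ← QuotientGroup.eq,
        QuotientGroup.out_eq']
      exact ⟨rfl, rfl⟩
  rw [← Nat.card_congr (Equiv.ofBijective f hf), Nat.card_sigma, ← Finset.sum_filter,
    Finset.sum_subtype (Finset.univ.filter T) (p := T) (by simp)]
  rfl

end Count

end CL.FiT
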