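/-
The classes of elements of order three in orthogonal groups over `F₃`.
-/
import Mathlib
import Cfsg.Agent.SPOR.FiT1
import Cfsg.Agent.SPOR.FiT3
import Cfsg.Agent.Eqns.CL_FiT_m3

set_option autoImplicit false

namespace CL.FiT

open Module CL.Orth CL.Nil CL.Witt CL.GLn CL.SpU
open QuadraticMap (polar polarBilin)

theorem NF_neg {F : Type} [Field F] [Finite F] {hT : Good (FormType.quad F)} {N : ℕ}
    {S : FS (FormType.quad F)} {m : ℕ → ℕ} {s : ℕ → ℤˣ} (h : NF hT N S m s) :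
    NF hT N (S.setA (-S.A)) m s := by
  obtain ⟨m', s', h'⟩ := exists_nf hT N (S.setA (-S.A))
    (fun x y => by have := h.skew x y; simp [this]) (by rw [neg_pow, h.pow_eq_zero, mul_zero])
  have e : adj S.nd S.A = -S.A := (adj_eq_iff S.nd).2 fun x y => by
    have := h.skew x y
    simp [this]
  refine h'.congr (fun j hj => ?_) fun j hj hs => ?_
  · have := congrArg (Multiset.count (j + 1))
      ((h'.hasJT.of_simil (e ▸ hT.simil_adj S.nd S.A)).unique h.hasJT)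
    rwa [count_sum_replicate, count_sum_replicate, if_pos hj, if_pos hj] at this
  · refine RD.unique hT hs (h'.rd hj hs) ?_
    have he := (sym_quad hT.two).1 hs
    obtain ⟨k, β, π, h1, h2, h3, h4⟩ := h.rd hj hs
    have e1 : ∀ x, ((-S.A) ^ (j + 1)) x = 0 ↔ (S.A ^ (j + 1)) x = 0 := fun x => by
      rw [he.add_one.neg_pow]; simp
    exact ⟨k, β, π, h1, h2, fun c => (h3 c).imp fun x hx => ⟨(e1 x).2 hx.1, hx.2⟩,
      fun x y hx hy => by
        rw [← h4 x y ((e1 x).1 hx) ((e1 y).1 hy)]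
        change S.f.B (((-S.A) ^ j) x) y = _
        rw [he.neg_pow]⟩

theorem kap_eq {j : ℕ} (hj : j < 3) (k : ℕ) : kap F3 j k = 1 := by
  have : (Matrix.of fun i l : Fin (j + 1) =>
      if i = l.rev then (-1 : F3) ^ (l : ℕ) else 0).det = 1 := by
    interval_cases j
    · decide
    · rw [Matrix.det_fin_two]; decide
    · rw [Matrix.det_fin_three]; decide
  rw [kap, this, one_pow, sqSign_one]

theorem sqSign_two : sqSign (2 : F3) = -1 := sqSign_eq_neg_one_iff.2 (by decide)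

variable {V : Type} [AddCommGroup V] [Module F3 V] [FiniteDimensional F3 V]
  {Q : QuadraticForm F3 V} (hQ : (polarBilin Q).Nondegenerate)

/-- The type of an element of order three (in a space of square discriminant). -/
def Ty (x : O Q) (d : ℕ × ℕ × ℕ × ℤˣ) : Prop :=
  Uni (good_quad two_ne) 3 (oFS hQ x) (m3 d.1 d.2.1 d.2.2.1) (m3 d.2.2.2 1 d.2.2.2)

/-- The admissible types. -/
def Adm (n : ℕ) (d : ℕ × ℕ × ℕ × ℤˣ) : Prop :=
  d.1 + 2 * d.2.1 + 3 * d.2.2.1 = n ∧ d.2.1 % 2 = 0 ∧ (d.2.1 ≠ 0 ∨ d.2.2.1 ≠ 0) ∧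
    (d.1 = 0 ∨ d.2.2.1 = 0 → d.2.2.2 = 1)

instance (n : ℕ) (d : ℕ × ℕ × ℕ × ℤˣ) : Decidable (Adm n d) := by unfold Adm; infer_instance

omit [FiniteDimensional F3 V] in
theorem cube_sub (A : Module.End F3 V) : (A - 1) ^ 3 = A ^ 3 - 1 := by
  have h : (3 : Module.End F3 V) = 0 := by
    rw [← map_ofNat (algebraMap F3 (Module.End F3 V)) 3, show (3 : F3) = 0 from rfl, map_zero]
  have : (A - 1) ^ 3 = A ^ 3 - 1 - 3 * (A ^ 2 - A) := by noncomm_ring
  rw [this, h, zero_mul, sub_zero]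

variable {hQ}

theorem exists_ty (hd : dsc Q = 1) {x : O Q} (hx : orderOf x = 3) :
    ∃ d, Adm (finrank F3 V) d ∧ Ty hQ x d := by
  obtain ⟨m, s, h⟩ := exists_uni (good_quad two_ne) 3 (oFS hQ x) (isIsom_toEnd x) (by
    change (toEnd Q x - 1) ^ 3 = 0
    rw [cube_sub, ← map_pow, orderOf_dvd_iff_pow_eq_one.1 hx.dvd,
      map_one, sub_self])
  have h1 := h.dsc_eq
  have h2 := h.dim_eq
  have h3 := h.valid
  have e1 : (oFS hQ x).dsc = 1 := hd
  have e2 : (oFS hQ x).dim = finrank F3 V := rfl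
  simp only [Finset.prod_range_succ, Finset.sum_range_succ, Finset.range_zero, Finset.prod_empty,
    Finset.sum_empty, e1, e2, kap_eq (show 0 < 3 by omega), kap_eq (show 1 < 3 by omega),
    kap_eq (show 2 < 3 by omega)] at h1 h2
  have h4 : s 2 = s 0 := by
    revert h1; generalize s 0 = p; generalize s 1 = q; generalize s 2 = r; revert p q r; decide
  refine ⟨(m 0, m 1, m 2, s 0), ⟨by dsimp only; omega, Nat.even_iff.1 ((h3 1 (by omega)).1 ?_), ?_,
    ?_⟩, h.congr (fun j hj => by interval_cases j <;> rfl) fun j hj hs => ?_⟩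
  · rw [sym_quad two_ne]; decide
  · by_contra hc
    push Not at hc
    have h5 := (h.pow_eq_zero_iff 1).2 fun j hj h0 => by
      interval_cases j
      exacts [one_pos, absurd hc.1 h0, absurd hc.2 h0]
    rw [pow_one, sub_eq_zero] at h5
    rw [toEnd_injective (h5.trans (map_one (toEnd Q)).symm), orderOf_one] at hx
    omega
  · rintro (h0 | h0)
    · exact (h3 0 (by omega)).2 ((sym_quad two_ne).2 (by decide)) h0
    · exact h4 ▸ (h3 2 (by omega)).2 ((sym_quad two_ne).2 (by decide)) h0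
  · rw [sym_quad two_ne] at hs
    interval_cases j
    exacts [rfl, absurd hs (by decide), h4]

theorem exists_of_adm (hd : dsc Q = 1) {d : ℕ × ℕ × ℕ × ℤˣ} (h : Adm (finrank F3 V) d) :
    ∃ x : O Q, orderOf x = 3 ∧ Ty hQ x d := by
  obtain ⟨a, b, c, t⟩ := d
  obtain ⟨h1, h2, h3, h4⟩ := h
  dsimp only at h1 h2 h3 h4
  obtain ⟨S, hS, hu⟩ := exists_uni_of_valid (N := 3) (m := m3 a b c) (s := m3 t 1 t)
    (good_quad two_ne) fun j hj => by
      rw [sym_quad two_ne]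
      interval_cases j
      · exact ⟨fun h => absurd (by decide) h, fun _ h => h4 (Or.inl h)⟩
      · exact ⟨fun _ => Nat.even_iff.2 h2, fun h => absurd h (by decide)⟩
      · exact ⟨fun h => absurd (by decide) h, fun _ h => h4 (Or.inr h)⟩
  have e1 := hu.dsc_eq
  have e2 := hu.dim_eq
  simp only [Finset.prod_range_succ, Finset.sum_range_succ, Finset.range_zero, Finset.prod_empty,
    Finset.sum_empty, kap_eq (show 0 < 3 by omega), kap_eq (show 1 < 3 by omega),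
    kap_eq (show 2 < 3 by omega), m3] at e1 e2
  obtain ⟨φ, hφ⟩ := exists_isometry_of_dsc_eq two_ne (qfOf_nondeg S.nd) hQ
    (show S.dim = _ by omega) (by
      rw [hd]
      refine e1.trans ?_
      clear e1 hu h4; revert t; decide)
  obtain ⟨g, hg⟩ := exists_O_of_isom (qfOf_nondeg S.nd) (A := S.A) hS.q_eq
  have hi : S.Iso (oFS hQ (congrO φ hφ g)) := ⟨φ, isIsom_of_B two_ne fun x y =>
    (polar_of_isom (φ : S.V →ₗ[F3] V) hφ x y).trans (polar_qfOf _ _ _), fun v => by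
      rw [← hg]
      exact congrArg (fun w => φ (g.1 w)) (φ.symm_apply_apply v).symm⟩
  have hu' := hu.of_iso hi
  refine ⟨_, orderOf_eq_prime (toEnd_injective ?_) fun e => ?_, hu'⟩
  · have := (hu'.pow_eq_zero_iff 3).2 fun j hj _ => hj
    rw [cube_sub, sub_eq_zero] at this
    rw [map_pow, map_one]
    exact this
  · have := (hu'.pow_eq_zero_iff 1).1 (by
      change (toEnd Q _ - 1) ^ 1 = 0
      rw [e, map_one, sub_self, pow_one])
    rcases h3 with h3 | h3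
    exacts [absurd (this 1 (by omega) h3) (by omega), absurd (this 2 (by omega) h3) (by omega)]

variable {x y : O Q} {d d' : ℕ × ℕ × ℕ × ℤˣ}

theorem Ty.isConj (h : Ty hQ x d) (h' : Ty hQ y d) : IsConj x y := isConj_of_iso hQ (Uni.iso h h')

theorem Ty.of_isConj (h : Ty hQ x d) (h' : IsConj x y) : Ty hQ y d := by
  obtain ⟨g, rfl⟩ := isConj_iff.1 h'
  exact Uni.of_iso h ⟨g.1, isIsom_toEnd g, fun v =>
    congrArg (fun w => g.1 (x.1 w)) (g.1.symm_apply_apply v).symm⟩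

theorem Ty.unique (h : Ty hQ x d) (h' : Ty hQ x d') : d = d' :=
  Prod.ext (Uni.mult_eq h h' (j := 0) (by omega)) (Prod.ext (Uni.mult_eq h h' (j := 1) (by omega))
    (Prod.ext (Uni.mult_eq h h' (j := 2) (by omega))
      (Uni.sign_eq h h' (j := 0) (by omega) ((sym_quad two_ne).2 (by decide)))))

omit [FiniteDimensional F3 V] in
theorem cayley_inv {X : Module.End F3 V} (h : X * (toEnd Q x + 1) = toEnd Q x - 1) :
    -X * (toEnd Q x⁻¹ + 1) = toEnd Q x⁻¹ - 1 := by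
  have e : toEnd Q x * toEnd Q x⁻¹ = 1 := by rw [← map_mul, mul_inv_cancel, map_one]
  have := congrArg (· * toEnd Q x⁻¹) h
  simp only [mul_assoc, add_mul, sub_mul, e, one_mul] at this
  rw [neg_mul, add_comm, this, neg_sub]

omit [FiniteDimensional F3 V] in
theorem isUnit_inv (h : IsUnit (toEnd Q x + 1)) : IsUnit (toEnd Q x⁻¹ + 1) := by
  have e : toEnd Q x⁻¹ + 1 = (toEnd Q x + 1) * toEnd Q x⁻¹ := by
    rw [add_mul, ← map_mul, mul_inv_cancel, map_one, one_mul, add_comm]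
  rw [e]
  exact h.mul ((Group.isUnit x⁻¹).map _)

theorem Ty.inv (h : Ty hQ x d) : Ty hQ x⁻¹ d := by
  obtain ⟨X, h1, h2, h3⟩ := h
  exact ⟨-X, isUnit_inv h1, cayley_inv h2, NF_neg h3⟩

theorem Ty.eq_of_conj (h : Ty hQ x d) (h' : Ty hQ y d') (e : IsConj x y ∨ IsConj x y⁻¹) : d = d' :=
  e.elim (fun e => (h.of_isConj e).unique h') fun e => (h.of_isConj e).unique h'.inv

/-- The normaliser of the group generated by an element of order three. -/
def nrm {G : Type*} [Group G] (x : G) : Subgroup G where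
  carrier := {g | g * x * g⁻¹ = x ∨ g * x * g⁻¹ = x⁻¹}
  one_mem' := Or.inl (by simp)
  mul_mem' {a b} ha hb := by
    have e : a * b * x * (a * b)⁻¹ = a * (b * x * b⁻¹) * a⁻¹ := by group
    have e' : a * x⁻¹ * a⁻¹ = (a * x * a⁻¹)⁻¹ := by group
    change _ ∨ _
    rcases hb with hb | hb <;> rw [e, hb]
    · exact ha
    · rw [e', inv_eq_iff_eq_inv, inv_inj]; exact ha.symm
  inv_mem' {a} ha := by
    rcases ha with ha | ha
    · exact Or.inl (by conv_lhs => rw [← ha]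
                       group)
    · refine Or.inr ?_
      have : x = a * x⁻¹ * a⁻¹ := (inv_eq_iff_eq_inv.1 ha.symm).trans (by group)
      conv_lhs => rw [this]
      group

theorem Ty.model {a b c : ℕ} {t : ℤˣ} (h : Ty hQ x (a, b, c, t)) :
    ∃ (Q' : QuadraticForm F3 (Md a b c)) (β₂ : _) (β₁ : _) (β₀ : _) (m : Model Q' β₂ β₁ β₀)
      (e : O Q ≃* O Q'), (∀ g, ds m.nd (e g) = ds hQ g) ∧ e (negOne Q) = negOne Q' ∧
      ∀ g ∈ nrm x, ∃ ε : F3, ε * ε = 1 ∧ ∀ v, (e g).1 (Xm v) = ε • Xm ((e g).1 v) := by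
  obtain ⟨X, h1, h2, h3⟩ := h
  obtain ⟨Q', β₂, β₁, β₀, m, e, he, hX⟩ := exists_model hQ h3
  refine ⟨Q', β₂, β₁, β₀, m, congrO e he, fun g => by
    rw [ds_apply, ds_apply, dsign_congrO, spin_congrO hQ], O_ext fun v => by
      simp [congrO_apply, negOne_apply], fun g hg => ?_⟩
  change X * (toEnd Q x + 1) = toEnd Q x - 1 at h2
  change IsUnit (toEnd Q x + 1) at h1
  have e0 : toEnd Q g⁻¹ * toEnd Q g = 1 := by rw [← map_mul, inv_mul_cancel, map_one]
  have e0' : toEnd Q g * toEnd Q g⁻¹ = 1 := by rw [← map_mul, mul_inv_cancel, map_one]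
  have e1 : toEnd Q g * X * toEnd Q g⁻¹ * (toEnd Q (g * x * g⁻¹) + 1) =
      toEnd Q (g * x * g⁻¹) - 1 := by
    have : toEnd Q g * (X * (toEnd Q x + 1)) * toEnd Q g⁻¹ =
        toEnd Q g * (toEnd Q x - 1) * toEnd Q g⁻¹ := by rw [h2]
    simp only [map_mul, mul_add, add_mul, mul_sub, sub_mul, mul_one, mul_assoc, e0'] at this ⊢
    rw [← this, ← mul_assoc (toEnd Q g⁻¹), e0, one_mul]
  have key : ∀ ε : F3, toEnd Q g * X * toEnd Q g⁻¹ = ε • X →
      ∀ v, (congrO e he g).1 (Xm v) = ε • Xm ((congrO e he g).1 v) := fun ε hε v => by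
    obtain ⟨v, rfl⟩ := e.surjective v
    have := LinearMap.congr_fun (congrArg (· * toEnd Q g) hε) v
    simp only [mul_assoc, e0, mul_one] at this
    rw [← hX, congrO_apply, congrO_apply, e.symm_apply_apply, e.symm_apply_apply, ← hX,
      ← e.map_smul]
    exact congrArg e this
  rcases hg with hg | hg <;> rw [hg] at e1
  · exact ⟨1, one_mul 1, key 1 (by rw [one_smul]; exact h1.mul_right_cancel (e1.trans h2.symm))⟩
  · exact ⟨-1, by decide, key (-1) (by
      rw [neg_one_smul]; exact (isUnit_inv h1).mul_right_cancel (e1.trans (cayley_inv h2).symm))⟩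

/-- The image of the normaliser in `O / Ω`. -/
noncomputable def img (hQ : (polarBilin Q).Nondegenerate) (x : O Q) : Subgroup (ℤˣ × ℤˣ) :=
  (nrm x).map (ds hQ)

theorem Ty.mem_img (h : Ty hQ x d) {j : ℕ} (hj : j = 0 ∨ j = 2) {t : ℤˣ}
    (hk : 2 ≤ m3 d.1 d.2.1 d.2.2.1 j ∨ (m3 d.1 d.2.1 d.2.2.1 j = 1 ∧ t = d.2.2.2)) :
    (-1, -t) ∈ img hQ x := by
  have := Uni.cent h (j := j) (by omega) (by rcases hj with rfl | rfl <;> decide) (t := t)
    (by rcases hj with rfl | rfl <;> exact hk)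
  rw [sqSign_two, kap_eq (by omega), mul_one, neg_one_mul] at this
  obtain ⟨c, h1, h2, h3⟩ := exists_of_cent hQ this
  exact ⟨c, Or.inl (by rw [← h1.eq, mul_inv_cancel_right]), by rw [ds_apply, h2, h3]⟩

theorem Ty.img_top (h : Ty hQ x d) (hk : 2 ≤ d.1 ∨ 2 ≤ d.2.2.1) : img hQ x = ⊤ := by
  have h1 : ∀ t : ℤˣ, (-1, -t) ∈ img hQ x := fun t => hk.elim
    (fun hk => h.mem_img (j := 0) (Or.inl rfl) (Or.inl hk))
    fun hk => h.mem_img (j := 2) (Or.inr rfl) (Or.inl hk)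
  have : ∀ a : ℤˣ × ℤˣ, a = (-1, - -a.2) ∨ a = (-1, -1) * (-1, -a.2) := by decide
  refine eq_top_iff.2 fun a _ => ?_
  rcases this a with e | e <;> rw [e]
  exacts [h1 _, mul_mem (h1 1) (h1 _)]

theorem eq_zpowers {S : Subgroup (ℤˣ × ℤˣ)} {t : ℤˣ} (h : (-1, t) ∈ S) (h' : (1, -1) ∉ S) :
    S = Subgroup.zpowers (-1, t) := by
  refine le_antisymm (fun a ha => ?_) (Subgroup.zpowers_le.2 h)
  have : ∀ (a : ℤˣ × ℤˣ) (t : ℤˣ), a = 1 ∨ a = (-1, t) ∨ a = (1, -1) ∨ a * (-1, t) = (1, -1) := by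
    decide
  rcases this a t with e | e | e | e
  · rw [e]; exact one_mem _
  · rw [e]; exact Subgroup.mem_zpowers _
  · exact absurd (e ▸ ha) h'
  · exact absurd (e ▸ mul_mem ha h) h'

theorem index_zpowers (t : ℤˣ) : (Subgroup.zpowers ((-1, t) : ℤˣ × ℤˣ)).index = 2 := by
  have h := (Subgroup.zpowers ((-1, t) : ℤˣ × ℤˣ)).card_mul_index
  rw [Nat.card_zpowers, orderOf_eq_prime (p := 2) (by rw [sq, units_sq])
    (fun e => absurd (congrArg Prod.fst e) (show ¬(-1 : ℤˣ) = 1 by decide))] at h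
  simp at h
  omega

theorem mem_zpowers (t : ℤˣ) (a : ℤˣ × ℤˣ) :
    a ∈ Subgroup.zpowers ((-1, t) : ℤˣ × ℤˣ) ↔ a = 1 ∨ a = (-1, t) := by
  refine ⟨fun ⟨k, hk⟩ => ?_, fun h => ?_⟩
  · rcases Int.even_or_odd' k with ⟨l, rfl | rfl⟩
    · exact Or.inl (by rw [← hk]; simp only [zpow_mul, zpow_two, units_sq, one_zpow])
    · exact Or.inr (by
        rw [← hk]; simp only [zpow_add, zpow_mul, zpow_two, units_sq, one_zpow, one_mul, zpow_one])
  · rcases h with rfl | rfl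
    exacts [one_mem _, Subgroup.mem_zpowers _]

theorem Ty.img_040 {t : ℤˣ} (h : Ty hQ x (0, 4, 0, t)) : img hQ x = ⊥ := by
  obtain ⟨Q', β₂, β₁, β₀, m, e, h1, -, h3⟩ := h.model
  refine eq_bot_iff.2 ?_
  rintro _ ⟨g, hg, rfl⟩
  obtain ⟨ε, h4, h5⟩ := h3 g hg
  rw [← h1]
  exact model_040 m h4 h5

theorem Ty.img_021 {t : ℤˣ} (h : Ty hQ x (0, 2, 1, t)) (hd : dsign (negOne Q) = -1) :
    img hQ x = Subgroup.zpowers (-1, -t) := by
  refine eq_zpowers (h.mem_img (j := 2) (Or.inr rfl) (Or.inr ⟨rfl, rfl⟩)) ?_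
  obtain ⟨Q', β₂, β₁, β₀, m, e, h1, h2, h3⟩ := h.model
  rintro ⟨g, hg, h6⟩
  obtain ⟨ε, h4, h5⟩ := h3 g hg
  have := model_021 m h4 h5
  rw [← h2, h1, h1, h6, ds_apply, hd] at this
  rcases this with e | e
  · exact absurd e (by decide)
  · exact absurd (congrArg Prod.fst e) (show ¬(1 : ℤˣ) = -1 by decide)

theorem Ty.img_121 {t : ℤˣ} (h : Ty hQ x (1, 2, 1, t)) (hd : ds hQ (negOne Q) = 1) :
    img hQ x = Subgroup.zpowers (-1, -t) := by
  refine eq_zpowers (h.mem_img (j := 2) (Or.inr rfl) (Or.inr ⟨rfl, rfl⟩)) ?_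
  obtain ⟨Q', β₂, β₁, β₀, m, e, h1, h2, h3⟩ := h.model
  rintro ⟨g, hg, h6⟩
  obtain ⟨ε, h4, h5⟩ := h3 g hg
  have := model_121 m h4 h5 (congrArg Prod.fst ((h1 g).trans h6))
  rw [← h2, h1, h1, h6, hd, or_self] at this
  exact absurd this (by decide)

end CL.FiT
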