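/-
The classes of subgroups of order three in `Ω₇(3)` and `PΩ₈⁺(3)`.
-/
import Mathlib
import Cfsg.Agent.SPOR.FiT4
import Cfsg.Agent.CLAS.OutOrth3

set_option autoImplicit false
set_option synthInstance.maxSize 1024

namespace CL.FiT

open Module CL.Orth CL.OrthE CL.OutOrth Cfsg
open QuadraticMap (polar polarBilin)

section Cover

variable {ι : Type} [Fintype ι] [DecidableEq ι] {Q : QuadraticForm F3 (ι → F3)} (h : OK Q)

variable (Q) in
/-- The projection of `Ω` to `PΩ`. -/
noncomputable def pr : commutator (O Q) →* POmega F3 Q :=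
  (QuotientGroup.mk' _).comp (commutatorCongr (toO Q)).symm.toMonoidHom

/-- The action of the orthogonal group on `PΩ`. -/
noncomputable def al : O Q →* MulAut (POmega F3 Q) := (h.real.ind h.good.std).comp (oo Q)

theorem θ_oo (g : O Q) : h.θ (oo Q g) = QuotientGroup.mk (al h g) := rfl

theorem cover : Cover (ds h.nd) (commutator (O Q)) (pr Q) (al h) where
  sq := units_sq
  surj a := by
    obtain ⟨g, h1, h2⟩ := exists_dsign_spin_eq h.nd two_ne h.two a.1 a.2
    exact ⟨g, Prod.ext h1 h2⟩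
  mem g := by rw [mem_commutator_iff h.nd hF3, ds_apply, Prod.mk_eq_one]
  onto := (QuotientGroup.mk'_surjective _).comp (commutatorCongr (toO Q)).symm.surjective
  ker s hs := by
    have h1 : (commutatorCongr (toO Q)).symm s ∈ Subgroup.center _ :=
      (QuotientGroup.eq_one_iff _).1 hs
    have h2 : s ∈ Subgroup.center (commutator (O Q)) := Subgroup.mem_center_iff.2 fun t =>
      (commutatorCongr (toO Q)).symm.injective (by
        rw [map_mul, map_mul]; exact Subgroup.mem_center_iff.1 h1 _)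
    refine ⟨?_, Subgroup.mem_center_iff.1 h2⟩
    rcases (mem_center_commutator_iff h.nd (by simpa using h.five) s).1 h2 with e | e
    · exact Subtype.ext (by simp [e])
    · exact Subtype.ext (O_ext fun v => by
        change s.1.1 (s.1.1 v) = v
        rw [e, e, neg_neg])
  act g s t e := by
    refine h.real.ind_mk h.good fun v => ?_
    rw [oo_smul, oo_smul]
    refine (toO_symm_mulVec t.1 _).trans ?_
    rw [e, O_mul_apply, O_mul_apply, O_inv_apply]
    exact congrArg g.1 (toO_symm_mulVec s.1 v).symm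

theorem count (hd : dsc Q = 1) {D : Type} [Fintype D] (M : D → ℕ × ℕ × ℕ × ℤˣ)
    (hM : Function.Injective M) (h1 : ∀ d, Adm (Fintype.card ι) (M d))
    (h2 : ∀ a ≤ Fintype.card ι, ∀ b ≤ Fintype.card ι, ∀ c ≤ Fintype.card ι, ∀ t,
      Adm (Fintype.card ι) (a, b, c, t) → ∃ d, M d = (a, b, c, t))
    (S : D → Subgroup (ℤˣ × ℤˣ)) (hS : ∀ d x, Ty h.nd x (M d) → img h.nd x = S d)
    (P : ℤˣ × ℤˣ → Prop) (T : D → Prop) [DecidablePred T] (hT : ∀ d, T d ↔ ∀ a, P a → a ∈ S d) :
    Nat.card {c : Cl (POmega F3 Q) // ∀ g, P (ds h.nd g) → al h g • c = c} =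
      ∑ d, if T d then (S d).index else 0 := by
  rw [← finrank_fintype_fun_eq_card F3] at h1 h2
  choose x hx hx' using fun d => exists_of_adm (hQ := h.nd) hd (h1 d)
  refine (cover h).card_fix x hx (fun y hy => ?_) (fun d d' e => hM ((hx' d).eq_of_conj (hx' d') e))
    S (fun d a => ?_) P T hT
  · obtain ⟨⟨a, b, c, t⟩, e1, e2⟩ := exists_ty (hQ := h.nd) hd hy
    have := e1.1
    dsimp only at this
    obtain ⟨d, hd⟩ := h2 a (by omega) b (by omega) c (by omega) t e1
    exact ⟨d, e2.isConj (hd ▸ hx' d)⟩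
  · rw [← hS d _ (hx' d)]
    exact ⟨fun ⟨g, h1, h2⟩ => ⟨g, h2, h1⟩, fun ⟨g, h1, h2⟩ => ⟨g, h2, h1⟩⟩

end Cover

theorem sqSign_neg_one : sqSign (-1 : F3) = -1 := sqSign_two

theorem card_cl_seven : Nat.card (Cl (POmega F3 (QOdd 3 F3))) = 7 := by
  have h : OK (QOdd 3 F3) := ok_odd (by omega) two_ne
  have := count h (by rw [dsc_QOdd two_ne, sqSign_two, sqSign_neg_one]; decide)
    ![(3, 2, 0, 1), (4, 0, 1, 1), (4, 0, 1, -1), (0, 2, 1, 1), (1, 0, 2, 1), (1, 0, 2, -1)]
    (by decide) (by decide) (by decide +kernel)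
    ![⊤, ⊤, ⊤, Subgroup.zpowers (-1, -1), ⊤, ⊤] (fun d x hx => by
      fin_cases d
      exacts [hx.img_top (by decide), hx.img_top (by decide), hx.img_top (by decide),
        hx.img_021 (by rw [dsign_negOne two_ne, finrank_fintype_fun_eq_card]; decide),
        hx.img_top (by decide), hx.img_top (by decide)])
    (fun _ => False) (fun _ => True) (by simp)
  simp only [false_imp_iff, implies_true, if_true, Fin.sum_univ_succ, Matrix.cons_val_zero,
    Matrix.cons_val_succ, Subgroup.index_top, index_zpowers, Fin.sum_univ_zero] at this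
  exact (Nat.card_congr (Equiv.subtypeUnivEquiv fun _ => trivial)).symm.trans this

theorem count_eight (P : ℤˣ × ℤˣ → Prop) (T : Fin 8 → Prop) [DecidablePred T]
    (hT : ∀ d, T d ↔ ∀ a, P a → a ∈ (![⊤, ⊥, ⊤, ⊤, Subgroup.zpowers (-1, -1),
      Subgroup.zpowers (-1, 1), ⊤, ⊤] d : Subgroup (ℤˣ × ℤˣ))) :
    Nat.card {c : Cl (POmega F3 (QPlus 4 F3)) //
      ∀ g, P (ds (ok4 F3).nd g) → al (ok4 F3) g • c = c} =
      ∑ d, if T d then ![1, 4, 1, 1, 2, 2, 1, 1] d else 0 := by
  have hd : dsc (QPlus 4 F3) = 1 := by rw [dsc_QPlus, sqSign_neg_one]; decide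
  have hn : ds (ok4 F3).nd (negOne _) = 1 := by
    rw [ds_apply, dsign_negOne two_ne, spin_negOne two_ne (ok4 F3).nd, hd, sqSign_two,
      finrank_fintype_fun_eq_card]
    decide
  rw [count (ok4 F3) hd
    ![(4, 2, 0, 1), (0, 4, 0, 1), (5, 0, 1, 1), (5, 0, 1, -1), (1, 2, 1, 1), (1, 2, 1, -1),
      (2, 0, 2, 1), (2, 0, 2, -1)]
    (by decide) (by decide) (by decide +kernel) _ (fun d x hx => by
      fin_cases d
      exacts [hx.img_top (by decide), hx.img_040, hx.img_top (by decide), hx.img_top (by decide),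
        hx.img_121 hn, hx.img_121 hn, hx.img_top (by decide), hx.img_top (by decide)]) P T hT]
  refine Finset.sum_congr rfl fun d _ => ?_
  congr 1
  fin_cases d <;> simp [index_zpowers]

theorem card_cl_eight : Nat.card (Cl (POmega F3 (QPlus 4 F3))) = 13 := by
  have := count_eight (fun _ => False) (fun _ => True) (by simp)
  simp only [false_imp_iff, implies_true] at this
  exact (Nat.card_congr (Equiv.subtypeUnivEquiv fun _ => trivial)).symm.trans this

theorem card_fix_all : Nat.card {c : Cl (POmega F3 (QPlus 4 F3)) //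
    ∀ g, al (ok4 F3) g • c = c} = 5 := by
  have := count_eight (fun _ => True) (fun d => d ≠ 1 ∧ d ≠ 4 ∧ d ≠ 5) fun d => by
    fin_cases d <;> simp [mem_zpowers] <;> decide
  simp only [true_imp_iff] at this
  exact this

theorem card_fix_z : Nat.card {c : Cl (POmega F3 (QPlus 4 F3)) //
    ∀ g, ds (ok4 F3).nd g = (1, -1) → al (ok4 F3) g • c = c} = 5 :=
  count_eight (fun a => a = (1, -1)) (fun d => d ≠ 1 ∧ d ≠ 4 ∧ d ≠ 5) fun d => by
    fin_cases d <;> simp [mem_zpowers]

theorem card_fix_r : Nat.card {c : Cl (POmega F3 (QPlus 4 F3)) //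
    ∀ g, ds (ok4 F3).nd g = (-1, 1) → al (ok4 F3) g • c = c} = 7 :=
  count_eight (fun a => a = (-1, 1)) (fun d => d ≠ 1 ∧ d ≠ 4) fun d => by
    fin_cases d <;> simp [mem_zpowers]

end CL.FiT
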