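/-
A permutation representation of `S₄` of degree thirteen.
-/
import Mathlib

set_option autoImplicit false
set_option synthInstance.maxSize 1024

namespace CL.FiT

open Equiv Finset

/-- The symmetric group of degree four. -/
abbrev P4 : Type := Perm (Fin 4)

/-- The Klein four-group. -/
def V4 : Finset P4 := {1, swap 0 1 * swap 2 3, swap 0 2 * swap 1 3, swap 0 3 * swap 1 2}

variable {X : Type*} [MulAction P4 X]

/-- Points with trivial stabiliser in the four-group. -/
def Free (x : X) : Prop := ∀ v ∈ V4, v • x = x → v = 1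

/-- Points in the same orbit of the four-group. -/
def Rl (x y : X) : Prop := ∃ v ∈ V4, v • x = y

theorem V4_conj : ∀ g : P4, ∀ v ∈ V4, g * v * g⁻¹ ∈ V4 := by decide
theorem V4_mul : ∀ v ∈ V4, ∀ w ∈ V4, v * w ∈ V4 := by decide
theorem V4_inv : ∀ v ∈ V4, v⁻¹ = v := by decide

theorem Free.smul {x : X} (h : Free x) (g : P4) : Free (g • x) := fun v hv e => by
  have := h _ (V4_conj g⁻¹ v hv) (by rw [inv_inv, mul_smul, mul_smul, e, inv_smul_smul])
  rwa [inv_inv, mul_assoc, inv_mul_eq_one, right_eq_mul] at this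

theorem Rl.refl (x : X) : Rl x x := ⟨1, by decide, one_smul _ _⟩

theorem Rl.symm {x y : X} (h : Rl x y) : Rl y x := by
  obtain ⟨v, hv, rfl⟩ := h
  exact ⟨v, hv, by nth_rw 1 [← V4_inv v hv]; rw [inv_smul_smul]⟩

theorem Rl.trans {x y z : X} (h : Rl x y) (h' : Rl y z) : Rl x z := by
  obtain ⟨v, hv, rfl⟩ := h
  obtain ⟨w, hw, rfl⟩ := h'
  exact ⟨w * v, V4_mul _ hw _ hv, mul_smul _ _ _⟩

theorem Rl.smul {x y : X} (h : Rl x y) (g : P4) : Rl (g • x) (g • y) := by
  obtain ⟨v, hv, rfl⟩ := h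
  exact ⟨_, V4_conj g v hv, by rw [mul_smul, inv_smul_smul, mul_smul]⟩

theorem Rl.of_smul {x y : X} {g : P4} (h : Rl (g • x) (g • y)) : Rl x y := by
  simpa using h.smul g⁻¹

/-- A three-cycle. -/
def t3 : P4 := swap 0 1 * swap 1 2

theorem exists_fix {x : X} (h : Rl x (t3 • x)) : ∃ y, Rl x y ∧ t3 • y = y := by
  obtain ⟨v, hv, e⟩ := h
  have : ∀ v ∈ V4, ∃ w ∈ V4, t3 * w * t3⁻¹ * v = w := by decide
  obtain ⟨w, hw, e'⟩ := this v hv
  refine ⟨w • x, ⟨w, hw, rfl⟩, ?_⟩
  conv_rhs => rw [← e', mul_smul, e, mul_smul, inv_smul_smul, mul_smul]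

theorem fix_unique {x y : X} (hx : Free x) (h : Rl x y) (e : t3 • x = x) (e' : t3 • y = y) :
    y = x := by
  obtain ⟨v, hv, rfl⟩ := h
  have : ∀ v ∈ V4, v * (t3 * v * t3⁻¹) = 1 → v = 1 := by decide
  rw [this v hv (hx _ (V4_mul _ hv _ (V4_conj _ _ hv)) ?_), one_smul]
  rw [mul_smul, mul_smul, inv_smul_eq_iff.2 e.symm, mul_smul, e']
  nth_rw 1 [← V4_inv v hv]; rw [inv_smul_smul]

open Classical in
/-- The fixed points of a permutation. -/
noncomputable def Fx (X : Type*) [MulAction P4 X] [Fintype X] (g : P4) : Finset X :=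
  univ.filter fun x => g • x = x

variable [Fintype X]

theorem mem_Fx {g : P4} {x : X} : x ∈ Fx X g ↔ g • x = x := by simp [Fx]

theorem card_Fx_conj (g h : P4) : (Fx X (g * h * g⁻¹)).card = (Fx X h).card := by
  refine (card_bij (fun x _ => g • x) (fun x hx => ?_) (fun _ _ _ _ e => MulAction.injective g e)
    fun y hy => ⟨g⁻¹ • y, ?_, smul_inv_smul _ _⟩).symm
  · rw [mem_Fx] at hx ⊢
    rw [mul_smul, inv_smul_smul, mul_smul, hx]
  · rw [mem_Fx] at hy ⊢
    rw [mul_smul, mul_smul] at hy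
    rw [eq_inv_smul_iff, hy]

open Classical in
theorem card_orb {x : X} (hx : Free x) : (univ.filter (Rl x)).card = 4 := by
  have : univ.filter (Rl x) = V4.image (· • x) := by ext y; simp [Rl]
  rw [this, card_image_of_injOn]
  · decide
  · intro v hv w hw e
    have := hx _ (V4_mul _ hw _ hv) (by
      rw [mul_smul, show v • x = w • x from e]
      nth_rw 1 [← V4_inv w hw]; rw [inv_smul_smul])
    rw [← V4_inv w hw, inv_mul_eq_one] at this
    exact this.symm

theorem card_fix_t3 (h0 : Fintype.card X = 13) (h1 : (Fx X (swap 0 1 * swap 2 3)).card = 5)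
    (h2 : Fx X (swap 0 1 * swap 2 3) ⊆ Fx X (swap 0 1)) (h3 : (Fx X (swap 0 1)).card = 7) :
    (Fx X t3).card = 4 := by
  classical
  set F1 := Fx X (swap 0 1 * swap 2 3)
  set F2 := Fx X (swap 0 2 * swap 1 3)
  set F3 := Fx X (swap 0 3 * swap 1 2)
  have c2 : F2.card = 5 := by
    rw [← h1, ← card_Fx_conj (swap 1 2)]; congr 2; decide
  have c3 : F3.card = 5 := by
    rw [← h1, ← card_Fx_conj (swap 1 3)]; congr 2; decide
  set A := univ.filter fun x : X => ∀ v ∈ V4, v • x = x
  set C := univ.filter fun x : X => Free x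
  have two : ∀ (x : X) (v w : P4), v ∈ V4 → w ∈ V4 → v ≠ 1 → w ≠ 1 → v ≠ w → v • x = x →
      w • x = x → x ∈ A := fun x v w hv hw h4 h5 h6 e e' => by
    have : ∀ v ∈ V4, ∀ w ∈ V4, v ≠ 1 → w ≠ 1 → v ≠ w → ∀ u ∈ V4, u = 1 ∨ u = v ∨ u = w ∨
        u = v * w := by decide
    refine mem_filter.2 ⟨mem_univ _, fun u hu => ?_⟩
    rcases this v hv w hw h4 h5 h6 u hu with rfl | rfl | rfl | rfl
    exacts [one_smul _ _, e, e', by rw [mul_smul, e', e]]
  have hA : ∀ x ∈ A, ∀ v ∈ V4, v • x = x := fun x hx => (mem_filter.1 hx).2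
  have i12 : F1 ∩ F2 = A := by
    ext x
    rw [mem_inter, mem_Fx, mem_Fx]
    exact ⟨fun h => two x _ _ (by decide) (by decide) (by decide) (by decide) (by decide) h.1 h.2,
      fun h => ⟨hA x h _ (by decide), hA x h _ (by decide)⟩⟩
  have i3 : (F1 ∪ F2) ∩ F3 = A := by
    ext x
    rw [mem_inter, mem_union, mem_Fx, mem_Fx, mem_Fx]
    refine ⟨fun h => h.1.elim (fun e => ?_) fun e => ?_,
      fun h => ⟨Or.inl (hA x h _ (by decide)), hA x h _ (by decide)⟩⟩ <;>
    exact two x _ _ (by decide) (by decide) (by decide) (by decide) (by decide) e h.2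
  have hC : ∀ x, x ∈ C ↔ x ∉ F1 ∪ F2 ∪ F3 := fun x => by
    rw [mem_union, mem_union, mem_Fx, mem_Fx, mem_Fx, mem_filter]
    refine ⟨fun h => ?_, fun h => ⟨mem_univ _, fun v hv e => ?_⟩⟩
    · rintro ((e | e) | e) <;> exact absurd (h.2 _ (by decide) e) (by decide)
    · simp only [V4, mem_insert, mem_singleton] at hv
      rcases hv with rfl | rfl | rfl | rfl
      exacts [rfl, absurd (Or.inl (Or.inl e)) h, absurd (Or.inl (Or.inr e)) h, absurd (Or.inr e) h]
  have cC : C.card + (F1 ∪ F2 ∪ F3).card = 13 := by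
    rw [show C = (F1 ∪ F2 ∪ F3)ᶜ from Finset.ext fun x => (hC x).trans mem_compl.symm,
      card_compl_add_card, h0]
  have u1 := card_union_add_card_inter F1 F2
  have u2 := card_union_add_card_inter (F1 ∪ F2) F3
  have hA5 : A.card ≤ 5 := h1 ▸ card_le_card (i12 ▸ inter_subset_left)
  rw [i12] at u1
  rw [i3] at u2
  have free : ∀ x, x ∈ C ↔ Free x := fun x => by simp [C]
  have hinv : ∀ g : P4, ∀ x, g • x = x → ∀ v w : P4, v ∈ V4 → v ≠ 1 → g * v * g⁻¹ ≠ v →
      v • x = x → x ∈ A := fun g x e v w hv h4 h5 e' =>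
    two x _ _ (V4_conj g v hv) hv (fun h => h4 (by simpa using h)) h4 h5
      (by rw [mul_smul, inv_smul_eq_iff.2 e.symm, mul_smul, e', e]) e'
  have hr : Fx X (swap 0 1) = F1 ∪ (Fx X (swap 0 1) ∩ C) := by
    refine Subset.antisymm (fun x hx => ?_) (union_subset h2 inter_subset_left)
    rw [mem_union, mem_inter, hC, mem_union, mem_union]
    by_contra hc
    push Not at hc
    rcases hc.2 hx with (e | e) | e
    · exact hc.1 e
    · exact hc.1 (mem_Fx.2 (hA x (hinv _ x (mem_Fx.1 hx) _ 1 (by decide) (by decide) (by decide)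
        (mem_Fx.1 e)) _ (by decide)))
    · exact hc.1 (mem_Fx.2 (hA x (hinv _ x (mem_Fx.1 hx) _ 1 (by decide) (by decide) (by decide)
        (mem_Fx.1 e)) _ (by decide)))
  have cr : (Fx X (swap 0 1) ∩ C).card = 2 := by
    rw [hr, card_union_of_disjoint (disjoint_left.2 fun x hx hx' =>
      (hC x).1 (mem_inter.1 hx').2 (mem_union_left _ (mem_union_left _ hx)))] at h3
    omega
  obtain ⟨x, hx⟩ := card_pos.1 (show 0 < (Fx X (swap 0 1) ∩ C).card by omega)
  rw [mem_inter, mem_Fx, free] at hx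
  have sub : ∀ y, Free y → univ.filter (Rl y) ⊆ C := fun y hy w hw => by
    obtain ⟨v, -, rfl⟩ := (mem_filter.1 hw).2
    exact (free _).2 (hy.smul v)
  have all : ∀ y, Free y → Rl x y := fun y hy => by
    by_contra hxy
    have e : univ.filter (Rl x) ∪ univ.filter (Rl y) = C := by
      refine eq_of_subset_of_card_le (union_subset (sub x hx.2) (sub y hy)) ?_
      rw [card_union_of_disjoint (disjoint_left.2 fun w h h' =>
        hxy ((mem_filter.1 h).2.trans (mem_filter.1 h').2.symm)), card_orb hx.2, card_orb hy]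
      omega
    have cov : ∀ w, Free w → Rl x w ∨ Rl y w := fun w hw => by
      simpa [← e] using (free w).2 hw
    have tx : Rl x (t3 • x) := (cov _ (hx.2.smul _)).resolve_right fun h => by
      rcases cov _ (hy.smul t3) with h' | h'
      · have h4 := (h'.trans (h.smul t3)).smul t3
        rw [← mul_smul, ← mul_smul, show t3 * t3 * t3 = 1 by decide, one_smul] at h4
        exact hxy (h.trans h4).symm
      · exact hxy (h.symm.trans h').of_smul
    have ty : Rl y (t3 • y) := (cov _ (hy.smul _)).resolve_left fun h =>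
      hxy (tx.symm.trans h).of_smul
    obtain ⟨w, h4, h5⟩ := exists_fix ty
    have hw : Free w := by obtain ⟨v, -, rfl⟩ := h4; exact hy.smul v
    have h6 : Rl w (swap (0 : Fin 4) 1 • w) := by
      refine h4.symm.trans ((cov _ (hw.smul _)).resolve_left fun h => hxy ?_)
      rw [← hx.1] at h
      exact h.of_smul.trans h4.symm
    have h7 := fix_unique hw h6 h5 (by
      rw [← mul_smul, show t3 * swap 0 1 = swap 0 1 * t3 * t3 by decide, mul_smul, h5, mul_smul, h5])
    have h8 : ({x, (swap (0 : Fin 4) 1 * swap (2 : Fin 4) 3) • x, w} : Finset X) ⊆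
        Fx X (swap 0 1) ∩ C := by
      intro u hu
      rw [mem_inter, mem_Fx, free]
      simp only [mem_insert, mem_singleton] at hu
      rcases hu with rfl | rfl | rfl
      · exact hx
      · exact ⟨by rw [← mul_smul, show swap (0 : Fin 4) 1 * (swap 0 1 * swap 2 3) =
          swap 0 1 * swap 2 3 * swap 0 1 by decide, mul_smul, hx.1], hx.2.smul _⟩
      · exact ⟨h7, hw⟩
    have h9 := card_le_card h8
    rw [card_eq_three.2 ⟨_, _, _, fun e => absurd (hx.2 _ (by decide) e.symm) (by decide),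
      fun e => hxy (e ▸ h4.symm), fun e => hxy (Rl.trans ⟨_, by decide, e⟩ h4.symm), rfl⟩] at h9
    omega
  have c4 : C.card = 4 := by
    rw [← card_orb hx.2]
    exact congrArg card (Subset.antisymm (fun y hy => mem_filter.2 ⟨mem_univ _,
      all y ((free y).1 hy)⟩) (sub x hx.2))
  obtain ⟨w, h4, h5⟩ := exists_fix (all _ (hx.2.smul t3))
  have hw : Free w := by obtain ⟨v, -, rfl⟩ := h4; exact hx.2.smul v
  have hAt : ∀ y ∈ A, t3 • y = y := fun y hy => by
    have e1 : ∀ g : P4, (g * swap 0 1 * g⁻¹) • y = y := fun g => by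
      have : swap (0 : Fin 4) 1 • g⁻¹ • y = g⁻¹ • y := mem_Fx.1 (h2 (mem_Fx.2 (by
        rw [← mul_smul, eq_inv_smul_iff, ← mul_smul, ← mul_assoc]
        exact hA y hy _ (V4_conj _ _ (by decide)))))
      rw [mul_smul, mul_smul, this, smul_inv_smul]
    rw [show t3 = (1 * swap 0 1 * 1⁻¹) * (swap 0 2 * swap 0 1 * (swap 0 2)⁻¹) by decide, mul_smul,
      e1, e1]
  have : Fx X t3 = insert w A := by
    ext y
    rw [mem_Fx, mem_insert]
    refine ⟨fun e => ?_, fun h => h.elim (fun e => e ▸ h5) (hAt y)⟩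
    by_cases hy : y ∈ C
    · exact Or.inl (fix_unique hw (h4.symm.trans (all y ((free y).1 hy))) h5 e)
    · rw [hC, not_not, mem_union, mem_union, mem_Fx, mem_Fx, mem_Fx] at hy
      rcases hy with (e' | e') | e' <;>
        exact Or.inr (hinv _ y e _ 1 (by decide) (by decide) (by decide) e')
  rw [this, card_insert_of_notMem fun h =>
    absurd (hw _ (show swap 0 1 * swap 2 3 ∈ V4 by decide) (hA w h _ (by decide))) (by decide)]
  omega

theorem card_orbits (h0 : Fintype.card X = 13) (h1 : (Fx X (swap 0 1 * swap 2 3)).card = 5)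
    (h2 : Fx X (swap 0 1 * swap 2 3) ⊆ Fx X (swap 0 1)) (h3 : (Fx X (swap 0 1)).card = 7)
    (i : Fin 4) :
    Nat.card (MulAction.orbitRel.Quotient (MulAction.stabilizer P4 i) X) = 7 := by
  classical
  have h4 := card_fix_t3 h0 h1 h2 h3
  have := MulAction.sum_card_fixedBy_eq_card_orbits_mul_card_group (MulAction.stabilizer P4 i) X
  have e : ∀ g : MulAction.stabilizer P4 i, Fintype.card (MulAction.fixedBy X g) =
      if g.1 = 1 then 13 else if g.1 * g.1 = 1 then 7 else 4 := by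
    rintro ⟨g, hg⟩
    have e1 : Fintype.card (MulAction.fixedBy X (⟨g, hg⟩ : MulAction.stabilizer P4 i)) =
        (Fx X g).card := by
      rw [← Fintype.card_coe]
      exact Fintype.card_congr (Equiv.subtypeEquivRight fun x => mem_Fx.symm)
    have e2 : ∀ (i : Fin 4) (g : P4), g i = i → g = 1 ∨ ∃ k : P4,
        (g ≠ 1 ∧ g * g = 1 ∧ g = k * swap 0 1 * k⁻¹) ∨ (g ≠ 1 ∧ g * g ≠ 1 ∧ g = k * t3 * k⁻¹) := by
      decide +kernel
    rw [e1]
    rcases e2 i g hg with rfl | ⟨k, ⟨a, b, c⟩ | ⟨a, b, c⟩⟩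
    · rw [if_pos rfl, ← h0]; simp [Fx]
    · rw [if_neg a, if_pos b, c, card_Fx_conj, h3]
    · rw [if_neg a, if_neg b, c, card_Fx_conj, h4]
  simp only [e] at this
  have e3 : ∀ i : Fin 4, ∑ g ∈ univ.filter fun g : P4 => g i = i,
      (if g = 1 then 13 else if g * g = 1 then 7 else 4) = 42 ∧
      (univ.filter fun g : P4 => g i = i).card = 6 := by decide +kernel
  rw [← Finset.sum_subtype (univ.filter fun g : P4 => g i = i) (by simp)
    (fun g : P4 => if g = 1 then 13 else if g * g = 1 then 7 else 4), (e3 i).1,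
    Fintype.card_of_subtype (univ.filter fun g : P4 => g i = i) (by simp), (e3 i).2] at this
  rw [← Nat.card_eq_fintype_card] at this
  have h5 : 42 = Nat.card (MulAction.orbitRel.Quotient (MulAction.stabilizer P4 i) X) * 6 := this
  omega

end CL.FiT
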