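/-
Subgroups of order 13 in M(24).
Generated by tools/fi/fix2.cpp, g2c.cpp, mk13.py.
-/
import Cfsg.Agent.SPOR.FiG2

set_option autoImplicit false
set_option maxRecDepth 100000
set_option Elab.async false

namespace CL.Fi

open Cfsg Cfsg.Lie Subgroup CL.K CL.CE CL.Net CL.TTU CL.FiN

variable {G : Type*} [Group G]

theorem relIndex_dvd_factorial [Finite G] {D : Set G} (hD : ∀ g : G, ∀ d ∈ D, g * d * g⁻¹ ∈ D)
    (X : Subgroup G) : (centralizer (Fx D X)).relIndex (normalizer (X : Set G)) ∣
      (Fx D X).ncard.factorial := by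
  let φ : normalizer (X : Set G) →* Function.End (Fx D X) :=
    { toFun := fun g y => ⟨g * y * (g : G)⁻¹, cj_mem_Fx hD g.2 y.2⟩
      map_one' := funext fun y => Subtype.ext (show 1 * y.1 * 1⁻¹ = y.1 by simp)
      map_mul' := fun a b => funext fun y => Subtype.ext (cj_cj ..).symm }
  have : φ.toHomPerm.ker = (centralizer (Fx D X)).subgroupOf _ := by
    ext g
    rw [MonoidHom.mem_ker, mem_subgroupOf, mem_centralizer_iff, Equiv.ext_iff, Subtype.forall]
    exact forall₂_congr fun y hy => Subtype.ext_iff.trans (mul_inv_eq_iff_eq_mul.trans eq_comm)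
  rw [relIndex, ← this, index_ker, ← Nat.card_coe_set_eq, ← Nat.card_perm]
  exact card_subgroup_dvd_card _

theorem dp_of_cpl {A B : Subgroup G} (hA : Cpl A) (hB : Cpl B)
    (h : ∀ x ∈ A, ∀ y ∈ B, x * y = y * x) :
    DP A B (A ⊔ B) ∧ centralizer ((A ⊔ B : Subgroup G) : Set G) ⊓ (A ⊔ B) = ⊥ := by
  have h1 : DP A B (A ⊔ B) :=
    ⟨eq_bot_iff.2 fun x hx => hA.1 x hx.1 fun y hy => (h y hy x hx.2).symm, h, rfl⟩
  refine ⟨h1, eq_bot_iff.2 fun x hx => ?_⟩
  obtain ⟨a, ha, b, hb, rfl⟩ := h1.exists_mul hx.2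
  obtain rfl := hA.1 a ha fun y hy => mul_right_cancel (b := b) (by
    rw [mul_assoc a, h y hy b hb, ← mul_assoc, ← hx.1 y (mem_sup_left hy), mul_assoc])
  rw [one_mul] at hx ⊢
  exact hB.1 b hb fun y hy => (hx.1 y (mem_sup_right hy)).symm

theorem card_inf_normalizer_of_sylow [Finite G] {K : Subgroup G} {q a k : ℕ} (hq : q.Prime) {x : G}
    (ox : orderOf x = q) (hx : x ∈ K) (hc : K ⊓ centralizer {x} ≤ zpowers x)
    (hK : Nat.card K = q * a) (hk : a % q = k) (hk0 : k ≠ 0) :
    Nat.card (K ⊓ normalizer (zpowers x : Set G) : Subgroup G) = q * k := by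
  have h1 := zpowers_le.2 hx
  have := (frobenius_of_centralizer hq (x := (⟨x, hx⟩ : K)) (by rw [orderOf_mk, ox]) (fun y hy => by
    obtain ⟨i, e⟩ := hc ⟨y.2, mem_centralizer_singleton_iff.2
      (congrArg Subtype.val (mem_centralizer_singleton_iff.1 hy))⟩
    exact ⟨i, Subtype.ext e⟩) hK hk hk0 (X := (zpowers x).subgroupOf K) (by
      rw [Nat.card_congr (subgroupOfEquivOfLe h1).toEquiv, Nat.card_zpowers, ox])).1
  rwa [← subgroupOf_normalizer_eq h1, CL.card_subgroupOf_eq, inf_comm] at this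

namespace D24

namespace Q13

def w : List ℕ := [6, 8, 2, 10, 5, 7]
def s : List ℕ := [0, 96727, 1, 3857]
def C : List ℕ := [0, 1]
def U : List ℕ := [175]
def prog : List (ℕ × ℕ × ℕ) := [(3, 0, 4), (3, 0, 2), (0, 0, 0), (2, 0, 1), (0, 0, 0), (2, 0, 2), (0, 0, 0), (3, 0, 3), (0, 0, 0), (2, 0, 4)]
def E : List (ℕ × List ℕ × ℕ) := [(0, [], 0), (96727, [], 96727), (1, [], 1), (3857, [], 3857), (175, [], 175), (2214, [0], 175), (1474, [0, 0], 175), (785, [0, 0, 0], 175), (1718, [0, 0, 0, 0], 175)]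
def BW : List (List ℕ × ℕ) := [([96727, 175, 785, 3857, 1474, 96727, 2214, 1718, 3857], 1), ([1718, 785, 96727, 1474, 0, 96727, 785], 175), ([2214, 3857, 1474, 3857, 2214, 1, 3857, 1718, 96727, 785, 2214, 96727], 0), ([1718, 1474, 96727, 2214, 175, 96727], 0), ([3857, 2214, 1718, 2214, 96727, 785, 1474, 3857, 0, 96727, 785], 175), ([175, 3857, 2214, 1718, 96727, 785, 96727, 1474, 3857, 2214, 96727], 0), ([1718, 96727, 175, 3857, 1474, 2214, 1, 3857, 96727, 785], 175), ([96727, 1718, 3857, 2214, 1, 3857, 96727, 1718, 785, 175], 96727), ([785, 2214, 3857, 1718, 1, 3857, 785], 175), ([3857, 1474, 1, 3857, 96727, 785, 1474, 96727], 0), ([175, 96727, 2214, 0, 96727, 1718, 2214, 3857, 1718, 785, 3857], 1), ([], 1), ([2214, 96727, 175, 3857, 0, 96727, 175, 785, 3857], 1), ([96727, 1474, 3857, 175, 96727, 1474, 0, 96727, 2214, 1718, 785], 96727), ([], 0), ([1474, 96727, 2214, 3857, 1718, 1, 3857, 785, 3857, 175], 96727), ([2214, 175, 3857, 96727, 1718, 175, 3857, 785, 96727], 0)]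
def reps : List (List ℕ) := [[0, 1, 2, 3, 4, 5, 6, 7, 9, 10, 11, 12, 13, 14, 15, 16, 17, 18, 19, 20, 21, 22, 23, 24, 26, 28, 29, 30, 31, 32, 33, 34, 35, 36, 37, 39, 41, 42, 43, 44, 45, 46, 47, 48, 49, 50, 51, 52, 53, 54, 55, 56, 57, 58, 59, 60, 61, 62, 63, 64, 65, 66, 67, 68, 69, 70, 71, 72, 73, 76, 77, 78, 79, 80, 81, 82, 83, 84, 85, 86, 87, 88, 89, 90, 94, 96, 97, 98, 100, 101, 102, 106, 107, 108, 109, 110, 112, 113, 115, 117],
  [118, 119, 121, 122, 123, 124, 125, 128, 130, 132, 133, 136, 137, 138, 141, 143, 145, 146, 147, 152, 153, 154, 156, 158, 159, 160, 161, 162, 163, 166, 175, 176, 177, 178, 181, 184, 195, 196, 197, 199, 200, 203, 204, 207, 208, 209, 211, 212, 214, 218, 219, 223, 224, 227, 228, 232, 233, 235, 236, 237, 239, 244, 247, 248, 252, 253, 256, 258, 260, 264, 267, 270, 271, 275, 277, 278, 287, 288, 289, 292, 293, 297, 298, 299, 304, 325, 328, 330, 336, 338, 340, 343, 345, 346, 354, 360, 364, 372, 376, 380],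
  [385, 387, 388, 395, 397, 402, 403, 404, 407, 414, 417, 418, 420, 422, 433, 436, 438, 439, 440, 442, 444, 447, 459, 461, 463, 464, 465, 466, 467, 468, 477, 489, 491, 492, 493, 512, 516, 518, 520, 529, 534, 535, 537, 543, 545, 561, 569, 578, 579, 587, 602, 603, 604, 606, 631, 633, 710, 720, 737, 745, 750, 771, 772, 779, 806, 901, 1015, 1019, 1081, 1167, 1180, 1323]]
def F : List ℕ := [0, 96727, 259016, 1, 3857, 24284]
def c : List ℕ := [11, 14, 2, 3, 7, 1, 7, 3, 2, 5, 6, 0, 1, 5, 2, 3, 7, 1, 7, 3, 2, 0, 1, 7, 4, 7, 5, 4,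
  3, 2, 3, 4, 1, 0, 2, 7, 0, 4, 7, 5, 10, 0, 5, 9, 10, 4, 12, 11]
theorem sw : sweepOK T pa op 31671 [w] s prog U reps = true := by decide +kernel
theorem cov : sub (cmL C) (bfs nets [w] 12 (lmask2 reps)) = true := by decide +kernel
theorem fx : fixM w = lmask F := by decide +kernel
theorem base : baseOK 306936 17 T op ((List.range 17).map pt) [w] (175 :: s) E BW = true := by
  decide +kernel

variable {D : Set G} {p : ℕ → G} (R : Real 306936 op D p)
include R

theorem Fx_eq : Fx D (zpowers (lw p pt w)) = PS p F := by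
  rw [FiN.PS, ← ms_lmask R (by decide), ← fx, mod.ms_fixM R n_le _ (by decide), Fx,
    FiN.centralizer_zpowers]
  exact Set.ext fun y => and_congr_right fun _ => mem_centralizer_singleton_iff.trans eq_comm

theorem closure_eq : closure (Fx D (zpowers (lw p pt w))) = closure (PS p s) := by
  rw [Fx_eq R]
  refine le_antisymm ((closure_le _).2 ?_) (closure_mono (Set.image_mono fun u hu => ?_))
  · have h : ∀ u ∈ s, p u ∈ closure (PS p s) := fun u hu => subset_closure (mem_PS hu)
    have h' : ∀ u ∈ s, ∀ v ∈ s, p (op u v) ∈ closure (PS p s) := fun u hu v hv => by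
      have : ∀ u ∈ s, u < 306936 := by decide
      rw [R.hop _ (this u hu) _ (this v hv)]
      exact mul_mem (mul_mem (h u hu) (h v hv)) (h u hu)
    rintro _ ⟨u, hu, rfl⟩
    simp only [F, Set.mem_ofPred_eq, List.mem_cons, List.not_mem_nil, or_false] at hu
    rcases hu with rfl | rfl | rfl | rfl | rfl | rfl
    exacts [h _ (by decide), h _ (by decide),
      (by decide +kernel : op 0 96727 = 259016) ▸ h' _ (by decide) _ (by decide), h _ (by decide),
      h _ (by decide), (by decide +kernel : op 1 3857 = 24284) ▸ h' _ (by decide) _ (by decide)]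
  · exact (by decide : ∀ u ∈ s, u ∈ F) u hu

theorem cent_eq : centralizer (Fx D (zpowers (lw p pt w))) = centralizer (PS p s) := by
  rw [← centralizer_closure, closure_eq R, centralizer_closure]

theorem card_T : Nat.card (closure (PS p s)) = 36 ∧ centralizer (PS p s) ⊓ closure (PS p s) = ⊥ := by
  have h1 := sym_of_str R (l := [0, 96727]) (by decide +kernel)
  have h2 := sym_of_str R (l := [1, 3857]) (by decide +kernel)
  have h3 := commute_of_comOK R (a := [0, 96727]) (s := [1, 3857]) (by decide) (by decide)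
    (by decide +kernel)
  rw [← centralizer_closure] at h3
  have h := dp_of_cpl (h1.cpl le_rfl (by decide)) (h2.cpl le_rfl (by decide))
    fun x hx y hy => (h3 hx y hy).symm
  rw [← Subgroup.closure_union, show PS p [0, 96727] ∪ PS p [1, 3857] = PS p s by
    rw [FiN.PS, FiN.PS, FiN.PS, ← Set.image_union]; congr 1; ext; simp [s, or_assoc], centralizer_closure] at h
  exact ⟨by rw [h.1.card, h1.card, h2.card]; rfl, h.2⟩

variable (gp : FiA.Gp D)
include gp

theorem ord : orderOf (lw p pt w) = 13 :=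
  mod.orderOf_lw R (isBs_B5 R gp) (u := 175) (by norm_num) (by decide +kernel)

theorem g2 : Nonempty (centralizer (PS p s) ≃* chevG2.group (ZMod 3)) := by
  have := D24.g2 (R.cj subset_rfl (gp.gen ▸ mem_top (lw p pt c))) gp
  rwa [show PS (fun i => lw p pt c * p i * (lw p pt c)⁻¹) [0, 102681, 14459, 28974] = PS p s by
    simp only [PS_cons, PS_nil, s]
    rw [← mod.lact_spec R (by decide) (by norm_num), ← mod.lact_spec R (by decide) (by norm_num),
      ← mod.lact_spec R (by decide) (by norm_num), ← mod.lact_spec R (by decide) (by norm_num),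
      (by decide +kernel : lact T c 0 = 0), (by decide +kernel : lact T c 102681 = 96727),
      (by decide +kernel : lact T c 14459 = 1), (by decide +kernel : lact T c 28974 = 3857)]] at this

theorem card_K : Nat.card (centralizer (PS p s)) = 13 * 326592 :=
  let ⟨e⟩ := g2 R gp
  (Nat.card_congr e.toEquiv).trans card_g2

omit gp in
theorem mem_K : lw p pt w ∈ centralizer (PS p s) :=
  cent_eq R ▸ le_centralizer_Fx D _ (mem_zpowers _)

theorem inf_eq : centralizer (PS p s) ⊓ centralizer (zpowers (lw p pt w) : Set G) =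
    zpowers (lw p pt w) := by
  have := gp.finite
  have := mod.card_cent_Fx R gp (closure_eq R) (by decide +kernel) sw cov (by decide +kernel) base
  rw [cent_eq R, inf_comm, ← Nat.card_zpowers] at this
  exact (eq_of_le_of_card_ge (le_inf (zpowers_le.2 (mem_K R)) (le_centralizer_zpowers _))
    (this.trans_eq (mul_one _))).symm

theorem main : normalizer (zpowers (lw p pt w) : Set G) ≤ normalizer (centralizer (PS p s) : Set G) ∧
    Nat.card (centralizer (PS p s) ⊓ normalizer (zpowers (lw p pt w) : Set G) : Subgroup G) = 78 ∧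
    centralizer (PS p s) ⊓ centralizer (zpowers (lw p pt w) : Set G) = zpowers (lw p pt w) ∧
    ((centralizer (PS p s) ⊓ normalizer (zpowers (lw p pt w) : Set G) ⊔ closure (PS p s)).subgroupOf
      (normalizer (zpowers (lw p pt w) : Set G))).index = 2 := by
  have := gp.finite
  have h1 := card_inf_normalizer_of_sylow (by norm_num) (ord R gp) (mem_K R)
    (FiN.centralizer_zpowers (lw p pt w) ▸ (inf_eq R gp).le) (card_K R gp) rfl (by norm_num)
  refine ⟨fun g hg => ?_, h1, inf_eq R gp, ?_⟩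
  · rw [← cent_eq R]
    refine mem_normalizer_fintype fun z hz y hy => ?_
    have := hz _ (cj_mem_Fx gp.nm (inv_mem hg) hy)
    calc y * (g * z * g⁻¹) = g * (g⁻¹ * y * g⁻¹⁻¹ * z) * g⁻¹ := by group
      _ = _ := by rw [this]; group
  have h2 := relIndex_dvd_factorial gp.nm (zpowers (lw p pt w))
  have hF : (PS p F).ncard = 6 := by
    rw [FiN.PS, Set.InjOn.ncard_image (f := p) (s := {u | u ∈ F}) fun a ha b hb => R.inj
      ((by decide : ∀ u ∈ F, u < 306936) a ha) ((by decide : ∀ u ∈ F, u < 306936) b hb),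
      ← List.coe_toFinset, Set.ncard_coe_finset]
    decide
  rw [cent_eq R, Fx_eq R, hF] at h2
  have h3 := index_normalizer_modEq (a := 193108570644717187891200) (by norm_num)
    (FiA.T24.card (is24_of_real R) gp) (by norm_num) ((Nat.card_zpowers _).trans (ord R gp))
  have h4 := (normalizer (zpowers (lw p pt w) : Set G)).index_mul_card
  have h5 : closure (PS p s) ≤ normalizer (zpowers (lw p pt w) : Set G) :=
    closure_eq R ▸ (closure_Fx_le D _).trans (centralizer_le_normalizer _)
  obtain ⟨h6, h7⟩ := card_T R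
  generalize normalizer (zpowers (lw p pt w) : Set G) = N at *
  have h8 : DP (centralizer (PS p s) ⊓ N) (closure (PS p s)) _ :=
    ⟨eq_bot_iff.2 (h7 ▸ inf_le_inf_right _ inf_le_left), fun x hx y hy =>
      ((centralizer_closure (PS p s) ▸ hx.1 :) y hy).symm, rfl⟩
  have h9 := ((centralizer (PS p s) ⊓ N ⊔ closure (PS p s)).subgroupOf N).index_mul_card
  have h10 := ((centralizer (PS p s)).subgroupOf N).index_mul_card
  rw [Nat.card_congr (subgroupOfEquivOfLe (sup_le inf_le_right h5)).toEquiv, h8.card, h1, h6] at h9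
  rw [CL.card_subgroupOf_eq, h1] at h10
  rw [FiA.T24.card (is24_of_real R) gp, ← h9] at h4
  rw [relIndex] at h2
  generalize ((centralizer (PS p s) ⊓ N ⊔ closure (PS p s)).subgroupOf N).index = i at *
  rw [show ((centralizer (PS p s)).subgroupOf N).index = 36 * i by omega] at h2
  have h11 : i ∣ 20 := Nat.dvd_of_mul_dvd_mul_left (by norm_num : 0 < 36) h2
  have h12 := Nat.le_of_dvd (by norm_num) h11
  rw [Nat.ModEq] at h3
  interval_cases i <;> omega

end Q13

theorem thirteen {D : Set G} (h : Is24 D) (gp : FiA.Gp D) :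
    (∀ X Y : Subgroup G, Nat.card X = 13 → Nat.card Y = 13 →
      ∃ g : G, X.map (MulAut.conj g).toMonoidHom = Y) ∧ ∃ (a b c d : G) (T K : Subgroup G),
      (∀ x ∈ [a, b, c, d], x ∈ D) ∧ ¬ Commute a d ∧ ¬ Commute b c ∧ Commute a b ∧ Commute a c ∧
      Commute d b ∧ Commute d c ∧ T = closure {a, b, c, d} ∧ K = centralizer (T : Set G) ∧
      Nonempty (K ≃* chevG2.group (ZMod 3)) ∧ ∀ B : Subgroup G, B ≤ K → Nat.card B = 13 →
        normalizer (B : Set G) ≤ normalizer (K : Set G) ∧
        Nat.card (K ⊓ normalizer (B : Set G) : Subgroup G) = 78 ∧ K ⊓ centralizer (B : Set G) = B ∧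
        ((K ⊓ normalizer (B : Set G) ⊔ T).subgroupOf (normalizer (B : Set G))).index = 2 := by
  have := gp.finite
  obtain ⟨p, R⟩ := exists_real h
  have hc : ∀ a b, a < 306936 → b < 306936 → (Commute (p a) (p b) ↔ com op a b = true) :=
    fun a b => R.commute_iff
  refine ⟨fun X Y => exists_conj_of_card (a := 193108570644717187891200) (by norm_num)
    (FiA.T24.card h gp) (by norm_num), p 0, p 1, p 3857, p 96727, closure (PS p Q13.s),
    centralizer (PS p Q13.s), by simp [R.mem], ?_, ?_, ?_, ?_, ?_, ?_, ?_,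
    (centralizer_closure _).symm, Q13.g2 R gp, fun B hB hB' => ?_⟩
  iterate 6 rw [hc _ _ (by norm_num) (by norm_num)]; decide +kernel
  · congr 1
    ext y
    simp only [Q13.s, PS_cons, PS_nil, Set.mem_insert_iff, Set.mem_singleton_iff,
      Set.mem_empty_iff_false]
    tauto
  obtain ⟨x, ox, rfl⟩ := exists_eq_zpowers (by norm_num) hB'
  obtain ⟨k, e⟩ := exists_eq_of_sylow (x := (⟨_, Q13.mem_K R⟩ : centralizer (PS p Q13.s)))
    (by norm_num) (by rw [orderOf_mk, Q13.ord R gp]) (Q13.card_K R gp) (by norm_num)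
    (zpowers ⟨x, hB (mem_zpowers x)⟩) (by rw [Nat.card_zpowers, orderOf_mk, ox])
  have e := congrArg (map (Subgroup.subtype _)) e
  rw [MonoidHom.map_zpowers, MonoidHom.map_zpowers] at e
  have := Q13.main (R.cj subset_rfl (gp.gen ▸ mem_top (k : G))) gp
  rw [lw_cj, show PS (fun i => k * p i * (k : G)⁻¹) Q13.s = PS p Q13.s from
    Set.image_congr fun u hu => cj_eq_of_commute (mem_centralizer_PS.1 k.2 u hu)] at this
  exact (show zpowers x = _ from e) ▸ this

end D24

end CL.Fi
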