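import Mathlib
import Cfsg.Agent.SPOR.F24.Cent3

/-!
The model group `3.U_4(3)` on `F_2^12`: its centralizer, a semilinear normalizing element, and
its invariant quadratic form.
-/

set_option autoImplicit false
set_option maxHeartbeats 400000

namespace CL.FiU

open CL.K CL.CG CL.F2M CL.F24 Cfsg MulAction

attribute [local irreducible] gcode vcode

theorem chk_fix : lall (fun v => !Nat.beq (ac cy2 v) v || memB v [0, 85, 170, 255]) F16 = true := by
  decide +kernel

theorem chk_sum : allN (fun v => lany (fun a => inMask S85 a && inMask S85 (Nat.xor a v))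
    [85, 86, 91, 1315, 718, 3001, 3142, 542, 395, 187]) 4096 = true := by decide +kernel

theorem eq_one_of_fix {e : GL12} (he : ∀ g ∈ Γ0, e * g = g * e) (hs : e • s0 = s0) : e = 1 := by
  have h1 : ∀ v ∈ orbit Γ0 s0, e • v = v := by
    rintro _ ⟨⟨g, hg⟩, rfl⟩
    show e • g • s0 = g • s0
    rw [← mul_smul, he g hg, mul_smul, hs]
  refine gl_ext fun v => ?_
  obtain ⟨a, ha, h⟩ := lany_iff.1 (allN_spec chk_sum _ (vcode_lt v))
  have ha' : a < 2 ^ 12 := by
    simp only [List.mem_cons, List.not_mem_nil, or_false] at ha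
    omega
  rw [Bool.and_eq_true] at h
  have h2 := h1 (vdec 12 a) (by rw [orbit_s0.2, vcode_vdec ha']; exact inMask_spec h.1)
  have h3 := h1 (vdec 12 a + v) (by
    rw [orbit_s0.2, vcode_add, vcode_vdec ha']; exact inMask_spec h.2)
  rw [smul_add, h2] at h3
  rw [one_smul]
  exact add_left_cancel h3

/-- The centralizer of the model group consists of the scalars. -/
theorem cent {e : GL12} (he : ∀ g ∈ Γ0, e * g = g * e) : e = 1 ∨ e = Z0 ∨ e = Z0⁻¹ := by
  have m5 := mem_LY cf5 (by simp)
  have m2 := mem_LY cy2 (by simp)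
  have fx : ∀ c, Mem gcode Y0 c → ac c (vcode (e • s0)) = vcode (e • s0) := fun c hc => by
    have := C12.elt_mem hc
    rw [← hc.code_elt, ac_code, ← mul_smul, ← he _ (Y0_le this), mul_smul, Y0_fix this]
  have h1 := allN_spec uTest_3 _ (vcode_lt (e • s0))
  rw [fx _ m5, Nat.beq_refl, Bool.not_true, Bool.false_or, memB_iff] at h1
  have h2 := lall_iff.1 chk_fix _ h1
  rw [fx _ m2, Nat.beq_refl, Bool.not_true, Bool.false_or, memB_iff] at h2
  have key : ∀ u : GL12, (∀ g ∈ Γ0, u * g = g * u) → vcode (e • s0) = vcode (u • s0) → e = u := by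
    intro u hu h
    have := eq_one_of_fix (e := u⁻¹ * e) (fun g hg => by
      rw [mul_assoc, he g hg, ← mul_assoc, ← mul_assoc, (show Commute u g from hu g hg).inv_left.eq])
      (by rw [mul_smul, vcode_injective h, inv_smul_smul])
    exact (inv_mul_eq_one.1 this).symm
  simp only [List.mem_cons, List.not_mem_nil, or_false] at h2
  rcases h2 with h | h | h | h
  · have h3 : e • s0 = 0 := vcode_injective (h.trans vcode_zero.symm)
    have h4 := code_s0
    rw [(smul_eq_zero_iff_eq e).1 h3, vcode_zero] at h4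
    omega
  · exact Or.inl (key 1 (fun g _ => by simp) (by rw [h, one_smul, code_s0]))
  · exact Or.inr (Or.inl (key _ (fun g hg => (comm_Z0 hg).symm)
      (by rw [h, ← ac_code, code_Z0, code_s0]; decide +kernel)))
  · exact Or.inr (Or.inr (key _ (fun g hg => (show Commute g Z0 from comm_Z0 hg).symm.inv_left.eq)
      (by rw [h, ← ac_code, code_Z0_inv, code_s0]; decide +kernel)))

/-- code of the conjugation of all coordinates -/
def cc : ℕ := 0xc004003001000c004003001000c004003001

theorem top_cc : Mem (gcode : GL12 → ℕ) ⊤ cc := ok12.mem_of_unitB (b := cc) (by decide +kernel)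

/-- There is an element normalizing the model group and inverting the scalars. -/
theorem exists_bar : ∃ c : GL12, c * Z0⁻¹ = Z0 * c ∧ (∀ g ∈ Γ0, c * g * c⁻¹ ∈ Γ0) ∧
    ∀ g ∈ Γ0, c⁻¹ * g * c ∈ Γ0 := by
  have h1 : gcode (elt gcode cc : GL12) = cc := top_cc.code_elt
  have h2 : (elt gcode cc : GL12)⁻¹ = elt gcode cc :=
    C12.inj ((code_inv h1 (by decide +kernel)).trans h1.symm)
  have h3 : ∀ g ∈ Γ0, elt gcode cc * g * (elt gcode cc)⁻¹ ∈ Γ0 := by
    have : Γ0 ≤ Γ0.comap (MulAut.conj (elt gcode cc : GL12)).toMonoidHom := by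
      refine (C12.gen_le_iff top_L0).2 fun c hc => ?_
      show elt gcode cc * elt gcode c * (elt gcode cc)⁻¹ ∈ Γ0
      rw [← C12.mem_iff, h2, ← C12.map_mul, ← C12.map_mul, h1, (top_L0 c hc).code_elt]
      have : lall (fun c => Nat.beq (mm (mm cc c) cc) c || Nat.beq (mm (mm cc c) cc) (mm c c)) L0
        = true := by decide +kernel
      have := lall_iff.1 this c hc
      rw [Bool.or_eq_true] at this
      rcases this with e | e <;> rw [eq_of_beq e]
      · exact mem_L0 c hc
      · exact C12.mem_mul (mem_L0 c hc) (mem_L0 c hc)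
    exact fun g hg => this hg
  refine ⟨elt gcode cc, C12.inj ?_, h3, fun g hg => ?_⟩
  · rw [← C12.map_mul, ← C12.map_mul, h1, code_Z0, code_Z0_inv]; decide +kernel
  · have := h3 g hg
    rw [h2] at this ⊢
    exact this

/-- An invariant function of degree at most two is a multiple of the standard form. -/
theorem inv_form {A : Type*} [AddCommGroup A] (h2 : ∀ a : A, a + a = 0) {P : W → A}
    (hP : ∀ g ∈ Γ0, ∀ v, P (g • v) = P v)
    (cubic : ∀ u v w, P (u + v + w) + P (u + v) + P (u + w) + P (v + w) + P u + P v + P w = 0)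
    (v : W) : P v = if qf v = 1 then P (vdec 12 1) else 0 := by
  have hinv : ∀ v w, v ∈ orbit Γ0 w → P v = P w := by
    rintro _ w ⟨⟨g, hg⟩, rfl⟩
    exact hP g hg w
  have hr : ∀ a < 4096, S5.testBit a = true → P (vdec 12 a) = P r0 := fun a ha e =>
    hinv _ _ (by rw [orbit_r0.2, vcode_vdec ha, e])
  have he : ∀ a < 4096, SN.testBit a = true → P (vdec 12 a) = P (vdec 12 1) := fun a ha e =>
    hinv _ _ (by rw [orbit_e0.2, vcode_vdec ha, e])
  have c1 := cubic (vdec 12 1) (vdec 12 4) (vdec 12 16)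
  have c2 := cubic (vdec 12 5) (vdec 12 16) (vdec 12 64)
  simp only [← vdec_xor] at c1 c2
  rw [he (1 ^^^ 4 ^^^ 16) (by decide) (by decide +kernel), hr (1 ^^^ 4) (by decide) (by decide +kernel),
    hr (1 ^^^ 16) (by decide) (by decide +kernel), hr (4 ^^^ 16) (by decide) (by decide +kernel),
    he 4 (by decide) (by decide +kernel), he 16 (by decide) (by decide +kernel)] at c1
  rw [he (5 ^^^ 16) (by decide) (by decide +kernel), he (5 ^^^ 64) (by decide) (by decide +kernel),
    hr (16 ^^^ 64) (by decide) (by decide +kernel), hr 5 (by decide) (by decide +kernel),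
    he 64 (by decide) (by decide +kernel), he 16 (by decide) (by decide +kernel),
    show 5 ^^^ 16 ^^^ 64 = 85 from by decide] at c2
  have p5 : P r0 = 0 := by
    have := h2 (P r0 + P (vdec 12 1) + P (vdec 12 1))
    rw [← c1] at this
    rw [← neg_eq_zero, ← sub_eq_zero.2 this]; abel
  have p85 : P s0 = 0 := by
    have := h2 (P r0 + P (vdec 12 1) + P (vdec 12 1))
    rw [← c2] at this
    rw [← neg_eq_zero, ← sub_eq_zero.2 this, s0]; abel
  have p0 : P 0 = 0 := by
    have h3 := cubic 0 0 0
    have := h2 (P 0 + P 0 + P 0)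
    simp only [add_zero] at h3
    rw [← h3] at this
    rw [← neg_eq_zero, ← sub_eq_zero.2 this]; abel
  obtain ⟨h1, h3⟩ := vec_cases v
  split_ifs with e
  · exact hinv _ _ (h3.1 e)
  · rcases h1 with rfl | h1 | h1 | h1
    exacts [p0, (hinv _ _ h1).trans p5, (hinv _ _ h1).trans p85, absurd (h3.2 h1) e]

end CL.FiU
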