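import Mathlib
import Cfsg.Agent.SPOR.FiU1
import Cfsg.Agent.SPOR.TTUUni
import Cfsg.Agent.S2603

/-!
Normal form of a subgroup `3.U_4(3)` of `GU_6(2)`; conjugacy and the normalizer.
-/

set_option autoImplicit false
set_option maxHeartbeats 400000

namespace CL.FiU

open CL.K CL.CG CL.F2M CL.F24 Cfsg MulAction CL.TTU Matrix

variable {F : Type*} [Field F] [Fintype F]

/-- `κ` carries the image of `j` to the model group. -/
structure NF0 {X : Type*} [Group X] (j : X →* GL (Fin 6) F) (κ : (Fin 6 → F) ≃+ W) : Prop where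
  to_ : ∀ x, ∃ γ ∈ Γ0, ∀ v, κ ((j x).1 *ᵥ v) = γ • κ v
  of_ : ∀ γ ∈ Γ0, ∃ x, ∀ v, κ ((j x).1 *ᵥ v) = γ • κ v

variable (hF : Fintype.card F = 2 ^ 2)
include hF

theorem exists_nf0 {X : Type*} [Group X] [Finite X] {j : X →* GL (Fin 6) F}
    (hj : Function.Injective j) (π : X →* PSU 4 F9 3) (hπ : Function.Surjective π)
    (hk : Nat.card π.ker = 3) : ∃ κ, NF0 j κ := by
  letI : Module (ZMod 2) (Fin 6 → F) :=
    AddCommGroup.zmodModule fun x => by rw [two_nsmul, Uni.vadd_self hF]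
  letI : DistribMulAction X (Fin 6 → F) := DistribMulAction.compHom _ j
  have hs : ∀ (x : X) (v : Fin 6 → F), x • v = (j x).1 *ᵥ v := fun _ _ => rfl
  have := simple_PSU9
  obtain ⟨ζ, hζ, hζ3, hker⟩ := central_of_simple π hπ (by rw [card_PSU9]; decide) hk
  obtain ⟨κ, ρ, hρ, -, hL⟩ := ident (X := X) (V := Fin 6 → F) (by simp [hF])
    (fun x hx => hj (by
      rw [map_one]
      exact Units.ext (Matrix.toLin'.injective (LinearMap.ext fun v => by
        simpa [hs] using hx v)))) hζ hζ3 π hπ hker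
  have cX : Nat.card X = 9797760 := by
    have := π.ker.card_mul_index
    rw [Subgroup.index_ker, MonoidHom.range_eq_top.2 hπ, Subgroup.card_top, card_PSU9, hk] at this
    omega
  have hΓ : Γ0 = ρ.range := Subgroup.eq_of_le_of_card_ge (C12.gen_le hL)
    ((Nat.card_le_card_of_surjective _ ρ.rangeRestrict_surjective).trans (cX ▸ le_card_Γ0))
  refine ⟨κ, fun x => ⟨ρ x, hΓ ▸ ⟨x, rfl⟩, hρ x⟩, fun γ hγ => ?_⟩
  obtain ⟨x, rfl⟩ := hΓ ▸ hγ
  exact ⟨x, hρ x⟩

omit hF [Fintype F] in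
/-- An additive automorphism commuting with the group is a model scalar. -/
theorem NF0.cent {X : Type*} [Group X] {j : X →* GL (Fin 6) F} {κ : (Fin 6 → F) ≃+ W}
    (N : NF0 j κ) {u : GL (Fin 6) F} (hu : ∀ x, u * j x = j x * u) :
    (∀ v, κ (u.1 *ᵥ v) = κ v) ∨ (∀ v, κ (u.1 *ᵥ v) = Z0 • κ v) ∨
      ∀ v, κ (u.1 *ᵥ v) = Z0⁻¹ • κ v := by
  obtain ⟨ρ, hρ⟩ := exists_rho (X := GL (Fin 6) F) κ
  have hρ' : ∀ v, κ (u.1 *ᵥ v) = ρ u • κ v := hρ u
  have := FiU.cent (e := ρ u) fun g hg => by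
    obtain ⟨x, hx⟩ := N.of_ g hg
    have : g = ρ (j x) := gl_ext fun w => by
      rw [← κ.apply_symm_apply w, ← hx, ← hρ]; rfl
    rw [this, ← map_mul, hu, map_mul]
  rcases this with e | e | e <;> simp only [hρ', e, one_smul, implies_true, true_or, or_true]

omit hF [Fintype F] in
/-- the scalar matrix of a unit -/
def sc (a : Fˣ) : GL (Fin 6) F := Units.map (Matrix.scalar (Fin 6)).toMonoidHom a

omit hF [Fintype F] in
theorem sc_mulVec (a : Fˣ) (v : Fin 6 → F) : (sc a).1 *ᵥ v = (a : F) • v := by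
  show Matrix.scalar (Fin 6) (a : F) *ᵥ v = _
  rw [Matrix.scalar_apply, ← Matrix.smul_one_eq_diagonal, Matrix.smul_mulVec, Matrix.one_mulVec]

omit hF [Fintype F] in
theorem sc_comm (a : Fˣ) (g : GL (Fin 6) F) : sc a * g = g * sc a :=
  Units.ext (Matrix.scalar_commute (a : F) (fun _ => Commute.all _ _) g.1).eq

omit hF [Fintype F] in
theorem om_ne {ω : F} (hω : ω ^ 2 + ω + 1 = 0) : ω ≠ 0 := by
  rintro rfl; simp at hω

theorem om_ne_one {ω : F} (hω : ω ^ 2 + ω + 1 = 0) : ω ≠ 1 := by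
  rintro rfl
  rw [one_pow, Uni.add_self hF, zero_add] at hω
  exact one_ne_zero hω

theorem om_cases {ω : F} (hω : ω ^ 2 + ω + 1 = 0) (a : F) :
    a = 0 ∨ a = 1 ∨ a = ω ∨ a = ω + 1 := by
  have h2 := Uni.two_eq hF
  have h4 := Uni.pow_four hF a
  have : a * (a - 1) * (a - ω) * (a - (ω + 1)) = 0 := by
    linear_combination h4 + (a ^ 2 - a) * hω +
      (- a ^ 3 - a ^ 3 * ω + a ^ 2 * ω + a) * h2
  simpa only [mul_eq_zero, sub_eq_zero, or_assoc] using this

/-- the normal form -/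
structure NF {X : Type*} [Group X] (ω : F) (j : X →* GL (Fin 6) F) (κ : (Fin 6 → F) ≃+ W) : Prop
    extends NF0 j κ where
  om : ∀ v, κ (ω • v) = Z0 • κ v
  form : ∀ v, hermForm 6 F 2 v v = if qf (κ v) = 1 then 1 else 0

theorem exists_nf {ω : F} (hω : ω ^ 2 + ω + 1 = 0) {X : Type*} [Group X] [Finite X]
    {j : X →* GL (Fin 6) F} (hj : Function.Injective j) (hU : ∀ x, j x ∈ GU 6 F 2)
    (π : X →* PSU 4 F9 3) (hπ : Function.Surjective π) (hk : Nat.card π.ker = 3) :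
    ∃ κ, NF ω j κ := by
  obtain ⟨κ, N, ho⟩ : ∃ κ, NF0 j κ ∧ ∀ v, κ (ω • v) = Z0 • κ v := by
    obtain ⟨κ, N⟩ := exists_nf0 hF hj π hπ hk
    have := N.cent (u := sc (Units.mk0 ω (om_ne hω))) fun x => sc_comm _ _
    simp only [sc_mulVec, Units.val_mk0] at this
    rcases this with e | e | e
    · have := congrFun (κ.injective (e 1)) 0
      exact absurd (by simpa using this) (om_ne_one hF hω)
    · exact ⟨κ, N, e⟩
    · obtain ⟨c, h1, h2, h3⟩ := exists_bar
      refine ⟨κ.trans (DistribMulAction.toAddEquiv W c), ⟨fun x => ?_, fun γ hγ => ?_⟩, fun v => ?_⟩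
      · obtain ⟨γ, hγ, h⟩ := N.to_ x
        refine ⟨_, h2 γ hγ, fun v => ?_⟩
        show c • κ _ = _ • c • κ v
        rw [h, ← mul_smul, ← mul_smul, inv_mul_cancel_right]
      · obtain ⟨x, h⟩ := N.of_ _ (h3 γ hγ)
        refine ⟨x, fun v => ?_⟩
        show c • κ _ = _ • c • κ v
        rw [h, ← mul_smul, ← mul_smul, ← mul_assoc, mul_inv_cancel_left]
      · show c • κ _ = _ • c • κ v
        rw [e, ← mul_smul, h1, mul_smul]
  have h2 := Uni.two_eq hF
  have hP := inv_form (Uni.add_self hF) (P := fun w => hermForm 6 F 2 (κ.symm w) (κ.symm w))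
    (fun g hg w => by
      obtain ⟨x, hx⟩ := N.of_ g hg
      have : κ.symm (g • w) = (j x).1 *ᵥ κ.symm w := by
        rw [AddEquiv.symm_apply_eq, hx, κ.apply_symm_apply]
      simp only [this]
      exact hU x _ _)
    (fun u v w => by
      simp only [map_add, Uni.h_add_left, Uni.h_add_right hF]
      linear_combination (2 * hermForm 6 F 2 (κ.symm u) (κ.symm u) +
        2 * hermForm 6 F 2 (κ.symm v) (κ.symm v) + 2 * hermForm 6 F 2 (κ.symm w) (κ.symm w) +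
        hermForm 6 F 2 (κ.symm u) (κ.symm v) + hermForm 6 F 2 (κ.symm v) (κ.symm u) +
        hermForm 6 F 2 (κ.symm u) (κ.symm w) + hermForm 6 F 2 (κ.symm w) (κ.symm u) +
        hermForm 6 F 2 (κ.symm v) (κ.symm w) + hermForm 6 F 2 (κ.symm w) (κ.symm v)) * h2)
  have h1 : hermForm 6 F 2 (κ.symm (vdec 12 1)) (κ.symm (vdec 12 1)) = 1 := by
    have := hP (κ (Pi.single 0 1))
    simp only [κ.symm_apply_apply] at this
    have e : hermForm 6 F 2 (Pi.single 0 1) (Pi.single 0 1) = 1 := by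
      simp [hermForm, Fin.sum_univ_six]
    rw [e] at this
    split_ifs at this
    · exact this.symm
    · exact absurd this one_ne_zero
  refine ⟨κ, N, ho, fun v => ?_⟩
  have := hP (κ v)
  simpa only [κ.symm_apply_apply, h1] using this

/-- Two subgroups in normal form are conjugate in the unitary group. -/
theorem NF.exists_conj {ω : F} (hω : ω ^ 2 + ω + 1 = 0) {X X' : Type*} [Group X] [Group X']
    {j : X →* GL (Fin 6) F} {j' : X' →* GL (Fin 6) F} {κ κ' : (Fin 6 → F) ≃+ W} (N : NF ω j κ)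
    (N' : NF ω j' κ') : ∃ g ∈ GU 6 F 2, (∀ x, ∃ x', g * j x * g⁻¹ = j' x') ∧
      ∀ x', ∃ x, g * j x * g⁻¹ = j' x' := by
  have ho : ∀ v, κ'.symm (κ (ω • v)) = ω • κ'.symm (κ v) := fun v => by
    rw [AddEquiv.symm_apply_eq, N.om, N'.om, κ'.apply_symm_apply]
  let e : (Fin 6 → F) ≃ₗ[F] (Fin 6 → F) := (κ.trans κ'.symm).toLinearEquiv fun a v => by
    rcases om_cases hF hω a with rfl | rfl | rfl | rfl
    · simp
    · simp
    · exact ho v
    · simp only [add_smul, one_smul, map_add]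
      exact congrArg (· + _) (ho v)
  obtain ⟨g, hg⟩ := (Orth.glEquiv (Fin 6) F).surjective e
  have hg' : ∀ v, κ' (g.1 *ᵥ v) = κ v := fun v => by
    rw [← Orth.glEquiv_apply, hg]
    exact κ'.apply_symm_apply _
  have hq : ∀ v, hermForm 6 F 2 (g.1 *ᵥ v) (g.1 *ᵥ v) = hermForm 6 F 2 v v := fun v => by
    rw [N'.form, N.form, hg']
  have key : ∀ x x', (∃ γ : GL12, (∀ v, κ ((j x).1 *ᵥ v) = γ • κ v) ∧
      ∀ v, κ' ((j' x').1 *ᵥ v) = γ • κ' v) → g * j x * g⁻¹ = j' x' := by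
    rintro x x' ⟨γ, h, h'⟩
    rw [mul_inv_eq_iff_eq_mul]
    refine Units.ext (Matrix.toLin'.injective (LinearMap.ext fun v => κ'.injective ?_))
    simp only [Matrix.toLin'_apply, Units.val_mul, ← Matrix.mulVec_mulVec]
    rw [hg', h, h', hg']
  refine ⟨g, fun u v => ?_, fun x => ?_, fun x' => ?_⟩
  · show hermForm 6 F 2 (g.1 *ᵥ u) (g.1 *ᵥ v) = _
    have h1 := hq (u + v)
    have h2 := hq (ω • u + v)
    simp only [Matrix.mulVec_add, Matrix.mulVec_smul, Uni.h_add_left, Uni.h_add_right hF,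
      Uni.h_smul_left, Uni.h_smul_right, hq] at h1 h2
    have h3 := Uni.two_eq hF
    linear_combination h2 - ω ^ 2 * h1 +
      (hermForm 6 F 2 (g.1 *ᵥ u) (g.1 *ᵥ v) - hermForm 6 F 2 u v) * hω -
      ω * (hermForm 6 F 2 (g.1 *ᵥ u) (g.1 *ᵥ v) - hermForm 6 F 2 u v) * h3
  · obtain ⟨γ, hγ, h⟩ := N.to_ x
    obtain ⟨x', h'⟩ := N'.of_ γ hγ
    exact ⟨x', key x x' ⟨γ, h, h'⟩⟩
  · obtain ⟨γ, hγ, h'⟩ := N'.to_ x'
    obtain ⟨x, h⟩ := N.of_ γ hγ
    exact ⟨x, key x x' ⟨γ, h, h'⟩⟩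

/-- The centralizer of a subgroup in normal form consists of scalars. -/
theorem NF.scalar {ω : F} (hω : ω ^ 2 + ω + 1 = 0) {X : Type*} [Group X]
    {j : X →* GL (Fin 6) F} {κ : (Fin 6 → F) ≃+ W} (N : NF ω j κ) {u : GL (Fin 6) F}
    (hu : ∀ x, u * j x = j x * u) : ∃ a : Fˣ, u = sc a := by
  have key : ∀ a : Fˣ, (∀ v, κ (u.1 *ᵥ v) = κ ((a : F) • v)) → u = sc a := fun a h =>
    Units.ext (Matrix.toLin'.injective (LinearMap.ext fun v => κ.injective (by
      simp only [Matrix.toLin'_apply, sc_mulVec, h])))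
  rcases N.cent hu with e | e | e
  · exact ⟨1, key 1 fun v => by rw [e, Units.val_one, one_smul]⟩
  · exact ⟨_, key (Units.mk0 ω (om_ne hω)) fun v => by rw [e, Units.val_mk0, N.om]⟩
  · exact ⟨_, key (Units.mk0 ω (om_ne hω) * Units.mk0 ω (om_ne hω)) fun v => by
      rw [e, Units.val_mul, Units.val_mk0, mul_smul, N.om, N.om, ← mul_smul, Z0_sq]⟩

end CL.FiU
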