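import Mathlib
import Cfsg.Agent.SPOR.FiU2
import Cfsg.Agent.SPOR.FiQ3

/-!
The three classes of subgroups `3.U_4(3)` of `SU_6(2)`.
-/

set_option autoImplicit false
set_option maxHeartbeats 400000

namespace CL.FiU

open CL.F24 Cfsg CL.TTU Matrix Subgroup
open CL.K hiding lall lall_iff
open scoped commutatorElement

theorem aut_eq_one {X L : Type*} [Group X] [Group L] (π : X →* L) (hπ : Function.Surjective π)
    (hL : commutator L = ⊤) (hc : ∀ z, π z = 1 → ∀ y, Commute y z) (θ : X →* X)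
    (h1 : ∀ x, π (θ x) = π x) (h2 : ∀ z, π z = 1 → θ z = z) (x : X) : θ x = x := by
  have h3 : commutator X ≤ θ.eqLocus (MonoidHom.id X) := by
    rw [_root_.commutator_def, commutator_le]
    intro a _ b _
    show θ ⁅a, b⁆ = ⁅a, b⁆
    have ha := hc (θ a * a⁻¹) (by rw [map_mul, map_inv, h1, mul_inv_cancel])
    have hb := hc (θ b * b⁻¹) (by rw [map_mul, map_inv, h1, mul_inv_cancel])
    rw [map_commutatorElement, ← inv_mul_cancel_right (θ a) a, ← inv_mul_cancel_right (θ b) b]
    generalize θ a * a⁻¹ = u at ha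
    generalize θ b * b⁻¹ = v at hb
    simp only [commutatorElement_def, _root_.mul_inv_rev]
    calc u * a * (v * b) * (a⁻¹ * u⁻¹) * (b⁻¹ * v⁻¹)
        = u * (a * (v * b) * a⁻¹) * u⁻¹ * b⁻¹ * v⁻¹ := by group
      _ = a * v * (b * a⁻¹ * b⁻¹) * v⁻¹ := by rw [← (ha _).eq]; group
      _ = _ := by rw [mul_assoc a v, ← (hb _).eq]; group
  have h4 : π x ∈ (commutator X).map π := by
    rw [_root_.commutator_def, map_commutator, map_top_of_surjective _ hπ,
      ← _root_.commutator_def, hL]; trivial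
  obtain ⟨y, hy, e⟩ := h4
  have h5 : θ y = y := h3 hy
  have h6 := h2 (y⁻¹ * x) (by rw [map_mul, map_inv, e, inv_mul_cancel])
  rw [map_mul, map_inv, h5] at h6
  exact mul_left_cancel h6

theorem out_exp (β : MulAut (PSU 4 F9 3)) : ∃ l, β ^ 8 = MulAut.conj l := by
  haveI : Fact (Nat.Prime 3) := ⟨Nat.prime_three⟩
  obtain ⟨φ, h1, -, h2⟩ := Cfsg.Agent.S2603.result (K := F9) (p := 3) (f := 1) (q := 3) (n := 4)
    le_rfl rfl card_F9 (by norm_num) (by norm_num)
  have := φ.ker.card_mul_index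
  rw [index_ker, MonoidHom.range_eq_top.2 h1, card_top, h2] at this
  have h3 : Nat.card (Out (PSU 4 F9 3)) = 8 := by rw [← this]; simp
  have h4 : (β : Out (PSU 4 F9 3)) ^ 8 = 1 := by rw [← h3]; exact pow_card_eq_one'
  rw [← QuotientGroup.mk_pow, QuotientGroup.eq_one_iff] at h4
  obtain ⟨l, hl⟩ := h4
  exact ⟨l, hl.symm⟩

variable {F : Type*} [Field F] [Fintype F] (hF : Fintype.card F = 2 ^ 2)
include hF

theorem unit_cube (a : Fˣ) : a ^ 3 = 1 := Units.ext (Uni.pow_three hF a.ne_zero)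

theorem det_sc (a : Fˣ) : GeneralLinearGroup.det (sc a) = 1 := by
  refine Units.ext ?_
  rw [GeneralLinearGroup.val_det_apply, Units.val_one,
    show (sc a).1 = Matrix.scalar (Fin 6) (a : F) from rfl, Matrix.scalar_apply, Matrix.det_diagonal, Finset.prod_const, Finset.card_univ,
    Fintype.card_fin, show 6 = 3 * 2 from rfl, pow_mul, Uni.pow_three hF a.ne_zero, one_pow]

/-- The normalizer of a subgroup in normal form has determinant one. -/
theorem NF.det_eq_one {ω : F} (hω : ω ^ 2 + ω + 1 = 0) {X : Type*} [Group X] [Finite X]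
    {j : X →* GL (Fin 6) F} {κ : (Fin 6 → F) ≃+ W} (N : NF ω j κ)
    (hd : ∀ x, GeneralLinearGroup.det (j x) = 1) (hj : Function.Injective j)
    (π : X →* PSU 4 F9 3) (hπ : Function.Surjective π) (hk : Nat.card π.ker = 3)
    {g : GL (Fin 6) F} (α : MulAut X) (hα : ∀ x, j (α x) = g * j x * g⁻¹) :
    GeneralLinearGroup.det g = 1 := by
  have := simple_PSU9
  obtain ⟨ζ, hζ, -, hker⟩ := central_of_simple π hπ (by rw [card_PSU9]; decide) hk
  obtain ⟨-, hL⟩ := simple_nonab (L := PSU 4 F9 3) (by rw [card_PSU9]; norm_num)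
  have hc : ∀ z, π z = 1 → ∀ y, Commute y z := fun z hz y => by
    obtain ⟨k, rfl⟩ := (hker z).1 hz
    exact (hζ y).zpow_right k
  have hz : ∀ z, π z = 1 → α z = z := fun z hz => by
    obtain ⟨a, ha⟩ := N.scalar hF hω (u := j z) fun x => by rw [← map_mul, ← (hc z hz x).eq, map_mul]
    exact hj (by rw [hα, ha, ← sc_comm, mul_inv_cancel_right])
  have hm : π.ker.map α.toMonoidHom = π.ker := by
    ext x
    constructor
    · rintro ⟨y, hy, rfl⟩
      show π (α y) = 1
      rw [hz y hy]; exact hy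
    · exact fun hx => ⟨x, hx, hz x hx⟩
  let ε := QuotientGroup.quotientKerEquivOfSurjective π hπ
  let β : MulAut (PSU 4 F9 3) := ε.symm.trans ((QuotientGroup.congr _ _ α hm).trans ε)
  have hβ : ∀ x, β (π x) = π (α x) := fun x => by
    show ε (QuotientGroup.congr _ _ α hm (ε.symm (ε (x : X ⧸ π.ker)))) = _
    rw [ε.symm_apply_apply]; rfl
  have hβn : ∀ (n : ℕ) x, (β ^ n) (π x) = π ((α ^ n) x) := fun n => by
    induction n with
    | zero => exact fun _ => rfl
    | succ n ih => exact fun x => by rw [pow_succ, pow_succ, MulAut.mul_apply, hβ, ih]; rfl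
  have hαn : ∀ (n : ℕ) x, j ((α ^ n) x) = g ^ n * j x * (g ^ n)⁻¹ := fun n => by
    induction n with
    | zero => exact fun _ => by simp
    | succ n ih => exact fun x => by rw [pow_succ, MulAut.mul_apply, ih, hα, pow_succ]; group
  have hzn : ∀ (n : ℕ) z, π z = 1 → (α ^ n) z = z := fun n z h => by
    induction n with
    | zero => rfl
    | succ n ih => rw [pow_succ, MulAut.mul_apply, hz z h, ih]
  obtain ⟨l, hl⟩ := out_exp β
  obtain ⟨y, rfl⟩ := hπ l
  have h1 := aut_eq_one π hπ hL hc (MulAut.conj y⁻¹ * α ^ 8 : MulAut X).toMonoidHom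
    (fun x => by
      show π (y⁻¹ * (α ^ 8) x * y⁻¹⁻¹) = _
      rw [map_mul, map_mul, ← hβn, hl, MulAut.conj_apply, inv_inv, map_inv]; group)
    (fun z h => by
      show y⁻¹ * (α ^ 8) z * y⁻¹⁻¹ = _
      rw [hzn 8 z h, (hc z h _).eq, mul_inv_cancel_right])
  obtain ⟨a, ha⟩ := N.scalar hF hω (u := (j y)⁻¹ * g ^ 8) fun x => by
    have h2 : y⁻¹ * (α ^ 8) x * y⁻¹⁻¹ = x := h1 x
    have h3 := congrArg j h2
    rw [map_mul, map_mul, hαn, inv_inv, map_inv] at h3
    refine Eq.trans ?_ (congrArg (· * ((j y)⁻¹ * g ^ 8)) h3)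
    group
  have h2 := congrArg GeneralLinearGroup.det ha
  rw [det_sc hF, map_mul, map_inv, hd, inv_one, one_mul, map_pow] at h2
  have h3 := unit_cube hF (GeneralLinearGroup.det g)
  calc GeneralLinearGroup.det g = (GeneralLinearGroup.det g ^ 3) ^ 3 * (GeneralLinearGroup.det g ^ 8)⁻¹ := by
        group
    _ = 1 := by rw [h2, h3]; simp

omit hF in
theorem chk_pt : allLt (fun k => imp (lall (fun s => com U6.op (fld 10 1023 FiL.hT s) k)
    [4, 14, 9, 20, 50]) (Nat.beq k 1)) 693 = true ∧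
    lall (fun s => com U6.op (fld 10 1023 FiL.hT s) 1) [4, 14, 9, 20, 50] = true ∧
    covers 693 U6.op (U6.sing [1, 0, 5, 33, 11, 113, 421]) 1 (fun _ => true) = true ∧
    [59, 18, 120, 61, 34, 88].map (fld 10 1023 FiL.hT) = [0, 5, 33, 11, 113, 421] := by
  decide +kernel

/-- `U_4(3)` is a subgroup of `U_6(2)`. -/
theorem exists_sub : ∃ K : Subgroup (PSU 6 F 2), Nonempty (K ≃* PSU 4 F9 3) := by
  let e : F4 ≃+* F := FiniteField.ringEquivOfCardEq (by rw [U6.card_F4, hF])
  have R := FiA.real_TV hF e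
  obtain ⟨h1, h2⟩ := FiL.real_emb R FiL.R6.real FiL.R6.cov FiL.chk_h.1
  obtain ⟨c1, c2, c3, c4⟩ := chk_pt
  set X := (U6.pt hF e ∘ fld 10 1023 FiL.hT) '' Set.Iio 126
  have hZ : center (closure X) = ⊥ := by
    rw [eq_bot_iff]
    intro g hg
    have hg' : ∀ s < 126, Commute (g : PSU 6 F 2) (U6.pt hF e (fld 10 1023 FiL.hT s)) :=
      fun s hs => (congrArg Subtype.val
        (mem_center_iff.1 hg ⟨_, subset_closure (h2.mem hs)⟩)).symm
    obtain ⟨k, hk, e1⟩ := R.surj (FiA.cj_mem_TV hF e g (R.mem (a := 1) (by norm_num)))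
    have e2 : k = 1 := beq_iff.1 (imp_iff.1 (allLt_iff.1 c1 k hk) (lall_iff.2 fun s hs => by
      have hs' : s < 126 := by
        simp only [List.mem_cons, List.not_mem_nil, or_false] at hs
        omega
      rw [← R.commute_iff (h1 s hs') hk, e1]
      have := (R.commute_iff (h1 s hs') (by norm_num)).2 (lall_iff.1 c2 s hs)
      have h3 := (hg' s hs').symm
      calc _ = g * (U6.pt hF e (fld 10 1023 FiL.hT s) * U6.pt hF e 1) * (g : PSU 6 F 2)⁻¹ := by
            rw [← mul_assoc, ← mul_assoc, h3.eq]; group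
        _ = _ := by
            rw [this.eq, mul_assoc, mul_assoc, h3.inv_right.eq]; group))
    have h4 : Commute (g : PSU 6 F 2) (U6.pt hF e 1) := by
      rw [e2] at e1
      exact (mul_inv_eq_iff_eq_mul.1 e1.symm)
    have h5 : (g : PSU 6 F 2) ∈ center (PSU 6 F 2) := by
      suffices h : (g : PSU 6 F 2) ∈ centralizer (FiA.TV hF e) by
        rwa [← centralizer_closure, FiA.closure_TV hF e, coe_top, centralizer_univ] at h
      intro y hy
      obtain ⟨i, hi, rfl⟩ := R.surj hy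
      refine (FiP.fix_of_covers R c3 (by norm_num) (fun s hs => ?_) h4 hi rfl).symm
      rcases List.mem_cons.1 hs with rfl | hs
      · exact ⟨by norm_num, h4⟩
      · rw [← c4] at hs
        obtain ⟨t, ht, rfl⟩ := List.mem_map.1 hs
        have ht' : t < 126 := by
          simp only [List.mem_cons, List.not_mem_nil, or_false] at ht
          omega
        exact ⟨h1 t ht', hg' t ht'⟩
    rw [FiA.center_U6 hF e, mem_bot] at h5
    exact mem_bot.2 (Subtype.ext h5)
  obtain ⟨φ, hφ, -⟩ := h2.exists_isoOn FiL.R6.real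
  obtain ⟨e1⟩ := FiA.nonempty_qt ⟨φ, hφ⟩ h2.fs FiL.R6.fs
  obtain ⟨e2⟩ := FiQ.nonempty_comm_X6
  let e3 : closure X ≃* FiQ.X6 :=
    (QuotientGroup.quotientBot.symm.trans (QuotientGroup.quotientMulEquivOfEq hZ.symm)).trans e1
  refine ⟨((commutator FiQ.X6).map e3.symm.toMonoidHom).map (closure X).subtype,
    ⟨(equivMapOfInjective _ _ (subtype_injective _)).symm.trans
      ((equivMapOfInjective _ _ e3.symm.injective).symm.trans e2)⟩⟩

end CL.FiU
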