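import Mathlib
import Cfsg.Agent.SPOR.FiU3

/-!
The three classes of subgroups `3.U_4(3)` of `SU_6(2)`: assembly.
-/

set_option autoImplicit false
set_option maxHeartbeats 400000

namespace CL.FiU

open CL.F24 Cfsg CL.TTU Matrix Subgroup

theorem three {S U A : Type*} [Group S] [Group U] [CommGroup A] (ι : S →* U) (c : U →* MulAut S)
    (hc : ∀ s, c (ι s) = MulAut.conj s) (d : U →* A) (hd : ∀ u, d u = 1 ↔ u ∈ ι.range) (δ : U)
    (h1 : d δ ≠ 1) (h2 : d δ * d δ ≠ 1) (h3 : ∀ a : A, a = 1 ∨ a = d δ ∨ a = (d δ)⁻¹)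
    (P : Subgroup S → Prop) (hP : ∀ (α : MulAut S) K, P K → P (K.map α.toMonoidHom))
    {K₀ : Subgroup S} (h0 : P K₀) (hA : ∀ K, P K → ∃ u, K.map (c u).toMonoidHom = K₀)
    (hB : ∀ u, K₀.map (c u).toMonoidHom = K₀ → d u = 1) :
    ∃ K₁ K₂ K₃ : Subgroup S, (∀ K ∈ [K₁, K₂, K₃], P K) ∧
      (¬ ∃ g : S, K₁.map (MulAut.conj g).toMonoidHom = K₂) ∧
      (¬ ∃ g : S, K₁.map (MulAut.conj g).toMonoidHom = K₃) ∧
      (¬ ∃ g : S, K₂.map (MulAut.conj g).toMonoidHom = K₃) ∧
      ∀ K, P K → ∃ g : S, K.map (MulAut.conj g).toMonoidHom = K₁ ∨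
        K.map (MulAut.conj g).toMonoidHom = K₂ ∨ K.map (MulAut.conj g).toMonoidHom = K₃ := by
  have mm : ∀ (K : Subgroup S) u v, (K.map (c u).toMonoidHom).map (c v).toMonoidHom =
      K.map (c (v * u)).toMonoidHom := fun K u v => by rw [Subgroup.map_map, map_mul]; rfl
  have m1 : ∀ K : Subgroup S, K.map (c 1).toMonoidHom = K := fun K => by
    rw [map_one]; exact map_id K
  have key : ∀ u v (g : S), (K₀.map (c u).toMonoidHom).map (MulAut.conj g).toMonoidHom =
      K₀.map (c v).toMonoidHom → d u = d v := fun u v g h => by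
    have := hB (v⁻¹ * (ι g * u)) (by rw [← mm, ← mm, hc, h, mm, inv_mul_cancel, m1])
    rw [map_mul, map_mul, (hd _).2 ⟨g, rfl⟩, one_mul, map_inv, inv_mul_eq_one] at this
    exact this.symm
  refine ⟨K₀.map (c 1).toMonoidHom, K₀.map (c δ).toMonoidHom, K₀.map (c δ⁻¹).toMonoidHom, ?_,
    fun ⟨g, h⟩ => h1 ?_, fun ⟨g, h⟩ => h1 ?_, fun ⟨g, h⟩ => h2 ?_, fun K hK => ?_⟩
  · simp only [List.forall_mem_cons, List.not_mem_nil, false_imp_iff, implies_true, and_true]
    exact ⟨hP _ _ h0, hP _ _ h0, hP _ _ h0⟩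
  · rw [← key _ _ g h, map_one]
  · have := key _ _ g h
    rwa [map_one, map_inv, eq_comm, inv_eq_one] at this
  · have := key _ _ g h
    rwa [map_inv, eq_inv_iff_mul_eq_one] at this
  · obtain ⟨u, hu⟩ := hA K hK
    have key2 : ∀ v, d v * d u = 1 → ∃ g : S, K.map (MulAut.conj g).toMonoidHom =
        K₀.map (c v).toMonoidHom := fun v h => by
      obtain ⟨g, hg⟩ := (hd (v * u)).1 (by rw [map_mul, h])
      exact ⟨g, by rw [← hc, hg, ← mm, hu]⟩
    rcases h3 (d u) with e | e | e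
    · exact (key2 1 (by rw [e, map_one, one_mul])).imp fun _ h => Or.inl h
    · exact (key2 δ⁻¹ (by rw [e, map_inv, inv_mul_cancel])).imp fun _ h => Or.inr (Or.inr h)
    · exact (key2 δ (by rw [e, mul_inv_cancel])).imp fun _ h => Or.inr (Or.inl h)

/-- central quotient `L`, centre of order three -/
def TC (L : Type*) [Group L] (X : Type*) [Group X] : Prop :=
  Nat.card (center X) = 3 ∧ Nonempty (X ⧸ center X ≃* L)

theorem TC.congr {L X Y : Type*} [Group L] [Group X] [Group Y] (h : TC L X) (e : X ≃* Y) :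
    TC L Y := by
  obtain ⟨h1, ⟨ε⟩⟩ := h
  have hm : (center X).map e.toMonoidHom = center Y := by
    ext y
    obtain ⟨x, rfl⟩ := e.surjective y
    rw [show e x = e.toMonoidHom x from rfl, mem_map_iff_mem e.injective, mem_center_iff,
      mem_center_iff]
    refine ⟨fun h g => ?_, fun h g => e.injective (by simpa using h (e g))⟩
    obtain ⟨g, rfl⟩ := e.surjective g
    simpa using congrArg e (h g)
  exact ⟨by rw [← hm, card_map_of_injective e.injective, h1],
    ⟨(QuotientGroup.congr _ _ e hm).symm.trans ε⟩⟩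

theorem TC.exists_hom {L X : Type*} [Group L] [Group X] (h : TC L X) :
    ∃ π : X →* L, Function.Surjective π ∧ Nat.card π.ker = 3 := by
  obtain ⟨h1, ⟨ε⟩⟩ := h
  refine ⟨ε.toMonoidHom.comp (QuotientGroup.mk' _),
    ε.surjective.comp (QuotientGroup.mk'_surjective _), ?_⟩
  rw [← h1]
  congr 2
  ext x
  rw [MonoidHom.mem_ker, ← QuotientGroup.eq_one_iff]
  exact ε.map_eq_one_iff

theorem tc_comap {S L : Type*} [Group S] [Group L] (hS : Nat.card (center S) = 3)
    (hL : center L = ⊥) {K : Subgroup (S ⧸ center S)} (e : K ≃* L) :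
    TC L (K.comap (QuotientGroup.mk' (center S))) := by
  let π : K.comap (QuotientGroup.mk' (center S)) →* L :=
    e.toMonoidHom.comp ((QuotientGroup.mk' (center S)).subgroupComap K)
  have hπ : Function.Surjective π := e.surjective.comp
    ((QuotientGroup.mk' _).subgroupComap_surjective_of_surjective K (QuotientGroup.mk'_surjective _))
  have h1 : ∀ x, π x = 1 ↔ (x : S) ∈ center S := fun x => by
    rw [← QuotientGroup.eq_one_iff]
    exact e.map_eq_one_iff.trans Subtype.ext_iff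
  have h2 : π.ker = center _ := by
    ext x
    refine ⟨fun h => mem_center_iff.2 fun g => Subtype.ext (mem_center_iff.1 ((h1 x).1 h) g),
      fun h => ?_⟩
    rw [MonoidHom.mem_ker, ← mem_bot, ← hL, mem_center_iff]
    intro l
    obtain ⟨g, rfl⟩ := hπ l
    rw [← map_mul, mem_center_iff.1 h g, map_mul]
  have h3 : π.ker = (center S).subgroupOf _ := by ext x; exact h1 x
  refine ⟨?_, ⟨(QuotientGroup.quotientMulEquivOfEq h2.symm).trans
    (QuotientGroup.quotientKerEquivOfSurjective π hπ)⟩⟩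
  rw [← h2, h3, Nat.card_congr (subgroupOfEquivOfLe (QuotientGroup.le_comap_mk' _ K)).toEquiv, hS]

variable {F : Type*} [Field F] [Fintype F] (hF : Fintype.card F = 2 ^ 2)

/-- the inclusion of `SU` in `GU` -/
def incl : SU 6 F 2 →* GU 6 F 2 :=
  ((SpecialLinearGroup.toGL (n := Fin 6) (R := F)).comp (SU 6 F 2).subtype).codRestrict _
    fun s => s.2

omit [Fintype F] in
theorem incl_inj : Function.Injective (incl (F := F)) := fun a b e =>
  Subtype.ext (SpecialLinearGroup.toGL_injective (congrArg Subtype.val e))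

omit [Fintype F] in
theorem det_iff (u : GU 6 F 2) :
    GeneralLinearGroup.det.comp (GU 6 F 2).subtype u = 1 ↔ u ∈ (incl (F := F)).range := by
  constructor
  · intro h
    exact ⟨⟨⟨u.1.1, (GeneralLinearGroup.val_det_apply u.1).symm.trans (congrArg Units.val h)⟩,
      u.2⟩, Subtype.ext (Units.ext rfl)⟩
  · rintro ⟨s, rfl⟩
    exact Units.ext ((GeneralLinearGroup.val_det_apply _).trans s.1.2)

omit [Fintype F] in
theorem exists_c : ∃ c : GU 6 F 2 →* MulAut (SU 6 F 2), ∀ u s, incl (c u s) = u * incl s * u⁻¹ := by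
  have : (incl (F := F)).range.Normal := by
    have : (incl (F := F)).range = (GeneralLinearGroup.det.comp (GU 6 F 2).subtype).ker := by
      ext u; exact (det_iff u).symm
    rw [this]; infer_instance
  refine ⟨(MulAut.congr (MonoidHom.ofInjective incl_inj).symm).toMonoidHom.comp
    MulAut.conjNormal, fun u s => ?_⟩
  have h := MonoidHom.ofInjective_apply (incl_inj (F := F))
    (x := (MonoidHom.ofInjective incl_inj).symm
      (MulAut.conjNormal u (MonoidHom.ofInjective incl_inj s)))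
  rw [MulEquiv.apply_symm_apply] at h
  exact h.symm

include hF

theorem main {L : Type*} [Group L] (ε : L ≃* PSU 4 F9 3) :
    ∃ K₁ K₂ K₃ : Subgroup (SU 6 F 2), (∀ K ∈ [K₁, K₂, K₃], TC L K) ∧
      (¬ ∃ g : SU 6 F 2, K₁.map (MulAut.conj g).toMonoidHom = K₂) ∧
      (¬ ∃ g : SU 6 F 2, K₁.map (MulAut.conj g).toMonoidHom = K₃) ∧
      (¬ ∃ g : SU 6 F 2, K₂.map (MulAut.conj g).toMonoidHom = K₃) ∧
      ∀ K : Subgroup (SU 6 F 2), TC L K → ∃ g : SU 6 F 2,
        K.map (MulAut.conj g).toMonoidHom = K₁ ∨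
        K.map (MulAut.conj g).toMonoidHom = K₂ ∨ K.map (MulAut.conj g).toMonoidHom = K₃ := by
  obtain ⟨ω, hω⟩ := Uni.exists_omega hF
  obtain ⟨c, hc⟩ := exists_c (F := F)
  have := simple_PSU9
  obtain ⟨hZ, -⟩ := simple_nonab (L := PSU 4 F9 3) (by rw [card_PSU9]; norm_num)
  obtain ⟨K, ⟨e⟩⟩ := exists_sub hF
  have h0 := tc_comap (by rw [CL.Uni.card_center_SU hF (by norm_num)]; norm_num) hZ e
  generalize K.comap (QuotientGroup.mk' (center (SU 6 F 2))) = K₀ at h0
  have hw : ω ^ 3 = 1 := Uni.pow_three hF (om_ne hω)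
  obtain ⟨δ, hδ⟩ : ∃ δ : GU 6 F 2, GeneralLinearGroup.det.comp (GU 6 F 2).subtype δ =
      Units.mk0 ω (om_ne hω) := by
    have hd : (diagonal ![ω, 1, 1, 1, 1, 1]).det = ω := by simp [Fin.prod_univ_six]
    refine ⟨⟨GeneralLinearGroup.mkOfDetNeZero (diagonal ![ω, 1, 1, 1, 1, 1])
      (hd.trans_ne (om_ne hω)), fun u v => ?_⟩, Units.ext ?_⟩
    · show hermForm 6 F 2 (diagonal ![ω, 1, 1, 1, 1, 1] *ᵥ u) (diagonal ![ω, 1, 1, 1, 1, 1] *ᵥ v) = _
      simp only [hermForm, Fin.sum_univ_six, mulVec_diagonal]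
      simp only [cons_val_zero, cons_val_one, cons_val, one_mul]
      linear_combination u 0 * v 0 ^ 2 * hw
    · exact (GeneralLinearGroup.val_det_apply _).trans hd
  let j : ∀ K : Subgroup (SU 6 F 2), K →* GL (Fin 6) F := fun K =>
    (GU 6 F 2).subtype.comp (incl.comp K.subtype)
  have hj : ∀ K, Function.Injective (j K) := fun K =>
    Subtype.val_injective.comp (incl_inj.comp Subtype.val_injective)
  have tc : ∀ K : Subgroup (SU 6 F 2), TC L K ↔ TC (PSU 4 F9 3) K := fun K =>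
    and_congr_right fun _ => ⟨fun ⟨e⟩ => ⟨e.trans ε⟩, fun ⟨e⟩ => ⟨e.trans ε.symm⟩⟩
  simp only [tc]
  have nf : ∀ K : Subgroup (SU 6 F 2), TC (PSU 4 F9 3) K → ∃ κ, NF ω (j K) κ := fun K hK =>
    let ⟨π, h1, h2⟩ := hK.exists_hom
    exists_nf hF hω (hj K) (fun x => (incl x.1).2) π h1 h2
  obtain ⟨κ₀, N₀⟩ := nf K₀ h0
  refine three incl c (fun s => MulEquiv.ext fun t => incl_inj (by
      rw [hc, MulAut.conj_apply, map_mul, map_mul, map_inv])) _ det_iff δ ?_ ?_ (fun a => ?_)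
    (fun K => TC (PSU 4 F9 3) K) (fun α K h => h.congr (equivMapOfInjective K _ α.injective)) h0
    (fun K hK => ?_) fun u hu => ?_
  · rw [hδ]; exact fun h => om_ne_one hF hω (congrArg Units.val h)
  · rw [hδ]
    intro h
    have h1 : ω * ω = 1 := congrArg Units.val h
    exact om_ne_one hF hω (by rw [← hw, pow_succ, pow_two, h1, one_mul])
  · rw [hδ]
    rcases om_cases hF hω a with h | h | h | h
    · exact absurd h a.ne_zero
    · exact Or.inl (Units.ext h)
    · exact Or.inr (Or.inl (Units.ext h))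
    · refine Or.inr (Or.inr (eq_inv_of_mul_eq_one_left (Units.ext ?_)))
      rw [Units.val_mul, h, Units.val_mk0, Units.val_one]
      linear_combination hω - Uni.two_eq hF
  · obtain ⟨κ, N⟩ := nf K hK
    obtain ⟨g, hg, h1, h2⟩ := N.exists_conj hF hω N₀
    refine ⟨⟨g, hg⟩, le_antisymm ?_ fun y hy => ?_⟩
    · rintro _ ⟨x, hx, rfl⟩
      obtain ⟨y, e⟩ := h1 ⟨x, hx⟩
      have : c ⟨g, hg⟩ x = y := incl_inj (Subtype.ext (by rw [hc]; exact e))
      exact this.symm ▸ y.2
    · obtain ⟨x, e⟩ := h2 ⟨y, hy⟩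
      exact ⟨x, x.2, incl_inj (Subtype.ext (by
        rw [show (c ⟨g, hg⟩).toMonoidHom x = c ⟨g, hg⟩ x from rfl, hc]; exact e))⟩
  · obtain ⟨π, h1, h2⟩ := h0.exists_hom
    exact N₀.det_eq_one hF hω (fun x => (det_iff _).2 ⟨x.1, rfl⟩) (hj _) π h1 h2 (g := u.1)
      ((equivMapOfInjective K₀ _ (c u).injective).trans (MulEquiv.subgroupCongr hu))
      fun x => congrArg Subtype.val (hc u x)

end CL.FiU
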