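import Cfsg.Agent.SPOR.FiA14

/-!
The three classes of outer involutions of M(22).
-/

set_option autoImplicit false

namespace CL.FiA.O22

open Cfsg CL.TT CL.TTU CL.K CL.Fi CL.Net CL.FiN CL.FiL CL.FiC Subgroup D22

variable {G : Type*} [Group G] {D : Set G} {p : ℕ → G} (R : Real 3510 op D p) (h : Is22 D)
  (g : Gp D) {s : MulAut G} (hs : ∀ u < 3510, s (p u) = p (π u))
include R

theorem fr_ab : Fr D [p 0, p 143] := fr_two.2 ⟨R.mem (by norm_num), R.mem (by norm_num),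
  fun e => absurd (R.inj (by norm_num) (by norm_num) e) (by norm_num),
  (mod.commute_iff_cm R (by norm_num) (by norm_num)).2 chk_pat.2.2.2.2.2.2.2.2.2.1⟩

theorem com_of_cmM {u : ℕ} (hu : u < 3510) {y : G} : y ∈ ms 3510 p (D22.cmM u) ↔
    y ∈ D ∧ Commute (p u) y := by rw [mod.ms_cmM R hu]; rfl

theorem mem_cmL {l : List ℕ} (hl : ∀ u ∈ l, u < 3510) {y : G} (hy : y ∈ D)
    (h : ∀ x ∈ ms 3510 p (lmask l), Commute x y) : y ∈ ms 3510 p (D22.cmL l) := by
  rw [mod.ms_cmL R hl]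
  exact ⟨hy, fun u hu => h _ (ms_lmask R hl ▸ ⟨u, hu, rfl⟩)⟩

include g hs

theorem W8_fix : ∀ w ∈ W8, lw p pt w ∈ Fix s := W8_mem R g fun _ _ => mem_fix R hs

theorem trans1 {a : G} (ha : a ∈ D) (e : s a = a) : ∃ k ∈ Fix s, k * p 0 * k⁻¹ = a :=
  mod.exists_cj_of_bfs R (fun w hw => (chk_W8 w hw).1) (W8_fix R g hs) 2 (by norm_num)
    (ms_mono R chk_orb.2.2.1 (fix1 R hs ▸ ⟨ha, e⟩))

theorem trans2 {a b : G} (hl : Fr D [a, b]) (e : s a = a) (e' : s b = b) :
    ∃ k ∈ Fix s, k * p 0 * k⁻¹ = a ∧ k * p 143 * k⁻¹ = b := by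
  obtain ⟨ha, hb, h1, h2⟩ := fr_two.1 hl
  obtain ⟨k, hk, rfl⟩ := trans1 R g hs ha e
  have m : ∀ w ∈ WS, w ∈ W8 := fun w hw => by simp [W8, hw]
  have h3 : k⁻¹ * b * k⁻¹⁻¹ ∈ ms 3510 p (Nat.land M1 (D22.cmM 0)) := by
    rw [ms_land R, ← fix1 R hs]
    exact ⟨⟨g.nm _ _ hb, mul_mem (mul_mem (inv_mem hk) e') (inv_mem (inv_mem hk))⟩,
      (com_of_cmM R (by norm_num)).2 ⟨g.nm _ _ hb, by
        rwa [← commute_cj_iff k⁻¹, inv_cj_cj] at h2⟩⟩
  have h4 := ms_mono R chk_orb.2.2.2.1 h3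
  rw [ms_lor R] at h4
  rcases h4 with ⟨u, ⟨-, hu⟩, e⟩ | h4
  · rw [tb_eq, show Nat.pow 2 0 = 2 ^ 0 from rfl, Nat.testBit_two_pow, decide_eq_true_iff] at hu
    exact absurd (by rw [hu, e, cj_inv_cj]) h1
  · have := chk_orb.2.1
    simp only [FiN.stepOK, an_iff, lall_iff, beq_iff] at this
    obtain ⟨j, hj, e⟩ := mod.exists_cj_of_bfs R (fun w hw => (chk_W8 w (m w hw)).1)
      (K := Fix s ⊓ centralizer {p 0}) (fun w hw => ⟨W8_fix R g hs w (m w hw),
        mem_centralizer_singleton_iff.2 (commute_lw mod R (chk_W8 w (m w hw)).1 (by norm_num)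
          (this.2.2.1 w hw 0 (by simp)))⟩) 5 (by norm_num) h4
    exact ⟨k * j, mul_mem hk hj.1, by
      rw [← cj_cj, cj_eq_of_commute (mem_centralizer_singleton_iff.1 hj.2)], by
      rw [← cj_cj, e, cj_inv_cj]⟩

include h

theorem classify (t : MulAut G) (ht : orderOf t = 2) (ho : t ∉ (MulAut.conj : G →* MulAut G).range) :
    IsConj t s ∨ IsConj t (s * MulAut.conj (p 0)) ∨ IsConj t (s * MulAut.conj (p 0 * p 143)) := by
  obtain ⟨S, h1, h2, h3⟩ := T22.outer h g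
  have hu : p 719 ∈ D := R.mem (by norm_num)
  have u1 := mem_fix R hs (u := 719) (by norm_num) chk_pat.2.2.2.2.2.2.1
  have u2 : ¬ Commute (p 0) (p 719) := by
    rw [mod.commute_iff_cm R (by norm_num) (by norm_num)]
    exact Bool.eq_false_iff.1 chk_pat.2.2.2.2.2.2.2.1
  have u3 := (mod.commute_iff_cm R (by norm_num) (by norm_num)).2 chk_pat.2.2.2.2.2.2.2.2.1
  have hS : S s := by
    obtain ⟨σ, l, q1, q2, q3, q4, q5⟩ := h3 s (s_sq R g hs) (s_out R h g hs)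
    have q6 : ∀ a ∈ l, s a = a := fun a ha => by
      rw [q5, MulAut.mul_apply, MulAut.conj_apply, cj_eq_of_commute (q2.commute_prod ha).symm,
        q4 a ha]
    have q7 : ∀ k ∈ Fix s, l.prod * (k * p 719 * k⁻¹) * l.prod⁻¹ ≠
        k * (p 0 * p 719 * p 0) * k⁻¹ := fun k hk e => by
      have e1 := mem_Fix.1 (mul_mem (mul_mem hk u1) (inv_mem hk))
      have e2 := h1 σ q1 _ (g.nm k _ (R.fs.conj _ (R.mem (a := 0) (by norm_num)) _ hu))
      rw [q5, MulAut.mul_apply, MulAut.conj_apply, e] at e1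
      rw [e1, commute_cj_iff] at e2
      exact R.fs.not_commute_op_right (R.mem (by norm_num)) hu u2 e2.symm
    match l, q2, q3, q5, q6, q7 with
    | [], _, _, q5, _, _ => simpa [q5] using q1
    | [a], q2, _, _, q6, q7 =>
      obtain ⟨k, hk, rfl⟩ := trans1 R g hs (q2.mem a (by simp)) (q6 a (by simp))
      refine absurd ?_ (q7 k hk)
      rw [← R.fs.cj (R.mem (a := 0) (by norm_num))]
      simp [mul_assoc]
    | [a, b], q2, _, _, q6, q7 =>
      obtain ⟨k, hk, rfl, rfl⟩ := trans2 R g hs q2 (q6 a (by simp)) (q6 b (by simp))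
      refine absurd ?_ (q7 k hk)
      rw [← R.fs.cj (R.mem (a := 0) (by norm_num))]
      nth_rw 2 [← cj_eq_of_commute u3]
      simp [mul_assoc]
    | _ :: _ :: _ :: _, _, q3, _, _, _ => simp at q3
  obtain ⟨σ, l, q1, q2, q3, q4, rfl⟩ := h3 t (by rw [← sq, ← ht, pow_orderOf_eq_one]) ho
  obtain ⟨y, rfl⟩ := h2 s σ hS q1
  have q5 : IsConj (MulAut.conj y * s * (MulAut.conj y)⁻¹ * MulAut.conj l.prod)
      (s * MulAut.conj (l.map fun x => y⁻¹ * x * y⁻¹⁻¹).prod) := isConj_iff.2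
    ⟨(MulAut.conj y)⁻¹, by rw [prod_map_cj, map_mul, map_mul, map_inv, map_inv, map_inv]; group⟩
  have q6 : ∀ a ∈ l.map fun x => y⁻¹ * x * y⁻¹⁻¹, s a = a := fun a ha => by
    obtain ⟨x, hx, rfl⟩ := List.mem_map.1 ha
    refine cj_inj (g := y) ?_
    simpa [mul_assoc] using q4 x hx
  have q7 := q2.cj (g.nm y⁻¹)
  have q8 : (l.map fun x => y⁻¹ * x * y⁻¹⁻¹).length ≤ 2 := by simpa using q3
  generalize (l.map fun x => y⁻¹ * x * y⁻¹⁻¹) = l' at q5 q6 q7 q8
  match l', q5, q6, q7, q8 with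
  | [], q5, _, _, _ => exact Or.inl (by simpa using q5)
  | [a], q5, q6, q7, _ =>
    obtain ⟨k, hk, rfl⟩ := trans1 R g hs (q7.mem a (by simp)) (q6 a (by simp))
    exact Or.inr (Or.inl (q5.trans (by simpa using (isConj_of_fix hk (p 0)).symm)))
  | [a, b], q5, q6, q7, _ =>
    obtain ⟨k, hk, rfl, rfl⟩ := trans2 R g hs q7 (q6 a (by simp)) (q6 b (by simp))
    exact Or.inr (Or.inr (q5.trans (by
      simpa [mul_assoc] using (isConj_of_fix hk (p 0 * p 143)).symm)))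
  | _ :: _ :: _ :: _, _, _, _, q8 => simp at q8

theorem not_conj : ¬ IsConj s (s * MulAut.conj (p 0)) ∧ ¬ IsConj s (s * MulAut.conj (p 0 * p 143)) ∧
    ¬ IsConj (s * MulAut.conj (p 0)) (s * MulAut.conj (p 0 * p 143)) := by
  have k := fun α β => ncard_fix_eq (α := α) (β := β) fun α _ hx =>
    g.aut_mem (fun _ => T22.mem_of_tt h g) α hx
  refine ⟨fun e => absurd (k _ _ e) ?_, fun e => absurd (k _ _ e) ?_, fun e => absurd (k _ _ e) ?_⟩ <;>
    simp only [fix1 R hs, fix2 R hs, fix3 R hs, ncard_ms_eq R chk_card.1, ncard_ms_eq R chk_card.2.1,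
      ncard_ms_eq R chk_card.2.2] <;> norm_num

omit h in
theorem fix2_iff (x : G) : (s * MulAut.conj (p 0)) x = x ↔ x ∈ Fix s ⊓ centralizer {p 0} := by
  have key : Commute x (p 0) → ((s * MulAut.conj (p 0)) x = x ↔ s x = x) := fun c => by
    rw [MulAut.mul_apply, MulAut.conj_apply, cj_eq_of_commute c.symm]
  refine ⟨fun e => ?_, fun e => (key (mem_centralizer_singleton_iff.1 e.2)).2 e.1⟩
  have h1 := ms_mono R chk_pat.2.2.1 (mem_cmL R (by decide) (g.nm x _ (R.mem (a := 0) (by norm_num)))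
    fun y hy => by
      have h2 : y ∈ {x | x ∈ D ∧ (s * MulAut.conj (p 0)) x = x} :=
        fix2 R hs ▸ ms_mono R chk_pat.2.1 hy
      have h3 : x⁻¹ * y * x⁻¹⁻¹ ∈ ms 3510 p M2 := fix2 R hs ▸ ⟨g.nm _ _ h2.1,
        mem_Fix.1 (mul_mem (mul_mem (inv_mem e) h2.2) (inv_mem (inv_mem e)))⟩
      have h4 := ((com_of_cmM R (by norm_num)).1 (ms_mono R chk_pat.1 h3)).2
      rw [← commute_cj_iff x, cj_inv_cj] at h4
      exact h4.symm)
  obtain ⟨u, hu, -, e'⟩ := exists_of_mem_lmask R h1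
  rw [List.mem_singleton.1 hu] at e'
  have c := commute_of_cj_eq e'.symm
  exact ⟨(key c).1 e, mem_centralizer_singleton_iff.2 c⟩

theorem card_le : Nat.card (Fix s ⊓ centralizer {p 0} : Subgroup G) ≤ 2 * 1451520 ∧
    Nat.card (Fix s ⊓ centralizer (PS p [143, 0]) : Subgroup G) ≤ 46080 := by
  have := g.finite
  have h1 := step mod R chk_orb.1 (W8_fix R g hs)
  have h2 := step mod R chk_orb.2.1 fun w hw => W8_fix R g hs w (by simp [W8, show w ∈ WS from hw])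
  have e : PS p [0] = {p 0} := by simp [PS_cons, PS_nil]
  have h3 := card_le_of_le (inf_le_left : Fix s ⊓ centralizer (PS p []) ≤ _)
  rw [(fix_struct R h g hs).2.1] at h3
  simp only [e] at h1 h2
  omega

theorem cent2 : Nonempty ((Fix s ⊓ centralizer {p 0} : Subgroup G) ≃*
    Multiplicative (ZMod 2) × PSp 3 (ZMod 2)) := by
  have := g.finite
  obtain ⟨⟨_, _, R₀⟩, h1, h2⟩ := ontoS (G := G)
  obtain ⟨-, R', -⟩ := real_embM R R₀ chk_eS.1 chk_eS.2.1
  obtain ⟨φ, h3, h4⟩ := h2 R'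
  have h5 : ∀ x ∈ ms 3510 p (msk eS 63), x ∈ H8 p ∧ Commute (p 0) x := fun x hx => by
    have := ms_mono R chk_eS.2.2.1 hx
    rw [ms_land R] at this
    exact ⟨subset_closure this.1, ((com_of_cmM R (by norm_num)).1 this.2).2⟩
  have h6 : Subgroup.closure (ms 3510 p (msk eS 63)) ≤ H8 p := (closure_le _).2 fun x hx => (h5 x hx).1
  have h7 : Subgroup.closure (ms 3510 p (msk eS 63)) ≤ Fix s ⊓ centralizer {p 0} :=
    (closure_le _).2 fun x hx => ⟨H8_le R hs (h5 x hx).1,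
      mem_centralizer_singleton_iff.2 (h5 x hx).2.symm⟩
  have h8 : p 0 ∈ Subgroup.closure (ms 3510 p (msk eS 63)) := by
    rw [← wd_singleton p, (mod.isBs_gp R g).wd_eq R chk_eS.2.2.2]
    refine wd_mem_closure fun u hu => ?_
    obtain ⟨i, hi, rfl⟩ := List.mem_map.1 hu
    exact R'.mem (ltA_iff.1 (by decide +kernel) i hi)
  have n : ((N8 p).subgroupOf (H8 p)).Normal :=
    normal_subgroupOf_of_le_normalizer (normalizer_commutator_ge_left _ _)
  have : Fact (Nat.Prime 2) := ⟨Nat.prime_two⟩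
  have e : H8 p ⧸ (N8 p).subgroupOf (H8 p) ≃* Multiplicative (ZMod 2) := mulEquivOfPrimeCardEq (p := 2)
    (by
      have := card_eq_card_quotient_mul_card_subgroup ((N8 p).subgroupOf (H8 p))
      rw [Nat.card_congr (subgroupOfEquivOfLe (show N8 p ≤ H8 p from commutator_le_self _)).toEquiv,
        (card8 R h g).1, (card8 R h g).2] at this
      omega) (by simp)
  have h9 := (card_le R h g hs).1
  obtain ⟨h10, ⟨e'⟩⟩ := split2 φ h3 ((e.toMonoidHom.comp (QuotientGroup.mk' _)).comp (inclusion h6))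
    (a := ⟨p 0, h8⟩) (h4.ge ((mem_center_closure_iff _).2 fun x hx => (h5 x hx).2))
    (fun q => not_mem_N8 R h g (by simpa [mem_subgroupOf] using q))
    ((card_le_of_le h7).trans (h1 ▸ h9))
  exact ⟨(MulEquiv.subgroupCongr (eq_of_le_of_card_ge h7 (by rw [h10, h1]; exact h9)).symm).trans e'⟩

theorem card3_le : Nat.card (Fix (s * MulAut.conj (p 0 * p 143))) ≤ 51840 * 64 := by
  have := g.finite
  obtain ⟨h0, h1, h2, h3⟩ := fr_two.1 (fr_ab R)
  have m : ∀ x ∈ Fix (s * MulAut.conj (p 0 * p 143)), Nm (ms 3510 p M3) x := fun x hx y hy => by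
    rw [← fix3 R hs] at hy ⊢
    exact ⟨g.nm _ _ hy.1, mem_Fix.1 (mul_mem (mul_mem hx hy.2) (inv_mem hx))⟩
  have h4 : ((fun g => g * p 0 * g⁻¹) '' (Fix (s * MulAut.conj (p 0 * p 143)) : Set G)).ncard ≤ 72 := by
    rw [← ncard_ms_eq R chk_card.2.2]
    refine Set.ncard_le_ncard ?_ (Set.toFinite _)
    rintro _ ⟨x, hx, rfl⟩
    exact m x hx _ ((R.mem_ms (by norm_num)).2 (chk_U6 (0, 143) (by decide)).2.2.1)
  have h5 : Fix (s * MulAut.conj (p 0 * p 143)) ⊓ centralizer {p 0} ≤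
      Fix s ⊓ centralizer (PS p [143, 0]) := fun x hx => by
    have c0 : Commute x (p 0) := mem_centralizer_singleton_iff.1 hx.2
    have h6 := ms_mono R chk_pat.2.2.2.2.2.1 (mem_cmL R (by decide) (g.nm x _ h1) fun y hy => by
      have h7 := ms_mono R chk_pat.2.2.2.2.1 hy
      rw [ms_land R] at h7
      have h8 : x⁻¹ * y * x⁻¹⁻¹ ∈ ms 3510 p (Nat.land M3 (D22.cmM 0)) := by
        rw [ms_land R]
        obtain ⟨h9, h10⟩ := (com_of_cmM R (by norm_num)).1 h7.2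
        exact ⟨m _ (inv_mem hx.1) _ h7.1, (com_of_cmM R (by norm_num)).2 ⟨g.nm _ _ h9, by
          rwa [← cj_eq_of_commute c0.inv_left, commute_cj_iff]⟩⟩
      have h9 := ((com_of_cmM R (by norm_num)).1 (ms_mono R chk_pat.2.2.2.1 h8)).2
      rw [← commute_cj_iff x, cj_inv_cj] at h9
      exact h9.symm)
    obtain ⟨u, hu, -, e⟩ := exists_of_mem_lmask R h6
    rcases List.mem_pair.1 hu with rfl | rfl
    · exact absurd (cj_inj (e.symm.trans (cj_eq_of_commute c0).symm)) h2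
    have c1 := commute_of_cj_eq e.symm
    refine ⟨?_, mem_centralizer_PS.2 (by simp [c0, c1])⟩
    have := mem_Fix.1 hx.1
    rwa [MulAut.mul_apply, MulAut.conj_apply, cj_eq_of_commute (c0.mul_right c1).symm] at this
  rw [FiP.card_eq_ncard_mul _ (p 0)]
  exact (Nat.mul_le_mul h4 ((card_le_of_le h5).trans (card_le R h g hs).2)).trans (by norm_num)

theorem cent3 : ∃ O : Subgroup G, O = (pCore 2 (Fix (s * MulAut.conj (p 0 * p 143)))).map
      (Fix (s * MulAut.conj (p 0 * p 143))).subtype ∧ IsElementaryAbelian 2 O ∧ Nat.card O = 64 ∧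
    ∃ _ : (O.subgroupOf (Fix (s * MulAut.conj (p 0 * p 143)))).Normal,
      Nonempty (Fix (s * MulAut.conj (p 0 * p 143)) ⧸
        O.subgroupOf (Fix (s * MulAut.conj (p 0 * p 143))) ≃* FiP.O6m) := by
  have := g.finite
  have B := mod.isBs_gp R g
  obtain ⟨⟨_, _, R₀⟩, h2⟩ := onto6 (G := G)
  obtain ⟨-, R', h1⟩ := real_embM R R₀ chk_e6.1 chk_e6.2.1
  obtain ⟨φ, h3, -⟩ := h2 R'
  have m : ∀ y ∈ ms 3510 p M3, y ∈ Fix (s * MulAut.conj (p 0 * p 143)) := fun y hy =>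
    (fix3 R hs ▸ hy : y ∈ {x | x ∈ D ∧ (s * MulAut.conj (p 0 * p 143)) x = x}).2
  let V : Set G := (fun e : ℕ × ℕ => p e.1 * p e.2) '' {e | e ∈ U6}
  have v1 : ∀ e ∈ U6, p e.1 * p e.2 ∈ Subgroup.closure V := fun e he => subset_closure ⟨e, he, rfl⟩
  have v2 : ∀ x ∈ V, x * x = 1 := by
    rintro _ ⟨e, he, rfl⟩
    obtain ⟨q1, q2, -, -, q3, -⟩ := chk_U6 e he
    have c := (mod.commute_iff_cm R q1 q2).2 q3
    rw [c.symm.mul_mul_mul_comm, R.fs.sq (R.mem q1), R.fs.sq (R.mem q2), one_mul]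
  have v3 : IsMulCommutative (Subgroup.closure V) := by
    refine ⟨⟨fun a b => Subtype.ext (TTU.commute_of_mem_closure (fun x hx =>
      TT.commute_of_mem_closure (fun y hy => ?_) b.2) a.2)⟩⟩
    obtain ⟨e, he, rfl⟩ := hx
    obtain ⟨e', he', rfl⟩ := hy
    simpa [wd, mul_assoc, Commute, SemiconjBy] using B.wd_eq R ((chk_U6 e he).2.2.2.2.2 e' he').1
  have v4 : ∀ x ∈ Subgroup.closure V, x ^ 2 = 1 := closure_ind v2 (by simp) fun a ha b hb q => by
    have c : Commute a b := congrArg Subtype.val (v3.1.1 ⟨a, subset_closure ha⟩ ⟨b, hb⟩)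
    rw [c.mul_pow, q, sq, v2 a ha, one_mul]
  have v5 : ∀ l : List ℕ, wd p (prs l) ∈ Subgroup.closure V := fun l => by
    induction l with
    | nil => exact one_mem _
    | cons i l ih =>
      rw [prs, List.flatMap_cons, wd_append]
      refine mul_mem ?_ ih
      have : U6.getD i (0, 143) ∈ U6 := by
        rw [List.getD_eq_getElem?_getD]
        cases q : U6[i]? with
        | none => decide
        | some e => exact List.mem_of_getElem? q
      simpa [wd] using v1 _ this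
  have v6 := chain mod R chk_CO (K := Subgroup.closure V) (by
    intro c hc w hw
    obtain ⟨e, he, rfl⟩ := List.mem_map.1 hc
    rw [List.mem_singleton.1 hw, mod.lw_xw R (by clear hc hw; revert e; decide)]
    exact v5 _)
  obtain ⟨q1, q2, q3⟩ := semi (C := Fix (s * MulAut.conj (p 0 * p 143))) (O := Subgroup.closure V)
    ((closure_le _).2 (by
      rintro _ ⟨e, he, rfl⟩
      obtain ⟨q1, q2, q3, q4, -⟩ := chk_U6 e he
      exact mul_mem (m _ ((R.mem_ms q1).2 q3)) (m _ ((R.mem_ms q2).2 q4))))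
    ((closure_le _).2 fun x hx => m x (ms_mono R chk_e6.2.2.1 hx))
    ((h1 _).2 fun i hi => by
      obtain ⟨e', he', q⟩ := List.mem_map.1 (chk_e6.2.2.2 ▸ List.mem_map_of_mem hi :
        e6 i ∈ U6.map (·.1))
      rw [← q]
      refine mem_normalizer_fintype fun x hx => (Subgroup.map_le_iff_le_comap.2
        ((closure_le ((Subgroup.closure V).comap (MulAut.conj (p e'.1)).toMonoidHom)).2 ?_))
        ⟨x, hx, rfl⟩
      rintro _ ⟨e, he, rfl⟩
      have q1 : MulAut.conj (p e'.1) (p e.1 * p e.2) = wd p [e'.1, e.1, e.2, e'.1] := by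
        simp [wd, mul_assoc, R.fs.inv (R.mem (chk_U6 e' he').1)]
      refine mem_comap.2 (q1 ▸ ?_ : MulAut.conj (p e'.1) (p e.1 * p e.2) ∈ _)
      rcases ((chk_U6 e he).2.2.2.2.2 e' he').2 with q2 | q2 <;> rw [B.wd_eq R q2]
      · simpa [wd] using v1 e he
      · simpa [wd, mul_assoc] using mul_mem (v1 e he) (v1 e' he'))
    (fun x => ⟨1, Subtype.ext (v4 x x.2)⟩) φ h3 (fun Q _ => eq_bot_O6m) (m := 64)
    ((le_trans (Nat.le_mul_of_pos_right _ Nat.card_pos) v6).trans (card_le_of_le inf_le_left))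
    (FiP.card_O6m ▸ card3_le R h g hs)
  exact ⟨_, q1, ⟨v3, v4⟩, q2, q3⟩

end CL.FiA.O22
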